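import Cfsg.Agent.Lib.MinIndex.Unit.Root

/-!
Orbits of the root group in an action: the invariants of a point and the two family bounds.
-/

set_option autoImplicit false
set_option linter.unusedSectionVars false

namespace CfsgLib.MinIndexUnit

open CfsgLib.Geometric CfsgLib.Geometric.Unitary CfsgLib.ClassicalForms MulAction

/-- Counting through the fibres of a map. -/
theorem card_mul_le_of_fibres {α β : Type*} [Finite α] [Finite β] (f : α → β) (T : Set β) (k : ℕ)
    (h : ∀ b ∈ T, k ≤ Nat.card {a // f a = b}) : Nat.card T * k ≤ Nat.card α := by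
  classical
  have := Fintype.ofFinite α
  have := Fintype.ofFinite β
  calc Nat.card T * k = ∑ _b : T, k := by
        rw [Finset.sum_const, Finset.card_univ, smul_eq_mul, Nat.card_eq_fintype_card]
    _ ≤ ∑ b : T, Nat.card {a // f a = b.1} := Finset.sum_le_sum fun b _ => h _ b.2
    _ = Nat.card (Σ b : T, {a // f a = b.1}) := Nat.card_sigma.symm
    _ ≤ Nat.card α := Nat.card_le_card_of_injective (fun p => p.2.1) fun p p' e => by
        obtain ⟨⟨b, hb⟩, a, ha⟩ := p
        obtain ⟨⟨b', hb'⟩, a', ha'⟩ := p'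
        obtain rfl : a = a' := e
        obtain rfl : b = b' := ha.symm.trans ha'
        rfl

variable {F : Type*} [Field F] [Finite F] {q : ℕ} (K : UC F q)

namespace UC

/-- The image of a subgroup of vectors. -/
def mapSub {m : ℕ} (g : K.G m) (A : AddSubgroup (Fin m → F)) : AddSubgroup (Fin m → F) :=
  A.map (apEquiv (g : GL (Fin m) F)).toLinearMap.toAddMonoidHom

lemma mem_mapSub {m : ℕ} {g : K.G m} {A : AddSubgroup (Fin m → F)} {x : Fin m → F} :
    ap (g : GL (Fin m) F) x ∈ K.mapSub g A ↔ x ∈ A := by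
  constructor
  · rintro ⟨y, hy, e⟩
    obtain rfl := ap_injective _ e
    exact hy
  · exact fun h => ⟨x, h, rfl⟩

lemma mapSub_mul {m : ℕ} (g h : K.G m) (A : AddSubgroup (Fin m → F)) :
    K.mapSub (g * h) A = K.mapSub g (K.mapSub h A) := by
  ext x
  obtain ⟨y, rfl⟩ : ∃ y, ap ((g * h : K.G m) : GL (Fin m) F) y = x := ⟨_, ap_ap_inv _ x⟩
  rw [K.mem_mapSub, Subgroup.coe_mul, ap_mul, K.mem_mapSub, K.mem_mapSub]

lemma mapSub_one {m : ℕ} (A : AddSubgroup (Fin m → F)) : K.mapSub 1 A = A := by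
  ext x
  conv_lhs => rw [← ap_one x]
  exact K.mem_mapSub

lemma card_mapSub {m : ℕ} (g : K.G m) (A : AddSubgroup (Fin m → F)) :
    Nat.card (K.mapSub g A) = Nat.card A :=
  Nat.card_image_of_injective (ap_injective (g : GL (Fin m) F)) A

/-- The orbit of a subgroup of vectors. -/
def orb {m : ℕ} (A : AddSubgroup (Fin m → F)) : Set (AddSubgroup (Fin m → F)) :=
  Set.range fun g : K.G m => K.mapSub g A

lemma mem_orb_self {m : ℕ} (A : AddSubgroup (Fin m → F)) : A ∈ K.orb A := ⟨1, K.mapSub_one A⟩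

/-- The fixed field as an additive subgroup. -/
def fx : AddSubgroup F where
  carrier := {c | K.σ c = c}
  add_mem' {a b} ha hb := by simp_all
  zero_mem' := map_zero _
  neg_mem' {a} ha := by simp_all

lemma card_fx : Nat.card K.fx = q := K.card_fixed

lemma tEl_congr {n : ℕ} {u : Fin n → F} (hu : K.fm n u u = 0) {c d : F} (hc : K.σ c = c)
    (hd : K.σ d = d) (h : c = d) : K.tEl hu c hc = K.tEl hu d hd := by subst h; rfl

lemma tEl_mul {n : ℕ} {u : Fin n → F} (hu : K.fm n u u = 0) (c d : F) (hc : K.σ c = c)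
    (hd : K.σ d = d) :
    K.tEl hu c hc * K.tEl hu d hd = K.tEl hu (c + d) (by rw [map_add, hc, hd]) := by
  refine K.g_ext fun z => ?_
  rw [Subgroup.coe_mul, ap_mul, K.ap_tEl, K.ap_tEl, K.ap_tEl]
  simp only [(K.skewForm n).add_left, (K.skewForm n).smul_left, hu]
  module

lemma tEl_zero {n : ℕ} {u : Fin n → F} (hu : K.fm n u u = 0) :
    K.tEl hu 0 (map_zero _) = 1 :=
  K.g_ext fun z => by rw [K.ap_tEl]; simp

lemma conj_tEl {n : ℕ} {u v : Fin n → F} (hu : K.fm n u u = 0) (hv : K.fm n v v = 0) (c d : F)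
    (hc : K.σ c = c) (hd : K.σ d = d) (g : K.G n) {a : F}
    (hg : ap (g : GL (Fin n) F) u = a • v) (he : a * K.σ a * c = d) :
    g * K.tEl hu c hc * g⁻¹ = K.tEl hv d hd := by
  refine K.g_ext fun z => ?_
  obtain ⟨z, rfl⟩ : ∃ z', ap (g : GL (Fin n) F) z' = z := ⟨_, ap_ap_inv _ z⟩
  have h1 : K.fm n z u = K.σ a * K.fm n (ap (g : GL (Fin n) F) z) v := by
    rw [← K.fm_ap g z u, hg, smul_right (K.skewForm n)]
  rw [Subgroup.coe_mul, Subgroup.coe_mul, Subgroup.coe_inv, ap_mul, ap_mul, ap_inv_ap, K.ap_tEl,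
    K.ap_tEl, ap_add, ap_smul, hg, h1, ← he]
  module

end UC

namespace Frame

variable {K} {m : ℕ} (fr : Frame K m) {Ω : Type*} [MulAction (K.G (m + 2)) Ω]

/-- The projection of the stabiliser of a point in the root group. -/
def ab (z : Ω) : AddSubgroup (Fin m → F) where
  carrier := {w | ∃ g ∈ fr.U, g • z = z ∧ fr.proj g = w}
  zero_mem' := ⟨1, one_mem _, one_smul _ z, fr.proj_tr (one_mem _)⟩
  add_mem' := by
    rintro a b ⟨g, hg, gz, rfl⟩ ⟨h, hh, hz, rfl⟩
    exact ⟨g * h, mul_mem hg hh, by rw [mul_smul, hz, gz], fr.proj_mul hg hh⟩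
  neg_mem' := by
    rintro a ⟨g, hg, gz, rfl⟩
    refine ⟨g⁻¹, inv_mem hg, inv_smul_eq_iff.2 gz.symm, eq_neg_of_add_eq_zero_left ?_⟩
    rw [← fr.proj_mul (inv_mem hg) hg, inv_mul_cancel, fr.proj_tr (one_mem _)]

/-- The parameters of the transvections fixing a point. -/
def cz (z : Ω) : AddSubgroup F where
  carrier := {c | ∃ hc : K.σ c = c, K.tEl fr.hu c hc • z = z}
  zero_mem' := ⟨map_zero _, by rw [K.tEl_zero, one_smul]⟩
  add_mem' := by
    rintro a b ⟨ha, az⟩ ⟨hb, bz⟩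
    exact ⟨_, by rw [← K.tEl_mul fr.hu a b ha hb, mul_smul, bz, az]⟩
  neg_mem' := by
    rintro a ⟨ha, az⟩
    have hn : K.σ (-a) = -a := by rw [map_neg, ha]
    refine ⟨hn, ?_⟩
    conv_lhs => rw [← az]
    rw [← mul_smul, K.tEl_mul fr.hu (-a) a hn ha,
      K.tEl_congr fr.hu _ (map_zero _) (neg_add_cancel a), K.tEl_zero, one_smul]

lemma cz_le (z : Ω) : fr.cz z ≤ K.fx := fun _ h => h.1

lemma cz_eq_iff (z : Ω) : fr.cz z = K.fx ↔ ∀ g ∈ fr.Z, g • z = z := by
  constructor
  · intro h g hg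
    obtain ⟨c, hc, rfl⟩ := IsTr.eq_tEl hg fr.hu
    exact ((h.ge hc : c ∈ fr.cz z)).2
  · exact fun h => le_antisymm (fr.cz_le z) fun c hc => ⟨hc, h _ (K.isTr_tEl fr.hu c hc)⟩

lemma ab_eq_top_iff (z : Ω) (hC : fr.cz z = K.fx) :
    fr.ab z = ⊤ ↔ ∀ g ∈ fr.U, g • z = z := by
  constructor
  · intro h g hg
    obtain ⟨r, hr, rz, er⟩ := (h.ge trivial : fr.proj g ∈ fr.ab z)
    have hd : fr.proj (r⁻¹ * g) = 0 := by
      have h1 := fr.proj_mul (inv_mem hr) hr
      rw [inv_mul_cancel, fr.proj_tr (one_mem _)] at h1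
      rw [fr.proj_mul (inv_mem hr) hg, ← er, ← h1]
    have h2 := (fr.cz_eq_iff z).1 hC _ (fr.mem_Z_of_proj (mul_mem (inv_mem hr) hg) hd)
    rwa [mul_smul, inv_smul_eq_iff, rz] at h2
  · refine fun h => eq_top_iff.2 fun w _ => ?_
    obtain ⟨g, hg, e⟩ := fr.exists_proj w
    exact ⟨g, hg, h g hg, e⟩

lemma eq_bot_iff_stab (z : Ω) : fr.ab z = ⊥ ↔ ∀ g ∈ fr.U, g • z = z → g ∈ fr.Z := by
  constructor
  · intro h g hg gz
    exact fr.mem_Z_of_proj hg ((AddSubgroup.mem_bot).1 (h.le ⟨g, hg, gz, rfl⟩))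
  · intro h
    refine (AddSubgroup.eq_bot_iff_forall _).2 ?_
    rintro _ ⟨g, hg, gz, rfl⟩
    exact fr.proj_tr (h g hg gz)

/-- The stabiliser of a point in the root group. -/
abbrev us (z : Ω) : Subgroup (K.G (m + 2)) := fr.U ⊓ stabilizer (K.G (m + 2)) z

lemma card_us (z : Ω) : Nat.card (fr.us z) = Nat.card (fr.ab z) * Nat.card (fr.cz z) := by
  classical
  have hG : Finite (K.G (m + 2)) := inferInstance
  choose r hr hrz hrp using fun w : fr.ab z => w.2
  refine (Nat.card_congr (Equiv.ofBijective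
    (fun p : fr.ab z × fr.cz z => (⟨r p.1 * K.tEl fr.hu p.2.1 p.2.2.1,
      mul_mem (hr _) (K.tr_le_root fr.hu (K.isTr_tEl _ _ _)),
      by
        show (r p.1 * K.tEl fr.hu p.2.1 p.2.2.1) • z = z
        rw [mul_smul, p.2.2.2, hrz]⟩ : fr.us z)) ⟨?_, ?_⟩)).symm.trans
    (Nat.card_prod _ _)
  · intro p p' h
    have h1 := congrArg Subtype.val h
    simp only at h1
    have hp : p.1 = p'.1 := by
      have h2 := congrArg fr.proj h1
      rw [fr.proj_mul (hr _) (K.tr_le_root fr.hu (K.isTr_tEl _ _ _)),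
        fr.proj_mul (hr _) (K.tr_le_root fr.hu (K.isTr_tEl _ _ _)),
        fr.proj_tr (K.isTr_tEl _ _ _), fr.proj_tr (K.isTr_tEl _ _ _), hrp, hrp] at h2
      exact Subtype.ext (by simpa using h2)
    rw [hp, mul_left_cancel_iff] at h1
    refine Prod.ext hp (Subtype.ext ?_)
    have h2 := congrArg (fun g : K.G (m + 2) => ap (g : GL (Fin (m + 2)) F) fr.u') h1
    simp only [K.ap_tEl, fr.hpair, mul_one, add_right_inj] at h2
    exact smul_left_injective F fr.u_ne h2
  · rintro ⟨g, hg, gz⟩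
    set w : fr.ab z := ⟨fr.proj g, g, hg, gz, rfl⟩
    have hd : fr.proj ((r w)⁻¹ * g) = 0 := by
      have h1 := fr.proj_mul (inv_mem (hr w)) (hr w)
      rw [inv_mul_cancel, fr.proj_tr (one_mem _), hrp] at h1
      rw [fr.proj_mul (inv_mem (hr w)) hg]
      exact h1.symm
    obtain ⟨c, hc, e⟩ := IsTr.eq_tEl (fr.mem_Z_of_proj (mul_mem (inv_mem (hr w)) hg) hd) fr.hu
    refine ⟨(w, ⟨c, hc, ?_⟩), Subtype.ext ?_⟩
    · rw [← e, mul_smul, inv_smul_eq_iff, hrz]
      exact gz
    · show r w * K.tEl fr.hu c hc = g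
      rw [← e, mul_inv_cancel_left]

/-- The orbit of a point under the root group. -/
lemma card_orbit (z : Ω) : Nat.card (orbit fr.U z) * (Nat.card (fr.ab z) * Nat.card (fr.cz z))
    = q ^ (2 * m + 1) := by
  have e : stabilizer fr.U z = (fr.us z).subgroupOf fr.U := by
    ext g
    simp [Subgroup.mem_subgroupOf, mem_stabilizer_iff, Subgroup.smul_def]
  rw [← fr.card_us z, ← fr.card_U, Nat.card_coe_set_eq, ← MulAction.index_stabilizer, e,
    ← Nat.card_congr (Subgroup.subgroupOfEquivOfLe (inf_le_left : fr.us z ≤ fr.U)).toEquiv,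
    mul_comm, Subgroup.card_mul_index]

lemma ap_U_u {g : K.G (m + 2)} (hg : g ∈ fr.U) : ap (g : GL (Fin (m + 2)) F) fr.u = fr.u := by
  obtain ⟨x, c, hx, -, e⟩ := hg
  rw [e, fr.hu, (eq_zero_comm (K.skewForm _)).1 hx]
  simp

lemma cz_smul {g : K.G (m + 2)} {a : F} (ha : a ≠ 0)
    (hg : ap (g : GL (Fin (m + 2)) F) fr.u = a • fr.u) (z : Ω) :
    fr.cz (g • z) = (fr.cz z).map (AddMonoidHom.mulLeft (a * K.σ a)) := by
  have hN : a * K.σ a ≠ 0 := mul_ne_zero ha ((map_ne_zero_iff _ K.σ.injective).2 ha)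
  have hNf : K.σ (a * K.σ a) = a * K.σ a := by rw [map_mul, K.invol, mul_comm]
  ext d
  constructor
  · rintro ⟨hd, h⟩
    have hc : K.σ (d / (a * K.σ a)) = d / (a * K.σ a) := by rw [map_div₀, hd, hNf]
    refine ⟨d / (a * K.σ a), ⟨hc, ?_⟩, mul_div_cancel₀ _ hN⟩
    rw [← K.conj_tEl fr.hu fr.hu (d / (a * K.σ a)) d hc hd g hg (mul_div_cancel₀ _ hN), mul_smul,
      inv_smul_smul, mul_smul, smul_left_cancel_iff] at h
    exact h
  · rintro ⟨c, ⟨hc, h⟩, rfl⟩
    have hd : K.σ (a * K.σ a * c) = a * K.σ a * c := by rw [map_mul, hNf, hc]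
    refine ⟨hd, ?_⟩
    show K.tEl fr.hu (a * K.σ a * c) hd • g • z = g • z
    rw [← K.conj_tEl fr.hu fr.hu c _ hc hd g hg rfl, mul_smul, inv_smul_smul, mul_smul, h]

lemma card_ab_smul {g : K.G (m + 2)} {a : F} (ha : a ≠ 0)
    (hg : ap (g : GL (Fin (m + 2)) F) fr.u = a • fr.u) (z : Ω) :
    Nat.card (fr.ab (g • z)) = Nat.card (fr.ab z) := by
  have h1 : ∀ r, r ∈ fr.U ↔ g * r * g⁻¹ ∈ fr.U := fun r => by
    constructor
    · intro hr
      have h := IsRoot.conj hr g
      rw [hg] at h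
      exact IsRoot.of_smul h ha
    · intro hr
      have hg' : ap ((g⁻¹ : K.G (m + 2)) : GL (Fin (m + 2)) F) fr.u = a⁻¹ • fr.u := by
        rw [Subgroup.coe_inv, eq_inv_smul_iff₀ ha, ← ap_smul, ← hg, ap_inv_ap]
      have h := IsRoot.conj hr g⁻¹
      rw [hg', inv_inv] at h
      have h2 := IsRoot.of_smul h (inv_ne_zero ha)
      rwa [show g⁻¹ * (g * r * g⁻¹) * g = r by group] at h2
  have e : Nat.card (fr.us (g • z)) = Nat.card (fr.us z) := by
    refine Nat.card_congr ((MulAut.conj g⁻¹).toEquiv.subtypeEquiv fun r => ?_)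
    simp only [Subgroup.mem_inf, mem_stabilizer_iff, MulEquiv.toEquiv_eq_coe, MulEquiv.coe_toEquiv,
      MulAut.conj_apply, inv_inv, mul_smul, inv_smul_eq_iff]
    refine and_congr_left fun _ => ?_
    rw [h1 (g⁻¹ * r * g), show g * (g⁻¹ * r * g) * g⁻¹ = r by group]
  rw [fr.card_us, fr.card_us, fr.cz_smul ha hg, AddSubgroup.card_map_of_injective
    (mul_right_injective₀ (mul_ne_zero ha ((map_ne_zero_iff _ K.σ.injective).2 ha)))] at e
  exact Nat.eq_of_mul_eq_mul_right Nat.card_pos e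

lemma inv_of_mem_orbit {z y : Ω} (hy : y ∈ orbit fr.U z) :
    fr.ab y = fr.ab z ∧ fr.cz y = fr.cz z := by
  have key : ∀ (r : K.G (m + 2)), r ∈ fr.U → ∀ z : Ω,
      fr.ab z ≤ fr.ab (r • z) ∧ fr.cz z ≤ fr.cz (r • z) := by
    intro r hr z
    constructor
    · rintro _ ⟨g, hg, gz, rfl⟩
      refine ⟨r * g * r⁻¹, mul_mem (mul_mem hr hg) (inv_mem hr), ?_, ?_⟩
      · rw [mul_smul, inv_smul_smul, mul_smul, gz]
      · rw [fr.proj_mul (mul_mem hr hg) (inv_mem hr), fr.proj_mul hr hg, add_comm (fr.proj r),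
          add_assoc, ← fr.proj_mul hr (inv_mem hr), mul_inv_cancel, fr.proj_tr (one_mem _),
          add_zero]
    · rintro c ⟨hc, h⟩
      refine ⟨hc, ?_⟩
      rw [← K.conj_tEl fr.hu fr.hu c c hc hc r (a := 1) (by rw [fr.ap_U_u hr, one_smul]) (by simp),
        mul_smul, inv_smul_smul, mul_smul, h]
  obtain ⟨⟨r, hr⟩, rfl⟩ := hy
  have h1 := key r hr z
  have h2 := key r⁻¹ (inv_mem hr) (r • z)
  rw [inv_smul_smul] at h2
  exact ⟨le_antisymm h2.1 h1.1, le_antisymm h2.2 h1.2⟩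

lemma emb_smul (g : K.G m) (z : Ω) :
    fr.ab (K.embHom m g • z) = K.mapSub g (fr.ab z) ∧ fr.cz (K.embHom m g • z) = fr.cz z := by
  have key : ∀ (g : K.G m) (z : Ω), K.mapSub g (fr.ab z) ≤ fr.ab (K.embHom m g • z) := by
    rintro g z _ ⟨_, ⟨r, hr, rz, rfl⟩, rfl⟩
    refine ⟨_, (fr.proj_conj g hr).1, ?_, (fr.proj_conj g hr).2⟩
    rw [mul_smul, inv_smul_smul, mul_smul, rz]
  refine ⟨le_antisymm (fun w hw => ?_) (key g z), ?_⟩
  · obtain ⟨v, rfl⟩ : ∃ v, ap (g : GL (Fin m) F) v = w := ⟨_, ap_ap_inv _ w⟩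
    rw [K.mem_mapSub]
    have h := key g⁻¹ (K.embHom m g • z)
    rw [map_inv, inv_smul_smul] at h
    refine h ?_
    have h2 : v = ap ((g⁻¹ : K.G m) : GL (Fin m) F) (ap (g : GL (Fin m) F) v) := by
      rw [Subgroup.coe_inv, ap_inv_ap]
    rw [h2, K.mem_mapSub]
    exact hw
  · rw [fr.cz_smul one_ne_zero (by rw [one_smul]; exact fr.emb_u _)]
    ext c
    simp [AddSubgroup.mem_map]

variable [Finite Ω]

/-- The bound for the points moved by the transvection group. -/
theorem moved_bound (hn : 3 ≤ m + 2) {z : Ω} (hz : fr.cz z ≠ K.fx) {B : ℕ}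
    (hB : ∀ z' : Ω, fr.cz z' ≠ K.fx → Nat.card (fr.ab z') = Nat.card (fr.ab z) →
      B ≤ Nat.card (K.orb (fr.ab z'))) :
    B * q ^ (2 * m + 1) ≤ Nat.card {y : Ω // fr.cz y ≠ K.fx} * Nat.card (fr.ab z) := by
  classical
  set C := fr.cz z
  set T : Set (AddSubgroup F) :=
    (fun N : F => C.map (AddMonoidHom.mulLeft N)) '' {N | K.σ N = N ∧ N ≠ 0}
  -- each member comes from a point
  have hT : ∀ C' ∈ T, ∃ z' : Ω, fr.cz z' = C' ∧ C' ≠ K.fx ∧
      Nat.card (fr.ab z') = Nat.card (fr.ab z) := by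
    rintro _ ⟨N, ⟨hN, hN0⟩, rfl⟩
    obtain ⟨a, ha⟩ := Unitary.exists_norm (K.skewForm (m + 2)) hN
    have ha0 : a ≠ 0 := fun h => hN0 (by rw [← ha, h, zero_mul])
    obtain ⟨g, hg⟩ := K.exists_move_iso hn fr.hu
      (isotropic_smul (K.skewForm _) fr.hu a) fr.u_ne (smul_ne_zero ha0 fr.u_ne)
    refine ⟨g • z, by rw [fr.cz_smul ha0 hg, ha], fun h => hz ?_, fr.card_ab_smul ha0 hg z⟩
    refine le_antisymm (fr.cz_le z) fun c hc => ?_
    obtain ⟨d, hd, e⟩ := h.ge (show N * c ∈ K.fx by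
      show K.σ (N * c) = N * c
      rw [map_mul, hN, show K.σ c = c from hc])
    exact mul_left_cancel₀ hN0 e ▸ hd
  -- the number of members
  have hTC : Nat.card C ≤ Nat.card T := by
    obtain ⟨y0, hy0, hy0C⟩ := SetLike.exists_of_lt (lt_of_le_of_ne (fr.cz_le z) hz)
    have hlag : Nat.card (K.fx ⧸ C.addSubgroupOf K.fx) * Nat.card C = q := by
      refine Eq.trans ?_ K.card_fx
      rw [← Nat.card_congr (AddSubgroup.addSubgroupOfEquivOfLe (fr.cz_le z)).toEquiv]
      exact (AddSubgroup.card_eq_card_quotient_mul_card_addSubgroup _).symm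
    set t := Nat.card (K.fx ⧸ C.addSubgroupOf K.fx) with ht
    let X := {N : F // K.σ N = N ∧ N ≠ 0}
    let φ : X → T := fun N => ⟨_, N.1, N.2, rfl⟩
    have hX : Nat.card X = q - 1 := by
      have e : Option X ≃ K.fx :=
        { toFun := fun o => o.elim ⟨0, map_zero _⟩ fun N => ⟨N.1, N.2.1⟩
          invFun := fun c => if h : (c : F) = 0 then none else some ⟨c.1, c.2, h⟩
          left_inv := fun o => by cases o with
            | none => simp
            | some N => simp [N.2.2]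
          right_inv := fun c => by
            by_cases h : (c : F) = 0
            · simp [h]; exact Subtype.ext h.symm
            · simp [h] }
      have := (Nat.card_congr e).trans K.card_fx
      rw [Finite.card_option] at this
      omega
    have hfib : ∀ b : T, Nat.card {N : X // φ N = b} ≤ t - 1 := by
      intro b
      rcases isEmpty_or_nonempty {N : X // φ N = b} with h | ⟨⟨N0, hN0⟩⟩
      · simp
      let ψ : {N : X // φ N = b} → {x : K.fx ⧸ C.addSubgroupOf K.fx // x ≠ 0} := fun N =>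
        ⟨QuotientAddGroup.mk ⟨N.1.1 / N0.1 * y0, by
          show K.σ _ = _
          rw [map_mul, map_div₀, N.1.2.1, N0.2.1, show K.σ y0 = y0 from hy0]⟩, fun h => by
          rw [QuotientAddGroup.eq_zero_iff, AddSubgroup.mem_addSubgroupOf] at h
          have hmap := congrArg Subtype.val (N.2.trans hN0.symm)
          obtain ⟨d, hd, e⟩ := hmap.le ⟨_, h, rfl⟩
          refine hy0C ?_
          have h2 : N0.1 * d = N.1.1 * (N.1.1 / N0.1 * y0) := e
          obtain ⟨d', hd', e'⟩ := hmap.ge ⟨_, h, rfl⟩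
          have h3 : N.1.1 * d' = N0.1 * (N.1.1 / N0.1 * y0) := e'
          have : d' = y0 := by
            refine mul_left_cancel₀ N.1.2.2 (h3.trans ?_)
            field_simp [N0.2.2]
          exact this ▸ hd'⟩
      have hψ : Function.Injective ψ := by
        intro N N' h
        have h1 := QuotientAddGroup.eq.1 (congrArg Subtype.val h)
        rw [AddSubgroup.mem_addSubgroupOf] at h1
        set r := N'.1.1 / N0.1 - N.1.1 / N0.1 with hr
        have h1' : r * y0 ∈ C := by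
          rw [hr, sub_mul, sub_eq_neg_add]
          simpa using h1
        by_contra hne
        have hr0 : r ≠ 0 := fun h0 => hne (Subtype.ext (Subtype.ext (by
          rw [hr, sub_eq_zero] at h0
          field_simp [N0.2.2] at h0
          exact h0.symm)))
        have hstab : ∀ N'' : {N : X // φ N = b}, ∀ c ∈ C, N''.1.1 / N0.1 * c ∈ C := by
          intro N'' c hc
          obtain ⟨d, hd, e⟩ := (congrArg Subtype.val (N''.2.trans hN0.symm)).le ⟨c, hc, rfl⟩
          have h2 : N0.1 * d = N''.1.1 * c := e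
          rw [div_mul_eq_mul_div, ← h2, mul_div_cancel_left₀ _ N0.2.2]
          exact hd
        let μ : C → C := fun c => ⟨r * c.1, by
          rw [hr, sub_mul]
          exact sub_mem (hstab N' _ c.2) (hstab N _ c.2)⟩
        have hμ : Function.Injective μ := fun c c' e =>
          Subtype.ext (mul_left_cancel₀ hr0 (congrArg Subtype.val e))
        obtain ⟨c, hc⟩ := (Finite.injective_iff_surjective.1 hμ) ⟨r * y0, h1'⟩
        exact hy0C (mul_left_cancel₀ hr0 (congrArg Subtype.val hc) ▸ c.2)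
      refine (Nat.card_le_card_of_injective ψ hψ).trans (le_of_eq ?_)
      rw [ht, ← Nat.card_congr (Equiv.optionSubtypeNe (0 : K.fx ⧸ C.addSubgroupOf K.fx)),
        Finite.card_option, Nat.add_sub_cancel]
    have h1 : q - 1 ≤ Nat.card T * (t - 1) := by
      have := Fintype.ofFinite T
      rw [← hX, ← Nat.card_congr (Equiv.sigmaFiberEquiv φ), Nat.card_sigma]
      refine (Finset.sum_le_sum fun b _ => hfib b).trans (le_of_eq ?_)
      rw [Finset.sum_const, Finset.card_univ, smul_eq_mul, Nat.card_eq_fintype_card]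
    have hC : 0 < Nat.card C := Nat.card_pos
    by_contra hlt
    push Not at hlt
    have hq := K.two_le
    have : Nat.card T * (t - 1) ≤ (Nat.card C - 1) * (t - 1) := Nat.mul_le_mul_right _ (by omega)
    rcases Nat.eq_zero_or_pos t with h0 | h0
    · rw [h0, zero_mul] at hlag; omega
    obtain ⟨t', ht'⟩ : ∃ t', t = t' + 1 := ⟨t - 1, by omega⟩
    obtain ⟨c', hc'⟩ : ∃ c', Nat.card C = c' + 1 := ⟨Nat.card C - 1, by omega⟩
    rw [ht', hc'] at hlag this
    rw [ht', Nat.add_sub_cancel] at h1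
    simp only [Nat.add_sub_cancel] at this
    have : t' + c' ≥ 1 := by
      rcases Nat.eq_zero_or_pos (t' + c') with h | h <;> [skip; omega]
      have h3 : t' = 0 := by omega
      have h4 : c' = 0 := by omega
      subst h3; subst h4; omega
    nlinarith [Nat.sub_add_cancel (show 1 ≤ q by omega)]
  -- the fibres
  have hfibre : ∀ C' ∈ T, B * q ^ (2 * m + 1) ≤
      Nat.card {y : {y : Ω // fr.cz y ≠ K.fx} // fr.cz y.1 = C'}
        * (Nat.card (fr.ab z) * Nat.card C) := by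
    intro C' hC'
    obtain ⟨z', hz', hne, hs⟩ := hT C' hC'
    have hcard : Nat.card C' = Nat.card C := by
      obtain ⟨N, ⟨-, hN0⟩, rfl⟩ := hC'
      exact AddSubgroup.card_map_of_injective (mul_right_injective₀ hN0)
    have hk : ∀ Ab ∈ K.orb (fr.ab z'), Nat.card (orbit fr.U z') ≤
        Nat.card {p : {y : {y : Ω // fr.cz y ≠ K.fx} // fr.cz y.1 = C'} // fr.ab p.1.1 = Ab} := by
      rintro _ ⟨g, rfl⟩
      have e := fr.emb_smul g z'
      have he : Nat.card (orbit fr.U (K.embHom m g • z')) = Nat.card (orbit fr.U z') := by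
        have h1 := fr.card_orbit z'
        have h2 := fr.card_orbit (K.embHom m g • z')
        rw [e.1, K.card_mapSub, e.2] at h2
        exact Nat.eq_of_mul_eq_mul_right (Nat.mul_pos Nat.card_pos Nat.card_pos) (h2.trans h1.symm)
      rw [← he]
      refine Nat.card_le_card_of_injective (fun y => ⟨⟨⟨y.1, ?_⟩, ?_⟩, ?_⟩) ?_
      · rw [(fr.inv_of_mem_orbit y.2).2, e.2, hz']; exact hne
      · show fr.cz y.1 = C'
        rw [(fr.inv_of_mem_orbit y.2).2, e.2, hz']
      · exact (fr.inv_of_mem_orbit y.2).1.trans e.1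
      · intro y y' h
        exact Subtype.ext (congrArg (fun p => p.1.1.1) h)
    have h1 := card_mul_le_of_fibres
      (fun p : {y : {y : Ω // fr.cz y ≠ K.fx} // fr.cz y.1 = C'} => fr.ab p.1.1)
      (K.orb (fr.ab z')) _ hk
    have h2 := fr.card_orbit z'
    rw [hz', hs, hcard] at h2
    calc B * q ^ (2 * m + 1) ≤ Nat.card (K.orb (fr.ab z')) * q ^ (2 * m + 1) :=
          Nat.mul_le_mul_right _ (hB z' (hz' ▸ hne) hs)
      _ = Nat.card (K.orb (fr.ab z')) * Nat.card (orbit fr.U z')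
            * (Nat.card (fr.ab z) * Nat.card C) := by rw [mul_assoc, h2]
      _ ≤ _ := Nat.mul_le_mul_right _ h1
  have : Finite (AddSubgroup F) := Finite.of_injective _ SetLike.coe_injective
  have hpos : 0 < Nat.card (fr.ab z) * Nat.card C := Nat.mul_pos Nat.card_pos Nat.card_pos
  set k := (B * q ^ (2 * m + 1) + (Nat.card (fr.ab z) * Nat.card C) - 1)
    / (Nat.card (fr.ab z) * Nat.card C) with hk
  have h3 := card_mul_le_of_fibres (fun y : {y : Ω // fr.cz y ≠ K.fx} => fr.cz y.1) T k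
    (fun C' hC' => by
      rw [hk, Nat.div_le_iff_le_mul_add_pred hpos, mul_comm (Nat.card (fr.ab z) * Nat.card C)]
      have := hfibre C' hC'
      omega)
  have h4 : B * q ^ (2 * m + 1) ≤ k * (Nat.card (fr.ab z) * Nat.card C) := by
    rw [hk]
    have := Nat.lt_div_mul_add hpos (a := B * q ^ (2 * m + 1) + (Nat.card (fr.ab z) * Nat.card C) - 1)
    omega
  refine Nat.le_of_mul_le_mul_right ?_ (Nat.card_pos : 0 < Nat.card C)
  calc B * q ^ (2 * m + 1) * Nat.card C ≤ Nat.card T * (B * q ^ (2 * m + 1)) := by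
        rw [mul_comm]; exact Nat.mul_le_mul_right _ hTC
    _ ≤ Nat.card T * (k * (Nat.card (fr.ab z) * Nat.card C)) := Nat.mul_le_mul_left _ h4
    _ ≤ Nat.card {y : Ω // fr.cz y ≠ K.fx} * (Nat.card (fr.ab z) * Nat.card C) := by
        rw [← mul_assoc]; exact Nat.mul_le_mul_right _ h3
    _ = _ := (mul_assoc _ _ _).symm

/-- The bound for the points fixed by the transvection group but not by the root group. -/
theorem fixed_bound {z : Ω} (hz : fr.cz z = K.fx) (hz' : fr.ab z ≠ ⊤) :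
    Nat.card (K.orb (fr.ab z)) * q ^ (2 * m) ≤
      Nat.card {y : Ω // fr.cz y = K.fx ∧ fr.ab y ≠ ⊤} * Nat.card (fr.ab z) := by
  classical
  have hk : ∀ Ab ∈ K.orb (fr.ab z), Nat.card (orbit fr.U z) ≤
      Nat.card {p : {y : Ω // fr.cz y = K.fx ∧ fr.ab y ≠ ⊤} // fr.ab p.1 = Ab} := by
    rintro _ ⟨g, rfl⟩
    have e := fr.emb_smul g z
    have he : Nat.card (orbit fr.U (K.embHom m g • z)) = Nat.card (orbit fr.U z) := by
      have h1 := fr.card_orbit z
      have h2 := fr.card_orbit (K.embHom m g • z)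
      rw [e.1, K.card_mapSub, e.2] at h2
      exact Nat.eq_of_mul_eq_mul_right (Nat.mul_pos Nat.card_pos Nat.card_pos) (h2.trans h1.symm)
    rw [← he]
    refine Nat.card_le_card_of_injective (fun y => ⟨⟨y.1, ?_, ?_⟩, ?_⟩) ?_
    · rw [(fr.inv_of_mem_orbit y.2).2, e.2, hz]
    · intro h
      rw [(fr.inv_of_mem_orbit y.2).1, e.1] at h
      refine hz' (eq_top_iff.2 fun w _ => ?_)
      rw [← K.mem_mapSub (g := g), h]
      trivial
    · exact (fr.inv_of_mem_orbit y.2).1.trans e.1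
    · intro y y' h
      exact Subtype.ext (congrArg (fun p => p.1.1) h)
  have h1 := card_mul_le_of_fibres
    (fun y : {y : Ω // fr.cz y = K.fx ∧ fr.ab y ≠ ⊤} => fr.ab y.1) (K.orb (fr.ab z)) _ hk
  have h2 := fr.card_orbit z
  rw [hz, K.card_fx, pow_succ, ← mul_assoc] at h2
  rw [← Nat.eq_of_mul_eq_mul_right (by have := K.two_le; omega) h2, ← mul_assoc]
  exact Nat.mul_le_mul_right _ h1

end Frame

end CfsgLib.MinIndexUnit
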