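import Cfsg.Agent.Lib.MinIndex.Unit.Incidence

/-!
Numerical facts about the numbers of vectors and points.
-/

set_option autoImplicit false
set_option linter.unusedSectionVars false

namespace CfsgLib.MinIndexUnit

open CfsgLib.Geometric CfsgLib.Geometric.Unitary CfsgLib.ClassicalForms

variable {F : Type*} [Field F] [Finite F] {q : ℕ} (K : UC F q)

namespace UC

include K

lemma iso_succ (k : ℕ) : (K.isoCount (k + 1) : ℤ)
    = (q : ℤ) ^ (2 * k + 1) + (-1) ^ (k + 1) * ((q : ℤ) ^ (k + 1) - (q : ℤ) ^ k) - 1 := by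
  have h := K.isoCount_cast (k + 1)
  have hq : (q : ℤ) ≠ 0 := by have := K.two_le; omega
  refine mul_left_cancel₀ hq ?_
  linear_combination h

lemma norm_succ (k : ℕ) : (K.normCount (k + 1) : ℤ)
    = (q : ℤ) ^ (2 * k + 1) - (-1) ^ (k + 1) * (q : ℤ) ^ k := by
  have h := K.normCount_cast (k + 1)
  have hq : (q : ℤ) ≠ 0 := by have := K.two_le; omega
  refine mul_left_cancel₀ hq ?_
  linear_combination h

/-- The number of isotropic points. -/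
noncomputable def pts (n : ℕ) : ℕ := K.isoCount n / (q ^ 2 - 1)

lemma dvd_cone {n : ℕ} (P : (Fin n → F) → Prop) (h0 : ∀ x, P x → x ≠ 0)
    (hP : ∀ c : F, c ≠ 0 → ∀ x, P x → P (c • x)) :
    q ^ 2 - 1 ∣ Nat.card {x // P x} := by
  letI : MulAction Fˣ {x // P x} :=
    { smul := fun c x => ⟨(c : F) • (x : Fin n → F), hP c c.ne_zero _ x.2⟩
      one_smul := fun x => Subtype.ext (one_smul F (x : Fin n → F))
      mul_smul := fun c d x => Subtype.ext (mul_smul (c : F) (d : F) (x : Fin n → F)) }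
  have hfree : ∀ x : {x // P x}, MulAction.stabilizer Fˣ x = ⊥ := fun x => by
    rw [eq_bot_iff]
    intro c hc
    have h1 : (c : F) • (x : Fin n → F) = x :=
      congrArg Subtype.val (MulAction.mem_stabilizer_iff.1 hc)
    rw [← sub_eq_zero, ← one_smul F (x : Fin n → F), smul_smul, mul_one, ← sub_smul] at h1
    exact Subgroup.mem_bot.2 (Units.ext
      (sub_eq_zero.1 ((smul_eq_zero.1 h1).resolve_right (h0 _ x.2))))
  rw [Nat.card_congr (MulAction.selfEquivOrbitsQuotientProd hfree), Nat.card_prod, Nat.card_units,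
    K.card_eq]
  exact dvd_mul_left _ _

lemma pts_mul (n : ℕ) : (q ^ 2 - 1) * K.pts n = K.isoCount n :=
  Nat.mul_div_cancel' (K.dvd_cone _ (fun _ h => h.1) fun c hc x h =>
    ⟨smul_ne_zero hc h.1, by rw [K.conj.smul_left, K.conj.smul_right, h.2, mul_zero, mul_zero]⟩)

lemma sq_sub_one_pos : 0 < q ^ 2 - 1 := by
  have := K.two_le
  have : 4 ≤ q ^ 2 := by nlinarith
  omega

lemma cast_sq : ((q ^ 2 - 1 : ℕ) : ℤ) = (q : ℤ) ^ 2 - 1 := by
  rw [Nat.cast_sub (by have := K.sq_sub_one_pos; omega)]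
  push_cast
  rfl

lemma pts_mul_cast (n : ℕ) : ((q : ℤ) ^ 2 - 1) * K.pts n = K.isoCount n := by
  rw [← K.cast_sq, ← K.pts_mul n]
  push_cast
  rfl

lemma pts_rec (k : ℕ) : K.pts (k + 3) = 1 + q ^ (2 * k + 3) + q ^ 2 * K.pts (k + 1) := by
  refine Nat.eq_of_mul_eq_mul_left K.sq_sub_one_pos ?_
  have h1 := K.pts_mul (k + 3)
  have h2 := K.pts_mul (k + 1)
  rw [h1, mul_add, ← mul_assoc, mul_comm (q ^ 2 - 1) (q ^ 2), mul_assoc, h2]
  zify [show 1 ≤ q ^ 2 from by have := K.sq_sub_one_pos; omega]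
  rw [K.iso_succ k, K.iso_succ (k + 2)]
  ring

lemma pts_lt (k : ℕ) : K.pts (k + 3) < 2 * q ^ (2 * k + 3) := by
  refine Nat.lt_of_mul_lt_mul_left (a := q ^ 2 - 1) ?_
  rw [K.pts_mul]
  have hq : (2 : ℤ) ≤ q := by exact_mod_cast K.two_le
  zify [show 1 ≤ q ^ 2 from by have := K.sq_sub_one_pos; omega]
  rw [K.iso_succ (k + 2)]
  have h1 : (1 : ℤ) ≤ (q : ℤ) ^ k := one_le_pow₀ (by linarith)
  have h2 : (q : ℤ) ^ (k + 3) ≤ (q : ℤ) ^ (2 * k + 3) := pow_le_pow_right₀ (by linarith) (by omega)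
  have h3 : (q : ℤ) ^ (2 * (k + 2) + 1) = (q : ℤ) ^ (2 * k + 3) * (q : ℤ) ^ 2 := by ring
  have h4 : (0 : ℤ) < (q : ℤ) ^ (k + 2) := by positivity
  have h5 : (0 : ℤ) < (q : ℤ) ^ (2 * k + 3) := by positivity
  have h6 : (4 : ℤ) ≤ (q : ℤ) ^ 2 := by nlinarith
  have h7 : 4 * (q : ℤ) ^ (2 * k + 3) ≤ (q : ℤ) ^ (2 * k + 3) * (q : ℤ) ^ 2 := by nlinarith
  have h8 : (q : ℤ) ^ (k + 2) ≤ (q : ℤ) ^ (k + 2 + 1) := pow_le_pow_right₀ (by linarith) (by omega)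
  rcases neg_one_pow_eq_or ℤ (k + 2 + 1) with e | e <;> rw [e] <;> nlinarith

lemma iso_three : (K.isoCount 3 : ℤ) = ((q : ℤ) ^ 3 + 1) * ((q : ℤ) ^ 2 - 1) := by
  rw [K.iso_succ 2]; ring

lemma norm_three : K.normCount 3 = q ^ 2 * (q ^ 3 + 1) := by
  zify; rw [K.norm_succ 2]; ring

lemma iso_four : (K.isoCount 4 : ℤ) = ((q : ℤ) ^ 3 + 1) * ((q : ℤ) ^ 4 - 1) := by
  rw [K.iso_succ 3]; ring

lemma norm_four : (K.normCount 4 : ℤ) = (q : ℤ) ^ 3 * ((q : ℤ) ^ 4 - 1) := by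
  rw [K.norm_succ 3]; ring

lemma pts_five : K.pts 5 = q ^ 7 + q ^ 5 + q ^ 2 + 1 := by
  refine Nat.eq_of_mul_eq_mul_left K.sq_sub_one_pos ?_
  rw [K.pts_mul]
  zify [show 1 ≤ q ^ 2 from by have := K.sq_sub_one_pos; omega]
  rw [K.iso_succ 4]; ring

lemma pts_six : K.pts 6 = q ^ 9 + q ^ 7 + q ^ 5 + q ^ 4 + q ^ 2 + 1 := by
  refine Nat.eq_of_mul_eq_mul_left K.sq_sub_one_pos ?_
  rw [K.pts_mul]
  zify [show 1 ≤ q ^ 2 from by have := K.sq_sub_one_pos; omega]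
  rw [K.iso_succ 5]; ring

/-- Both classes are large. -/
lemma lt_classes (k : ℕ) (hk : 1 ≤ k) :
    ((q : ℤ) ^ k - 1) * ((q : ℤ) ^ (k + 1) - 1) < K.isoCount (k + 1) ∧
      ((q : ℤ) ^ k - 1) * ((q : ℤ) ^ (k + 1) - 1) < K.normCount (k + 1) := by
  have hq : (2 : ℤ) ≤ q := by exact_mod_cast K.two_le
  have h1 : (2 : ℤ) ≤ (q : ℤ) ^ k :=
    le_trans hq (le_trans (le_of_eq (pow_one _).symm) (pow_le_pow_right₀ (by linarith) hk))
  have h2 : ((q : ℤ) ^ k - 1) * ((q : ℤ) ^ (k + 1) - 1)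
      = (q : ℤ) ^ (2 * k + 1) - (q : ℤ) ^ (k + 1) - (q : ℤ) ^ k + 1 := by ring
  have h3 : (q : ℤ) ^ k * 2 ≤ (q : ℤ) ^ (k + 1) := by
    rw [pow_succ]; nlinarith
  rw [h2, K.iso_succ k, K.norm_succ k]
  rcases neg_one_pow_eq_or ℤ (k + 1) with e | e <;> rw [e] <;> constructor <;> linarith

lemma exists_prime_pow : ∃ p a : ℕ, p.Prime ∧ 0 < a ∧ q = p ^ a := by
  classical
  have := Fintype.ofFinite F
  obtain ⟨p, hp⟩ := CharP.exists F
  have := hp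
  obtain ⟨b, hpp, hb⟩ := FiniteField.card F p
  rw [← Nat.card_eq_fintype_card, K.card_eq] at hb
  have hdvd : q ∣ p ^ (b : ℕ) := by rw [← hb, pow_two]; exact dvd_mul_left _ _
  obtain ⟨a, -, rfl⟩ := (Nat.dvd_prime_pow hpp).1 hdvd
  refine ⟨p, a, hpp, Nat.pos_of_ne_zero fun h => ?_, rfl⟩
  have := K.two_le
  rw [h, pow_zero] at this
  omega

/-- A divisor of a power of `q` below `q ^ j` is at most half of it. -/
lemma two_mul_le {s i j : ℕ} (hs : s ∣ q ^ i) (hlt : s < q ^ j) : 2 * s ≤ q ^ j := by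
  obtain ⟨p, a, hp, -, rfl⟩ := K.exists_prime_pow
  rw [← pow_mul] at hs hlt ⊢
  obtain ⟨l, -, rfl⟩ := (Nat.dvd_prime_pow hp).1 hs
  have hl : l < a * j := (Nat.pow_lt_pow_iff_right hp.one_lt).1 hlt
  calc 2 * p ^ l ≤ p * p ^ l := Nat.mul_le_mul_right _ hp.two_le
    _ = p ^ (l + 1) := (pow_succ' p l).symm
    _ ≤ p ^ (a * j) := Nat.pow_le_pow_right hp.pos hl

/-- A divisor of a power of `q` at least `q ^ j` is a multiple of it. -/
lemma pow_dvd_of_le {s i j : ℕ} (hs : s ∣ q ^ i) (hle : q ^ j ≤ s) : q ^ j ∣ s := by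
  obtain ⟨p, a, hp, -, rfl⟩ := K.exists_prime_pow
  rw [← pow_mul] at hs hle ⊢
  obtain ⟨l, -, rfl⟩ := (Nat.dvd_prime_pow hp).1 hs
  exact Nat.pow_dvd_pow p ((Nat.pow_le_pow_iff_right hp.one_lt).1 hle)

end UC

end CfsgLib.MinIndexUnit
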