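import Cfsg.Agent.Lib.ClassicalForms.Unitary.Simple
import Cfsg.Agent.Lib.ClassicalForms.Unitary.Card

/-!
Set-up for the minimal index of the special unitary groups: the scaled standard forms in every
dimension, two-step embeddings, transitivity on vectors of given norm, and the numbers of such
vectors.
-/

set_option autoImplicit false
set_option linter.unusedSectionVars false

namespace CfsgLib.MinIndexUnit

open CfsgLib.Geometric CfsgLib.Geometric.Unitary CfsgLib.ClassicalForms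

/-- The data of a quadratic extension with a trace-zero scalar. -/
structure UC (F : Type*) [Field F] (q : ℕ) where
  /-- the conjugation -/
  conj : Conj F q
  /-- the conjugation as an equivalence -/
  σ : F ≃+* F
  σ_eq : ∀ x, σ x = conj.σ x
  /-- the trace-zero scalar -/
  ζ : F
  ζ_ne : ζ ≠ 0
  ζ_skew : σ ζ = -ζ
  card_eq : Nat.card F = q ^ 2

variable {F : Type*} [Field F] {q : ℕ}

theorem exists_uc [Finite F] (hF : Nat.card F = q ^ 2) : Nonempty (UC F q) := by
  obtain ⟨c⟩ := exists_conj hF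
  let σ : F ≃+* F := { c.σ with invFun := c.σ, left_inv := c.invol, right_inv := c.invol }
  obtain ⟨a, ha⟩ : ∃ a, c.σ a ≠ a := by
    by_contra h
    push Not at h
    exact c.ne (RingHom.ext h)
  refine ⟨⟨c, σ, fun x => rfl, a - c.σ a, sub_ne_zero.2 (Ne.symm ha), ?_, hF⟩⟩
  change c.σ (a - c.σ a) = -(a - c.σ a)
  rw [map_sub, c.invol]; ring

namespace UC

variable (K : UC F q)

/-- The scaled form. -/
def fm (n : ℕ) (u v : Fin n → F) : F := K.ζ * Cfsg.hermForm n F q u v

/-- The group. -/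
abbrev G (n : ℕ) : Subgroup (GL (Fin n) F) := isomSL (Fin n) (K.fm n)

lemma invol (x : F) : K.σ (K.σ x) = x := by rw [K.σ_eq, K.σ_eq, K.conj.invol]

theorem skewForm (n : ℕ) : IsSkewForm K.σ (K.fm n) where
  ne_refl h := K.conj.ne (RingHom.ext fun x => by
    rw [← K.σ_eq, h]; rfl)
  involutive := K.invol
  add_left x y v := by simp only [fm, K.conj.add_left]; ring
  smul_left c x v := by simp only [fm, K.conj.smul_left]; ring
  skew v w := by
    simp only [fm, map_mul, K.ζ_skew, K.σ_eq (Cfsg.hermForm n F q w v), ← K.conj.herm_symm]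
    ring
  nondegenerate v hv := by
    obtain ⟨i, hi⟩ := Function.ne_iff.1 hv
    refine ⟨⟨Pi.single i 1, ?_⟩, ⟨Pi.single i 1, ?_⟩⟩
    · simp only [fm, K.conj.single_left]
      exact mul_ne_zero K.ζ_ne fun h => hi (K.conj.eq_zero h)
    · simp only [fm, K.conj.single_right]
      exact mul_ne_zero K.ζ_ne hi

lemma fm_cons {n : ℕ} (a b : F) (u v : Fin n → F) :
    K.fm (n + 1) (Fin.cons a u) (Fin.cons b v) = K.ζ * (a * K.σ b) + K.fm n u v := by
  simp only [fm, K.conj.herm_cons, K.σ_eq]; ring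

lemma fm_eq_zero_iff {n : ℕ} (u v : Fin n → F) :
    K.fm n u v = 0 ↔ Cfsg.hermForm n F q u v = 0 := by
  simp [fm, K.ζ_ne]

end UC

/-- A vector of the last coordinates. -/
def inc {m : ℕ} (w : Fin m → F) : Fin (m + 2) → F := Fin.cons 0 (Fin.cons 0 w)

/-- The last coordinates. -/
def tail2 {m : ℕ} (x : Fin (m + 2) → F) : Fin m → F := fun i => x i.succ.succ

lemma tail2_inc {m : ℕ} (w : Fin m → F) : tail2 (inc w) = w := by
  funext i; simp [tail2, inc]

lemma cons_tail2 {m : ℕ} (x : Fin (m + 2) → F) :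
    Fin.cons (x 0) (Fin.cons (x 1) (tail2 x)) = x := by
  funext i
  refine Fin.cases ?_ (fun j => ?_) i
  · rfl
  · refine Fin.cases ?_ (fun k => ?_) j <;> simp [tail2]

lemma inc_add {m : ℕ} (v w : Fin m → F) : inc (v + w) = inc v + inc w := by
  funext i
  refine Fin.cases ?_ (fun j => ?_) i
  · simp [inc]
  · refine Fin.cases ?_ (fun k => ?_) j <;> simp [inc]

lemma inc_smul {m : ℕ} (a : F) (w : Fin m → F) : inc (a • w) = a • inc w := by
  funext i
  refine Fin.cases ?_ (fun j => ?_) i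
  · simp [inc]
  · refine Fin.cases ?_ (fun k => ?_) j <;> simp [inc]

lemma tail2_add {m : ℕ} (x y : Fin (m + 2) → F) : tail2 (x + y) = tail2 x + tail2 y := rfl

lemma tail2_smul {m : ℕ} (a : F) (x : Fin (m + 2) → F) : tail2 (a • x) = a • tail2 x := rfl

/-- Adding a fixed first coordinate. -/
def ext1 {k : ℕ} (g : GL (Fin k) F) : GL (Fin (k + 1)) F := ofEquiv (consMap g)

lemma ap_ext1 {k : ℕ} (g : GL (Fin k) F) (a : F) (v : Fin k → F) :
    ap (ext1 g) (Fin.cons a v) = Fin.cons a (ap g v) := by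
  rw [ext1, ap_ofEquiv, consMap_apply, vtail_cons, Fin.cons_zero]

lemma det_ext1 {k : ℕ} (g : GL (Fin k) F) :
    (ext1 g : Matrix (Fin (k + 1)) (Fin (k + 1)) F).det = (g : Matrix (Fin k) (Fin k) F).det := by
  have hcol : ∀ i j, (ext1 g : Matrix (Fin (k + 1)) (Fin (k + 1)) F) i j
      = ap (ext1 g) (Pi.single j 1) i := fun i j => by
    simp [ap]
  have h0 : (Pi.single (0 : Fin (k + 1)) (1 : F) : Fin (k + 1) → F) = Fin.cons 1 0 := by
    funext i; refine Fin.cases ?_ (fun j => ?_) i <;> simp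
  have hs : ∀ j : Fin k, (Pi.single j.succ (1 : F) : Fin (k + 1) → F) = Fin.cons 0 (Pi.single j 1) := fun j => by
    funext i
    refine Fin.cases ?_ (fun l => ?_) i
    · simp [Fin.succ_ne_zero j |>.symm]
    · simp [Pi.single_apply]
  rw [Matrix.det_succ_column_zero, Finset.sum_eq_single 0]
  · rw [hcol, h0, ap_ext1]
    simp only [Fin.val_zero, pow_zero, Fin.cons_zero, mul_one, one_mul, Fin.succAbove_zero]
    congr 1
    ext i j
    rw [Matrix.submatrix_apply, hcol, hs, ap_ext1, Fin.cons_succ]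
    simp [ap]
  · intro i _ hi
    obtain ⟨j, rfl⟩ := Fin.exists_succ_eq.2 hi
    rw [hcol, h0, ap_ext1, Fin.cons_succ, ap_zero]
    simp
  · simp

/-- The embedding on the last coordinates. -/
def emb {m : ℕ} (g : GL (Fin m) F) : GL (Fin (m + 2)) F := ext1 (ext1 g)

lemma ap_emb {m : ℕ} (g : GL (Fin m) F) (a b : F) (w : Fin m → F) :
    ap (emb g) (Fin.cons a (Fin.cons b w)) = Fin.cons a (Fin.cons b (ap g w)) := by
  rw [emb, ap_ext1, ap_ext1]

lemma ap_emb_inc {m : ℕ} (g : GL (Fin m) F) (w : Fin m → F) :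
    ap (emb g) (inc w) = inc (ap g w) := ap_emb g 0 0 w

lemma emb_mul {m : ℕ} (g h : GL (Fin m) F) : emb (g * h) = emb g * emb h := by
  refine gl_ext fun x => ?_
  rw [← cons_tail2 x, ap_mul, ap_emb, ap_emb, ap_emb, ap_mul]

lemma emb_one {m : ℕ} : emb (1 : GL (Fin m) F) = 1 := by
  refine gl_ext fun x => ?_
  rw [← cons_tail2 x, ap_emb, ap_one, ap_one]

namespace UC

variable (K : UC F q)

lemma fm_inc {m : ℕ} (v w : Fin m → F) : K.fm (m + 2) (inc v) (inc w) = K.fm m v w := by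
  simp [inc, K.fm_cons]

lemma ext1_mem {k : ℕ} {g : GL (Fin k) F} (hg : g ∈ K.G k) : ext1 g ∈ K.G (k + 1) := by
  refine ⟨mem_isom_iff.2 fun x y => ?_, (mem_specialLinear_iff _).2 ?_⟩
  · rw [← Fin.cons_self_tail x, ← Fin.cons_self_tail y, ap_ext1, ap_ext1, K.fm_cons, K.fm_cons,
      mem_isom_iff.1 hg.1]
  · rw [det_ext1, (mem_specialLinear_iff g).1 hg.2]

lemma emb_mem {m : ℕ} {g : GL (Fin m) F} (hg : g ∈ K.G m) : emb g ∈ K.G (m + 2) :=
  K.ext1_mem (K.ext1_mem hg)

/-- The embedding as a homomorphism of groups. -/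
def embHom (m : ℕ) : K.G m →* K.G (m + 2) where
  toFun g := ⟨emb (g : GL (Fin m) F), K.emb_mem g.2⟩
  map_one' := Subtype.ext emb_one
  map_mul' g h := Subtype.ext (emb_mul _ _)

variable [Finite F]

lemma two_le (K : UC F q) : 2 ≤ q := two_le_q K.card_eq

/-- The fixed field has `q` elements. -/
lemma card_fixed : Nat.card {x : F // K.σ x = x} = q := by
  classical
  have := Fintype.ofFinite F
  have hq := K.two_le
  have h1 : Nat.card {x : Fˣ // x ^ (q - 1) = 1} = q - 1 := by
    rw [card_units_pow_eq_one K.card_eq, Nat.gcd_eq_right (Dvd.intro_left _ rfl)]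
  have key : ∀ x : F, x ≠ 0 → (K.σ x = x ↔ x ^ (q - 1) = 1) := fun x hx => by
    rw [K.σ_eq, K.conj.apply]
    conv_lhs => rw [show q = q - 1 + 1 by omega, pow_succ]
    exact mul_eq_right₀ hx
  let e : Option {x : Fˣ // x ^ (q - 1) = 1} ≃ {x : F // K.σ x = x} :=
    { toFun := fun o => o.elim ⟨0, map_zero _⟩ fun x => ⟨(x.1 : F), (key _ x.1.ne_zero).2
        (by rw [← Units.val_pow_eq_pow_val, x.2, Units.val_one])⟩
      invFun := fun x => if h : (x : F) = 0 then none else some ⟨Units.mk0 x h, Units.ext (by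
        rw [Units.val_pow_eq_pow_val, Units.val_mk0, Units.val_one]; exact (key _ h).1 x.2)⟩
      left_inv := fun o => by cases o <;> simp
      right_inv := fun x => by
        by_cases h : (x : F) = 0
        · simp [h]; exact Subtype.ext h.symm
        · simp [h] }
  rw [← Nat.card_congr e, Finite.card_option, h1]
  omega

/-- Everything is generated by the transvections. -/
theorem G_le_of_hasT {n : ℕ} (hn : 3 ≤ n) (h32 : ¬ (n = 3 ∧ q = 2))
    {M : Subgroup (GL (Fin n) F)} (hM : HasT (K.skewForm n) M) : K.G n ≤ M := by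
  have := Fintype.ofFinite F
  exact su_le_of_hasT (by rw [← Nat.card_eq_fintype_card]; exact K.card_eq) hn h32 K.ζ_ne
    (K.skewForm n) hM

theorem exists_move_iso {n : ℕ} (hn : 3 ≤ n) {x y : Fin n → F} (hxx : K.fm n x x = 0)
    (hyy : K.fm n y y = 0) (hx : x ≠ 0) (hy : y ≠ 0) :
    ∃ g : K.G n, ap (g : GL (Fin n) F) x = y := by
  obtain ⟨g, hg, e⟩ := exists_move_isotropic (K.skewForm n) (by simpa using hn) hxx hyy hx hy
  exact ⟨⟨g, hg⟩, e⟩

/-- Transitivity on non-zero vectors of a given norm. -/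
theorem exists_move {n : ℕ} (hn : 3 ≤ n) {x y : Fin n → F} (hxy : K.fm n x x = K.fm n y y)
    (hx : x ≠ 0) (hy : y ≠ 0) : ∃ g : K.G n, ap (g : GL (Fin n) F) x = y := by
  set c := K.conj
  have hf := K.skewForm n
  by_cases h0 : K.fm n x x = 0
  · exact K.exists_move_iso hn h0 (hxy ▸ h0) hx hy
  have hxy' : Cfsg.hermForm n F q x x = Cfsg.hermForm n F q y y := mul_left_cancel₀ K.ζ_ne hxy
  have hd0 : Cfsg.hermForm n F q x x ≠ 0 := fun h => h0 (by rw [fm, h, mul_zero])
  obtain ⟨a, ha⟩ := c.exists_norm (c.herm_self x)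
  have ha0 : a ≠ 0 := fun h => hd0 (by rw [← ha, h, zero_mul])
  have hsc : ∀ z, Cfsg.hermForm n F q z z = Cfsg.hermForm n F q x x →
      Cfsg.hermForm n F q (a⁻¹ • z) (a⁻¹ • z) = 1 := fun z hz => by
    rw [c.smul_left, c.smul_right, hz, ← ha, map_inv₀]
    have : c.σ a ≠ 0 := fun h => ha0 (c.eq_zero h)
    field_simp
  obtain ⟨g, hg⟩ := exists_gu_move K.card_eq (hsc x rfl) (hsc y hxy'.symm)
  have hgx : ap (g : GL (Fin n) F) x = y := by
    rw [ap_smul] at hg
    exact smul_right_injective _ (inv_ne_zero ha0) hg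
  -- correct the determinant
  have hW : Cfsg.Geo.IsNondegenerateOn (K.fm n) (Submodule.span F {y}) := by
    intro z hz hz0
    obtain ⟨r, rfl⟩ := Submodule.mem_span_singleton.1 hz
    have hyy : K.fm n y y ≠ 0 := hxy ▸ h0
    refine ⟨⟨y, Submodule.mem_span_singleton_self y, ?_⟩,
      ⟨y, Submodule.mem_span_singleton_self y, ?_⟩⟩ <;>
    · have hr : r ≠ 0 := fun h => hz0 (by rw [h, zero_smul])
      simp [hf.smul_left, smul_right hf, hr, hyy]
  have hne : perp hf (Submodule.span F {y}) ≠ ⊥ := fun hb => by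
    have h1 := finrank_add_perp hf hW
    rw [hb, finrank_bot, Fintype.card_fin, finrank_span_singleton hy] at h1
    omega
  obtain ⟨d, hd, hdd⟩ := exists_anisotropic hf (perp_nondegenerate hf hW) hne
  have hdy : Cfsg.hermForm n F q y d = 0 :=
    (K.fm_eq_zero_iff y d).1 ((eq_zero_comm hf).1 ((mem_perp_span hf).1 hd))
  have hdd' : Cfsg.hermForm n F q d d ≠ 0 := fun h => hdd (by rw [fm, h, mul_zero])
  set D := ((g : GL (Fin n) F) : Matrix (Fin n) (Fin n) F).det with hD
  have hDn : D * c.σ D = 1 := det_gu_norm c g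
  have hD0 : D ≠ 0 := left_ne_zero_of_mul_eq_one hDn
  have hμn : c.σ D⁻¹ = D := by
    rw [map_inv₀, eq_inv_of_mul_eq_one_right hDn, inv_inv]
  set k := (D⁻¹ - 1) / Cfsg.hermForm n F q d d with hk
  have hk1 : 1 + k * Cfsg.hermForm n F q d d = D⁻¹ := by
    rw [hk, div_mul_cancel₀ _ hdd']; ring
  have hk2 : k + c.σ k + k * c.σ k * Cfsg.hermForm n F q d d = 0 := by
    rw [hk, map_div₀, map_sub, map_one, c.herm_self, hμn]
    field_simp
    ring
  have hk0 : 1 + k * Cfsg.hermForm n F q d d ≠ 0 := by rw [hk1]; exact inv_ne_zero hD0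
  set r := pref c d k hk0 hk2
  refine ⟨⟨(r * g : Cfsg.GU n F q), mem_isom_iff.2 fun u v => ?_,
    (mem_specialLinear_iff _).2 ?_⟩, ?_⟩
  · simp only [fm]
    rw [gu_apply (r * g)]
  · rw [Subgroup.coe_mul, Units.val_mul, Matrix.det_mul, ← hD,
      show ((r : GL (Fin n) F) : Matrix (Fin n) (Fin n) F).det = D⁻¹ from
        (det_pref c d k hk0 hk2).trans hk1, inv_mul_cancel₀ hD0]
  · rw [Subgroup.coe_mul, ap_mul, hgx, ap_pref, hdy, mul_zero, zero_smul, add_zero]

/-- The number of non-zero isotropic vectors. -/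
noncomputable def isoCount (_K : UC F q) (n : ℕ) : ℕ :=
  Nat.card {v : Fin n → F // v ≠ 0 ∧ Cfsg.hermForm n F q v v = 0}

lemma isoCount_cast (n : ℕ) :
    (q : ℤ) * (K.isoCount n + 1)
      = (q : ℤ) ^ (2 * n) + (-1) ^ n * ((q : ℤ) ^ (n + 1) - (q : ℤ) ^ n) := by
  classical
  rw [← card_herm_zero K.card_eq n]
  congr 1
  have e : Option {v : Fin n → F // v ≠ 0 ∧ Cfsg.hermForm n F q v v = 0}
      ≃ {v : Fin n → F // Cfsg.hermForm n F q v v = 0} :=
    { toFun := fun o => o.elim ⟨0, K.conj.zero_left 0⟩ fun v => ⟨v.1, v.2.2⟩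
      invFun := fun v => if h : (v : Fin n → F) = 0 then none else some ⟨v.1, h, v.2⟩
      left_inv := fun o => by cases o with
        | none => simp
        | some v => simp [v.2.1]
      right_inv := fun v => by
        by_cases h : (v : Fin n → F) = 0
        · simp [h]; exact Subtype.ext h.symm
        · simp [h] }
  rw [← Nat.card_congr e, Finite.card_option, isoCount]
  push_cast
  rfl

/-- The number of vectors of a given non-zero norm. -/
lemma card_norm_cast (n : ℕ) {a : F} (hs : K.σ a = -a) (h0 : a ≠ 0) :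
    (q : ℤ) * Nat.card {v : Fin n → F // K.fm n v v = a}
      = (q : ℤ) ^ (2 * n) - (-1) ^ n * (q : ℤ) ^ n := by
  rw [← card_herm_one K.card_eq n]
  congr 2
  set c := K.conj
  have hd : c.σ (a / K.ζ) = a / K.ζ := by
    rw [← K.σ_eq, map_div₀, hs, K.ζ_skew, neg_div_neg_eq]
  obtain ⟨r, hr⟩ := c.exists_norm hd
  have hr0 : r ≠ 0 := fun h => div_ne_zero h0 K.ζ_ne (by rw [← hr, h, zero_mul])
  have hsr : c.σ r ≠ 0 := fun h => hr0 (c.eq_zero h)
  refine Nat.card_congr
    { toFun := fun v => ⟨r⁻¹ • v.1, ?_⟩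
      invFun := fun v => ⟨r • v.1, ?_⟩
      left_inv := fun v => Subtype.ext (smul_inv_smul₀ hr0 _)
      right_inv := fun v => Subtype.ext (inv_smul_smul₀ hr0 _) }
  · have hv := v.2
    rw [fm] at hv
    rw [c.smul_left, c.smul_right, map_inv₀,
      show Cfsg.hermForm n F q v.1 v.1 = r * c.σ r by
        rw [hr, eq_div_iff K.ζ_ne, mul_comm, hv]]
    field_simp
  · rw [fm, c.smul_left, c.smul_right, v.2, mul_one, hr, mul_div_cancel₀ _ K.ζ_ne]

end UC

end CfsgLib.MinIndexUnit
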