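import Cfsg.Agent.Lib.MinIndex.Unit.Torus
import Cfsg.Agent.Lib.MinIndex.Unit.Action

/-!
A diagonal element without fixed vectors and some elements centralising it.
-/

set_option autoImplicit false
set_option linter.unusedSectionVars false

namespace CfsgLib.MinIndexUnit

open CfsgLib.Geometric CfsgLib.Geometric.Unitary CfsgLib.ClassicalForms

variable {F : Type*} [Field F] [Finite F] {q : ℕ}

namespace UC

variable (K : UC F q)

lemma norm_eq_pow (x : F) : x * K.σ x = x ^ (q + 1) := by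
  rw [K.σ_eq, K.conj.apply, pow_succ']

/-- There is a scalar of norm one outside a small set. -/
lemma exists_norm_one (S : Finset F) (hS : S.card ≤ q) : ∃ x : F, x * K.σ x = 1 ∧ x ∉ S := by
  classical
  have h1 : Nat.card {x : Fˣ // x ^ (q + 1) = 1} = q + 1 := by
    rw [card_units_pow_eq_one K.card_eq, Nat.gcd_eq_right (Dvd.intro _ rfl)]
  by_contra h
  push Not at h
  have h2 : Nat.card {x : Fˣ // x ^ (q + 1) = 1} ≤ Nat.card (S : Set F) := by
    refine Nat.card_le_card_of_injective (fun x => ⟨(x.1 : F), h _ ?_⟩) fun x y e => ?_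
    · rw [K.norm_eq_pow, ← Units.val_pow_eq_pow_val, x.2, Units.val_one]
    · exact Subtype.ext (Units.ext (congrArg Subtype.val e))
  rw [h1, Nat.card_coe_set_eq, Set.ncard_coe_finset] at h2
  omega

/-- Norm one scalars different from one with a prescribed product. -/
lemma exists_prod : ∀ (j : ℕ) (T : F), T * K.σ T = 1 → (j = 0 → T = 1) → (j = 1 → T ≠ 1) →
    ∃ d : Fin j → F, (∀ i, d i * K.σ (d i) = 1 ∧ d i ≠ 1) ∧ ∏ i, d i = T
  | 0, T, _, h0, _ => ⟨fun i => i.elim0, fun i => i.elim0, by simp [h0 rfl]⟩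
  | 1, T, hT, _, h1 => ⟨fun _ => T, fun _ => ⟨hT, h1 rfl⟩, by simp⟩
  | j + 2, T, hT, _, _ => by
    classical
    obtain ⟨x, hx, hxS⟩ := K.exists_norm_one {1, T} (Finset.card_le_two.trans K.two_le)
    simp only [Finset.mem_insert, Finset.mem_singleton, not_or] at hxS
    have hx0 : x ≠ 0 := left_ne_zero_of_mul_eq_one hx
    obtain ⟨d, hd, hp⟩ := exists_prod (j + 1) (T / x)
      (by rw [map_div₀, div_mul_div_comm, hT, hx, div_one]) (by simp)
      (fun _ h => hxS.2 (by rw [div_eq_one_iff_eq hx0] at h; exact h.symm))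
    refine ⟨Fin.cons x d, fun i => ?_, ?_⟩
    · refine Fin.cases ?_ (fun l => ?_) i
      · simpa using ⟨hx, hxS.1⟩
      · simpa using hd l
    · rw [Fin.prod_cons, hp, mul_div_cancel₀ _ hx0]

lemma ap_diag_gl {n : ℕ} (g : GL (Fin n) F) (d : Fin n → F)
    (h : (g : Matrix (Fin n) (Fin n) F) = Matrix.diagonal d) (x : Fin n → F) :
    ap g x = fun i => d i * x i := by
  funext i
  show ((g : Matrix (Fin n) (Fin n) F).mulVec x) i = _
  rw [h, Matrix.mulVec_diagonal]

/-- A diagonal element of the group. -/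
theorem exists_diag {n : ℕ} (d : Fin n → F) (hN : ∀ i, d i * K.σ (d i) = 1)
    (hprod : ∏ i, d i = 1) :
    ∃ g : K.G n, (∀ x, ap (g : GL (Fin n) F) x = fun i => d i * x i) ∧ g ^ (q + 1) = 1 := by
  let g : GL (Fin n) F :=
    ⟨Matrix.diagonal d, Matrix.diagonal fun i => K.σ (d i),
      by rw [Matrix.diagonal_mul_diagonal, ← Matrix.diagonal_one]; exact congrArg _ (funext hN),
      by
        rw [Matrix.diagonal_mul_diagonal, ← Matrix.diagonal_one]
        exact congrArg _ (funext fun i => by rw [mul_comm]; exact hN i)⟩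
  have hg : ∀ x, ap g x = fun i => d i * x i := ap_diag_gl g d rfl
  have hmem : g ∈ K.G n := by
    refine ⟨mem_isom_iff.2 fun x y => ?_, (mem_specialLinear_iff _).2 ?_⟩
    · simp only [hg, UC.fm, K.conj.herm_apply]
      congr 1
      refine Finset.sum_congr rfl fun i _ => ?_
      have h := hN i
      rw [K.σ_eq] at h
      rw [map_mul]
      linear_combination (x i * K.conj.σ (y i)) * h
    · show (Matrix.diagonal d).det = 1
      rw [Matrix.det_diagonal, hprod]
  refine ⟨⟨g, hmem⟩, hg, Subtype.ext (Units.ext ?_)⟩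
  show ((g ^ (q + 1) : GL (Fin n) F) : Matrix (Fin n) (Fin n) F) = 1
  rw [Units.val_pow_eq_pow_val, Matrix.diagonal_pow, ← Matrix.diagonal_one]
  exact congrArg _ (funext fun i => by rw [Pi.pow_apply, ← K.norm_eq_pow, hN])

lemma tEl_vec_congr {n : ℕ} {u v : Fin n → F} (hu : K.fm n u u = 0) (hv : K.fm n v v = 0)
    (e : u = v) (c : F) (hc : K.σ c = c) : K.tEl hu c hc = K.tEl hv c hc := by
  subst e; rfl

/-- An element having the vector as an eigenvector with eigenvalue of norm one centralises its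
transvections. -/
lemma comm_tEl {n : ℕ} {u : Fin n → F} (hu : K.fm n u u = 0) {s : K.G n} {b : F}
    (hs : ap (s : GL (Fin n) F) u = b • u) (hb : b * K.σ b = 1) (c : F) (hc : K.σ c = c) :
    s * K.tEl hu c hc = K.tEl hu c hc * s :=
  mul_inv_eq_iff_eq_mul.1 (K.conj_tEl hu hu c c hc hc s hs (by rw [hb, one_mul]))

lemma two_eq_zero (hq : q = 2) (K : UC F q) : (2 : F) = 0 := by
  have := Fintype.ofFinite F
  have h := FiniteField.cast_card_eq_zero (K := F)
  rw [← Nat.card_eq_fintype_card, K.card_eq, hq] at h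
  push_cast at h
  exact (pow_eq_zero_iff (n := 2) (by norm_num)).1 (by linear_combination h)

lemma fixed_two (hq : q = 2) {c d : F} (hc : K.σ c = c) (hd : K.σ d = d) (hd0 : d ≠ 0) :
    c = 0 ∨ c = d := by
  classical
  by_contra h
  push Not at h
  have h3 : 2 < Nat.card {x : F // K.σ x = x} := by
    have := Fintype.ofFinite {x : F // K.σ x = x}
    rw [Nat.card_eq_fintype_card, Fintype.two_lt_card_iff]
    exact ⟨⟨0, map_zero _⟩, ⟨c, hc⟩, ⟨d, hd⟩, fun e => h.1 (congrArg Subtype.val e).symm,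
      fun e => hd0 (congrArg Subtype.val e).symm, fun e => h.2 (congrArg Subtype.val e)⟩
  rw [K.card_fixed, hq] at h3
  omega

end UC

/-- The vectors supported in the first two coordinates are scaled. -/
lemma cons_mul_tail {k : ℕ} (b : F) (d : Fin k → F) {u : Fin (k + 2) → F} (hu : tail2 u = 0) :
    (fun i => (Fin.cons b (Fin.cons b d) : Fin (k + 2) → F) i * u i) = b • u := by
  funext i
  refine Fin.cases ?_ (fun j => ?_) i
  · simp
  · refine Fin.cases ?_ (fun l => ?_) j
    · simp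
    · have h := congrFun hu l
      simp only [tail2, Pi.zero_apply] at h
      simp [h]

lemma cons_mul_inc {k : ℕ} (b : F) (d w : Fin k → F) :
    (fun i => (Fin.cons b (Fin.cons b d) : Fin (k + 2) → F) i * inc w i)
      = inc (fun l => d l * w l) := by
  funext i
  refine Fin.cases ?_ (fun j => ?_) i
  · simp [inc]
  · refine Fin.cases ?_ (fun l => ?_) j <;> simp [inc]

variable {K : UC F q}

/-- The data for the final argument. -/
theorem exists_semi (k : ℕ) (hk : 1 ≤ k) (hqk : 3 ≤ q ∨ Odd k) :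
    ∃ (fr : Frame K k) (s : K.G (k + 2)), s ^ (q + 1) = 1 ∧
      (∀ x, ap (s : GL (Fin (k + 2)) F) x = x → x = 0) ∧
      (∀ y, ∃ x, x - ap (s : GL (Fin (k + 2)) F) x = y) ∧
      (∀ c hc, s * K.tEl fr.hu c hc = K.tEl fr.hu c hc * s) ∧
      ((3 ≤ q ∧ ∃ (t : K.G (k + 2)) (a : F), s * t = t * s ∧
          ap (t : GL (Fin (k + 2)) F) fr.u = a • fr.u ∧ a * K.σ a ≠ 1) ∨
        (q = 2 ∧ ∃ (g : K.G (k + 2)) (d : F) (hd : K.σ d = d), d ≠ 0 ∧ s * g = g * s ∧
          g * g = K.tEl fr.hu d hd)) := by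
  classical
  obtain ⟨fr⟩ := exists_frame K k
  obtain ⟨b, hb, hb1, d, hd, hprod, hd0⟩ : ∃ b : F, b * K.σ b = 1 ∧ b ≠ 1 ∧ ∃ d : Fin k → F,
      (∀ i, d i * K.σ (d i) = 1 ∧ d i ≠ 1) ∧ b * (b * ∏ i, d i) = 1 ∧
        (q = 2 → d ⟨0, hk⟩ = b) := by
    rcases Nat.lt_or_ge q 3 with h2 | h3
    · have hq2 : q = 2 := by have := K.two_le; omega
      obtain ⟨b, hb, hb1⟩ := K.exists_norm_one {1} (by simp; omega)
      rw [Finset.mem_singleton] at hb1
      obtain ⟨j, rfl⟩ : ∃ j, k = j + 1 := ⟨k - 1, by omega⟩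
      have hb0 : b ≠ 0 := left_ne_zero_of_mul_eq_one hb
      have hb3 : b * b * b = 1 := by
        rw [K.norm_eq_pow, hq2] at hb
        rw [← hb]; ring
      have hj : j ≠ 1 := by
        have := hqk.resolve_left (by omega)
        rintro rfl
        exact absurd this (by decide)
      obtain ⟨d', hd', hp⟩ := K.exists_prod j 1 (by simp) (fun _ => rfl)
        (fun h => absurd h hj)
      refine ⟨b, hb, hb1, Fin.cons b d', fun i => ?_, ?_, fun _ => ?_⟩
      · refine Fin.cases ?_ (fun l => ?_) i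
        · simpa using ⟨hb, hb1⟩
        · simpa using hd' l
      · rw [Fin.prod_cons, hp, mul_one, ← mul_assoc, hb3]
      · exact Fin.cons_zero (α := fun _ => F) b d'
    · obtain ⟨b, hb, hbS⟩ := K.exists_norm_one {1, -1} (Finset.card_le_two.trans (by omega))
      simp only [Finset.mem_insert, Finset.mem_singleton, not_or] at hbS
      have hb0 : b ≠ 0 := left_ne_zero_of_mul_eq_one hb
      have hbb : b * b ≠ 1 := fun h => by
        rcases mul_self_eq_one_iff.1 h with e | e
        · exact hbS.1 e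
        · exact hbS.2 e
      obtain ⟨d, hd, hp⟩ := K.exists_prod k (b * b)⁻¹
        (by rw [map_inv₀, ← mul_inv, map_mul, show b * b * (K.σ b * K.σ b)
          = (b * K.σ b) * (b * K.σ b) by ring, hb, one_mul, inv_one])
        (by omega) (fun _ h => hbb (inv_eq_one.1 h))
      refine ⟨b, hb, hbS.1, d, hd, ?_, fun h => absurd h (by omega)⟩
      rw [hp, ← mul_assoc, mul_inv_cancel₀ (mul_ne_zero hb0 hb0)]
  set D : Fin (k + 2) → F := Fin.cons b (Fin.cons b d) with hD
  have hDN : ∀ i, D i * K.σ (D i) = 1 ∧ D i ≠ 1 := fun i => by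
    refine Fin.cases ?_ (fun j => ?_) i
    · simpa [hD] using ⟨hb, hb1⟩
    · refine Fin.cases ?_ (fun l => ?_) j
      · simpa [hD] using ⟨hb, hb1⟩
      · simpa [hD] using hd l
  obtain ⟨s, hs, hspow⟩ := K.exists_diag D (fun i => (hDN i).1)
    (by rw [hD, Fin.prod_cons, Fin.prod_cons, hprod])
  have hsu : ap (s : GL (Fin (k + 2)) F) fr.u = b • fr.u := by
    rw [hs]; exact cons_mul_tail b d fr.tail_u
  refine ⟨fr, s, hspow, fun x hx => ?_, fun y => ⟨fun i => y i / (1 - D i), ?_⟩,
    fun c hc => K.comm_tEl fr.hu hsu hb c hc, ?_⟩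
  · funext i
    have h := congrFun hx i
    rw [hs] at h
    have h2 : (D i - 1) * x i = 0 := by linear_combination h
    exact (mul_eq_zero.1 h2).resolve_left (sub_ne_zero.2 (hDN i).2)
  · funext i
    have h0 : 1 - D i ≠ 0 := sub_ne_zero.2 (Ne.symm (hDN i).2)
    rw [hs, Pi.sub_apply]
    field_simp
  rcases Nat.lt_or_ge q 3 with h2 | h3
  · right
    have hq2 : q = 2 := by have := K.two_le; omega
    refine ⟨hq2, ?_⟩
    set e : Fin k → F := Pi.single ⟨0, hk⟩ 1
    set x : Fin (k + 2) → F := inc e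
    have hf := K.skewForm (k + 2)
    have h20 := UC.two_eq_zero hq2 K
    have hxu : K.fm _ x fr.u = 0 := fr.inc_u _
    have hxx : K.fm _ x x = K.ζ := by
      rw [K.fm_inc, UC.fm, K.conj.single_right, show e ⟨0, hk⟩ = 1 by simp [e], mul_one]
    have hζ : K.σ K.ζ = K.ζ := by
      rw [K.ζ_skew]; linear_combination -K.ζ * h20
    obtain ⟨c, hc⟩ := exists_sub_eq hf (skew_self hf x)
    refine ⟨K.eEl fr.hu hxu c hc, K.ζ, hζ, K.ζ_ne, K.g_ext fun z => ?_, K.g_ext fun z => ?_⟩
    · have hsx : ap (s : GL (Fin (k + 2)) F) x = b • x := by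
        rw [hs]
        refine (cons_mul_inc b d e).trans ?_
        rw [← inc_smul]
        congr 1
        funext l
        by_cases hl : l = ⟨0, hk⟩
        · subst hl; simp [e, hd0 hq2]
        · simp [e, hl]
      have key : ∀ w, ap (s : GL (Fin (k + 2)) F) w = b • w →
          K.fm _ (ap (s : GL (Fin (k + 2)) F) z) w = b * K.fm _ z w := fun w hw => by
        have h := K.fm_ap s z w
        rw [hw, smul_right hf] at h
        linear_combination b * h - K.fm _ (ap (s : GL (Fin (k + 2)) F) z) w * hb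
      rw [Subgroup.coe_mul, Subgroup.coe_mul, ap_mul, ap_mul, K.ap_eEl, K.ap_eEl, key _ hsu,
        key _ hsx, ap_add, ap_add, ap_add, ap_smul, ap_smul, ap_smul, hsu, hsx]
      module
    · have hux : K.fm _ fr.u x = 0 := (eq_zero_comm hf).1 hxu
      rw [Subgroup.coe_mul, ap_mul, K.ap_eEl, K.ap_eEl, K.ap_tEl]
      simp only [hf.add_left, hf.smul_left, hxu, fr.hu, hxx, hux]
      funext i
      simp only [Pi.add_apply, Pi.smul_apply, smul_eq_mul]
      linear_combination (K.fm _ z fr.u * x i + K.fm _ z x * fr.u i + c * K.fm _ z fr.u * fr.u i)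
        * h20
  · left
    refine ⟨h3, ?_⟩
    obtain ⟨N, hN, hN0, hN1⟩ : ∃ N : F, K.σ N = N ∧ N ≠ 0 ∧ N ≠ 1 := by
      by_contra h
      push Not at h
      have hc := K.card_fixed
      have : Nat.card {x : F // K.σ x = x} ≤ Nat.card (({0, 1} : Finset F) : Set F) :=
        Nat.card_le_card_of_injective (fun x => ⟨x.1, by
          by_cases h0 : x.1 = 0
          · simp [h0]
          · simp [h x.1 x.2 h0]⟩) fun x y e => Subtype.ext (by simpa using congrArg Subtype.val e)
      rw [hc, Nat.card_coe_set_eq, Set.ncard_coe_finset] at this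
      have := Finset.card_le_two (a := (0 : F)) (b := 1)
      omega
    obtain ⟨a, ha⟩ := Unitary.exists_norm (K.skewForm 1) hN
    have ha0 : a ≠ 0 := fun h => hN0 (by rw [← ha, h, zero_mul])
    obtain ⟨t, htu, htu', hti⟩ := fr.exists_tor hk ha0
    refine ⟨t, a, K.g_ext fun z => ?_, htu, by rw [ha]; exact hN1⟩
    have hsu' : ap (s : GL (Fin (k + 2)) F) fr.u' = b • fr.u' := by
      rw [hs]; exact cons_mul_tail b d fr.tail_u'
    have hsi : ∀ w, ap (s : GL (Fin (k + 2)) F) (inc w) = inc (fun l => d l * w l) := fun w => by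
      rw [hs]; exact cons_mul_inc b d w
    rw [Subgroup.coe_mul, Subgroup.coe_mul, ap_mul, ap_mul]
    obtain ⟨α, hz⟩ := fr.decomp z
    rw [hz]
    simp only [ap_add, ap_smul, htu, htu', hsu, hsu', hti, hsi]
    have hl : ∀ w : Fin k → F, (fun l => d l * (w + ((K.σ a / a - 1) * w ⟨0, hk⟩) •
        (Pi.single ⟨0, hk⟩ 1 : Fin k → F)) l) = (fun l => d l * w l) + ((K.σ a / a - 1) *
          (d ⟨0, hk⟩ * w ⟨0, hk⟩)) • (Pi.single ⟨0, hk⟩ 1 : Fin k → F) := fun w => by
      funext l
      simp only [Pi.add_apply, Pi.smul_apply, smul_eq_mul]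
      by_cases hl : l = ⟨0, hk⟩
      · subst hl; simp; ring
      · simp [hl]
    rw [hl]
    module

end CfsgLib.MinIndexUnit
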