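import Cfsg.Agent.Lib.MinIndex.Unit.Tools

/-!
Orbits of large isotropic subgroups under the four-dimensional special unitary group.
-/

set_option autoImplicit false
set_option linter.unusedSectionVars false

namespace CfsgLib.MinIndexUnit

open CfsgLib.Geometric CfsgLib.Geometric.Unitary CfsgLib.ClassicalForms MulAction

variable {F : Type*} [Field F] [Finite F] {q : ℕ} {K : UC F q}

namespace Frame

variable (fr : Frame K 2)
include fr

/-- A subgroup without isotropic vectors that is not orthogonal to the line has a regular orbit. -/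
lemma six_aniso {A : AddSubgroup (Fin 4 → F)}
    (h0 : ∀ z ∈ A, K.fm 4 z z = 0 → z = 0) {y : Fin 4 → F} (hy : y ∈ A)
    (hα : K.fm 4 y fr.u ≠ 0) : q ^ 5 ≤ Nat.card (K.orb A) := by
  have hU : Nat.card fr.U = q ^ 5 := fr.card_U
  rw [← hU]
  refine K.card_le_orb A fr.U fun g hg hfix => ?_
  obtain ⟨x, c, hx, hc, e⟩ := hg
  have hf := K.skewForm 4
  have hux : K.fm 4 fr.u x = 0 := (eq_zero_comm hf).1 hx
  have hD : ap (g : GL (Fin 4) F) y - y ∈ A := K.sub_mem_of_fix hfix hy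
  rw [fr.disp e] at hD
  have hD2 := K.sub_mem_of_fix hfix hD
  rw [fr.disp e] at hD2
  simp only [hf.add_left, hf.smul_left, hx, fr.hu, hux, mul_zero, zero_smul, add_zero,
    zero_add] at hD2
  have h2 := h0 _ hD2 (isotropic_smul hf fr.hu _)
  rw [smul_eq_zero, or_iff_left fr.u_ne, mul_eq_zero, or_iff_right hα] at h2
  have h3 := h0 _ hD (by
    simp only [hf.add_left, add_right hf, hf.smul_left, smul_right hf, hx, hux, fr.hu, h2]; ring)
  obtain ⟨a, ha⟩ := fr.perp_eq x hx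
  have ht : tail2 x = 0 := by
    have h4 := congrArg tail2 h3
    rw [tail2_add, tail2_smul, tail2_smul, fr.tail_u, smul_zero, add_zero,
      show tail2 (0 : Fin 4 → F) = 0 from rfl, smul_eq_zero, or_iff_right hα] at h4
    exact h4
  have hinc : inc (0 : Fin 2 → F) = 0 := by
    have := inc_smul (0 : F) (0 : Fin 2 → F)
    simpa using this
  rw [ht, hinc, add_zero] at ha
  subst ha
  rw [smul_smul, ← add_smul, smul_eq_zero, or_iff_left fr.u_ne, smul_right hf] at h3
  have hcf : a + K.σ a + c = 0 := by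
    refine (mul_eq_zero.1 (show K.fm 4 y fr.u * (a + K.σ a + c) = 0 from ?_)).resolve_left hα
    linear_combination h3
  refine K.g_ext fun z => ?_
  rw [e, Subgroup.coe_one, ap_one, smul_right hf, smul_smul, add_assoc, add_assoc, ← add_smul,
    ← add_smul]
  rw [show K.fm 4 z fr.u * a + (K.σ a * K.fm 4 z fr.u + c * K.fm 4 z fr.u)
      = K.fm 4 z fr.u * (a + K.σ a + c) by ring, hcf, mul_zero, zero_smul, add_zero]

/-- In a totally isotropic subgroup with few members through the vector, everything is orthogonal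
to it. -/
lemma six_orth {A : AddSubgroup (Fin 4 → F)} (hiso : ∀ z ∈ A, K.fm 4 z z = 0) (hu : fr.u ∈ A)
    (hμ : K.thru A fr.u ≤ q) {y : Fin 4 → F} (hy : y ∈ A) : K.fm 4 y fr.u = 0 := by
  classical
  have : Finite (AddSubgroup (Fin 4 → F)) := Finite.of_injective _ SetLike.coe_injective
  by_contra hα
  have hf := K.skewForm 4
  let St : Subgroup (K.G 4) :=
    { carrier := {g | g ∈ fr.U ∧ K.mapSub g A = A}
      one_mem' := ⟨one_mem _, K.mapSub_one A⟩
      mul_mem' := fun {a b} ha hb => ⟨mul_mem ha.1 hb.1, by rw [K.mapSub_mul, hb.2, ha.2]⟩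
      inv_mem' := fun {a} ha => ⟨inv_mem ha.1, by
        conv_lhs => rw [← ha.2]
        rw [← K.mapSub_mul, inv_mul_cancel, K.mapSub_one]⟩ }
  -- the stabiliser is large
  have h1 : q ^ 5 ≤ q * Nat.card St := by
    have hsub : St ≤ fr.U := fun g hg => hg.1
    have hidx : (St.subgroupOf fr.U).index ≤ K.thru A fr.u := by
      rw [Subgroup.index]
      refine Nat.card_le_card_of_injective (fun cl => ⟨⟨K.mapSub (cl.out : fr.U).1 A, _, rfl⟩, ?_⟩)
        fun cl cl' e => ?_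
      · show fr.u ∈ K.mapSub (cl.out : fr.U).1 A
        rw [← fr.ap_U_u (cl.out : fr.U).2]
        exact K.mem_mapSub.2 hu
      · have e' : K.mapSub (cl.out : fr.U).1 A = K.mapSub (cl'.out : fr.U).1 A :=
          congrArg (fun t => t.1.1) e
        rw [← QuotientGroup.out_eq' cl, ← QuotientGroup.out_eq' cl']
        refine QuotientGroup.eq.2 (Subgroup.mem_subgroupOf.2 ⟨mul_mem (inv_mem cl.out.2) cl'.out.2, ?_⟩)
        show K.mapSub (((cl.out : fr.U)⁻¹ : fr.U).1 * (cl'.out : fr.U).1) A = A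
        rw [Subgroup.coe_inv, K.mapSub_mul, ← e', ← K.mapSub_mul, inv_mul_cancel, K.mapSub_one]
    have hU : Nat.card fr.U = q ^ 5 := fr.card_U
    rw [← hU, ← (St.subgroupOf fr.U).card_mul_index, mul_comm q,
      Nat.card_congr (Subgroup.subgroupOfEquivOfLe hsub).toEquiv]
    exact Nat.mul_le_mul_left _ (hidx.trans hμ)
  -- all displacements are isotropic
  let P : AddSubgroup (Fin 2 → F) :=
    { carrier := {w | ∃ g ∈ St, fr.proj g = w}
      zero_mem' := ⟨1, one_mem _, fr.proj_tr (one_mem _)⟩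
      add_mem' := by
        rintro _ _ ⟨g, hg, rfl⟩ ⟨h, hh, rfl⟩
        exact ⟨g * h, mul_mem hg hh, fr.proj_mul hg.1 hh.1⟩
      neg_mem' := by
        rintro _ ⟨g, hg, rfl⟩
        refine ⟨g⁻¹, inv_mem hg, eq_neg_of_add_eq_zero_left ?_⟩
        rw [← fr.proj_mul (inv_mem hg.1) hg.1, inv_mul_cancel, fr.proj_tr (one_mem _)] }
  have hP : ∀ w ∈ P, K.fm 2 w w = 0 := by
    rintro _ ⟨g, ⟨hgU, hgA⟩, rfl⟩
    obtain ⟨x, c, hx, -, e⟩ := id hgU
    have hux : K.fm 4 fr.u x = 0 := (eq_zero_comm hf).1 hx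
    have hD := hiso _ (K.sub_mem_of_fix hgA hy)
    rw [fr.disp e] at hD
    simp only [hf.add_left, add_right hf, hf.smul_left, smul_right hf, hx, hux, fr.hu, mul_zero,
      add_zero, zero_add] at hD
    rw [fr.proj_eq e, ← fr.tail_fm hx]
    exact (mul_eq_zero.1 ((mul_eq_zero.1 hD).resolve_left hα)).resolve_left
      ((map_ne_zero_iff _ K.σ.injective).2 hα)
  have h2 := K.sq_card_iso hP
  have h3 : Nat.card St ≤ q * Nat.card P := by
    let φ : St →* Multiplicative (Fin 2 → F) :=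
      fr.projHom.comp (Subgroup.inclusion (fun g hg => hg.1))
    have hr : Nat.card φ.range ≤ Nat.card P :=
      Nat.card_le_card_of_injective (fun t => ⟨Multiplicative.toAdd t.1, by
        obtain ⟨g, hg⟩ := t.2
        exact ⟨g.1, g.2, congrArg Multiplicative.toAdd hg⟩⟩) fun t t' e => by
        have h := congrArg Subtype.val e
        exact Subtype.ext (Multiplicative.toAdd.injective h)
    have hk : Nat.card φ.ker ≤ q := by
      refine le_of_le_of_eq ?_ fr.card_Z
      refine Nat.card_le_card_of_injective (fun g => ⟨(g.1 : St).1,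
        fr.mem_Z_of_proj g.1.2.1 (Multiplicative.ofAdd.injective (MonoidHom.mem_ker.1 g.2))⟩)
        fun g g' e => by
        have h := congrArg Subtype.val e
        exact Subtype.ext (Subtype.ext h)
    rw [← φ.ker.card_mul_index, Subgroup.index_ker]
    exact Nat.mul_le_mul hk hr
  have hP2 : Nat.card P ≤ q ^ 2 := by
    refine Nat.mul_self_le_mul_self_iff.1 (h2.trans (le_of_eq ?_))
    ring
  have hq := K.two_le
  have : q ^ 5 ≤ q ^ 4 := by
    calc q ^ 5 ≤ q * Nat.card St := h1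
      _ ≤ q * (q * q ^ 2) := Nat.mul_le_mul_left _ (h3.trans (Nat.mul_le_mul_left _ hP2))
      _ = q ^ 4 := by ring
  have : q ^ 4 < q ^ 5 := Nat.pow_lt_pow_right (by omega) (by omega)
  omega

/-- A totally isotropic plane through the vector has many images through it. -/
lemma six_plane {A : AddSubgroup (Fin 4 → F)} (hu : fr.u ∈ A) (hA : Nat.card A = q ^ 4)
    (h0 : ∀ x ∈ A, ∀ y ∈ A, K.fm 4 x y = 0) : q < K.thru A fr.u := by
  classical
  have : Finite (AddSubgroup (Fin 4 → F)) := Finite.of_injective _ SetLike.coe_injective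
  have hq := K.two_le
  have hf := K.skewForm 4
  have hf2 := K.skewForm 2
  have hperp : ∀ y ∈ A, K.fm 4 y fr.u = 0 := fun y hy => h0 y hy _ hu
  -- a vector off the line
  obtain ⟨y1, hy1, hp⟩ : ∃ y ∈ A, tail2 y ≠ 0 := by
    by_contra h
    push Not at h
    have : Nat.card A ≤ Nat.card F := by
      refine Nat.card_le_card_of_injective
        (fun y : A => (fr.perp_eq y.1 (hperp _ y.2)).choose) fun y y' e => Subtype.ext ?_
      refine (fr.perp_eq y.1 (hperp _ y.2)).choose_spec.trans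
        (Eq.trans ?_ (fr.perp_eq y'.1 (hperp _ y'.2)).choose_spec.symm)
      exact congrArg₂ (fun a w => a • fr.u + inc w) e ((h _ y.2).trans (h _ y'.2).symm)
    rw [hA, K.card_eq] at this
    have : q ^ 2 < q ^ 4 := Nat.pow_lt_pow_right (by omega) (by omega)
    omega
  set p := tail2 y1 with hpdef
  have hpp : K.fm 2 p p = 0 := by
    rw [← fr.tail_fm (hperp _ hy1)]; exact h0 _ hy1 _ hy1
  -- the tails are on its line
  have htail : ∀ y ∈ A, ∃ r : F, tail2 y = r • p := by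
    intro y hy
    have hwp : K.fm 2 (tail2 y) p = 0 := by
      rw [← fr.tail_fm2 (hperp _ hy) (hperp _ hy1)]; exact h0 _ hy _ hy1
    set w := tail2 y
    rw [UC.fm, K.conj.herm_apply, Fin.sum_univ_two, mul_eq_zero, or_iff_right K.ζ_ne] at hwp hpp
    have hp0 : p 0 ≠ 0 := by
      intro h
      rw [h, zero_mul, zero_add, mul_eq_zero] at hpp
      have h1 : p 1 = 0 := hpp.elim id K.conj.eq_zero
      exact hp (funext fun i => by fin_cases i <;> [exact h; exact h1])
    refine ⟨w 0 / p 0, funext fun i => ?_⟩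
    fin_cases i
    · simp [hp0]
    · have hs0 : K.conj.σ (p 0) ≠ 0 := fun h => hp0 (K.conj.eq_zero h)
      have key : w 1 * p 0 = w 0 * p 1 := by
        refine mul_right_cancel₀ hs0 ?_
        linear_combination (-(p 1)) * hwp + (w 1) * hpp
      show w 1 = (w 0 / p 0) * p 1
      field_simp
      linear_combination key
  -- so it is the whole plane
  have hall : ∀ a r : F, a • fr.u + inc (r • p) ∈ A := by
    let φ : A → F × F := fun y => ((fr.perp_eq y.1 (hperp _ y.2)).choose, (htail _ y.2).choose)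
    have hspec : ∀ y : A, (y : Fin 4 → F) = (φ y).1 • fr.u + inc ((φ y).2 • p) := fun y =>
      (fr.perp_eq y.1 (hperp _ y.2)).choose_spec.trans
        (congrArg (fun w => (φ y).1 • fr.u + inc w) (htail _ y.2).choose_spec)
    have hinj : Function.Injective φ := fun y y' e => Subtype.ext (by rw [hspec, hspec, e])
    have hcard : Nat.card A = Nat.card (F × F) := by
      rw [hA, Nat.card_prod, K.card_eq]; ring
    have hbij := (Nat.bijective_iff_injective_and_card φ).2 ⟨hinj, hcard⟩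
    intro a r
    obtain ⟨y, hy⟩ := hbij.2 (a, r)
    have h1 := hspec y
    rw [hy] at h1
    rw [← h1]
    exact y.2
  obtain ⟨p', hp'p', hp'0, hpp'⟩ := K.exists_iso_notperp 0 hp
  set α := K.fm 2 p p' with hα
  -- images of the plane
  have himg : ∀ (g : K.G 4), ap (g : GL (Fin 4) F) fr.u = fr.u →
      fr.u ∈ K.mapSub g A := fun g hg => by rw [← hg]; exact K.mem_mapSub.2 hu
  have hv : K.fm 4 (inc p') (inc p') = 0 := by rw [K.fm_inc, hp'p']
  set a := K.σ α⁻¹ with ha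
  set y' := p + a • p' with hy'
  have hy'y' : K.fm 2 y' y' = 0 := by
    simp only [hy', hf2.add_left, add_right hf2, hf2.smul_left, smul_right hf2, hpp, hp'p',
      hf2.skew p' p, ← hα, ha, K.invol, map_inv₀]
    have hσ : K.σ α ≠ 0 := (map_ne_zero_iff _ K.σ.injective).2 hpp'
    field_simp
    ring
  have hv' : K.fm 4 (inc y') (inc y') = 0 := by rw [K.fm_inc, hy'y']
  have hone : K.σ (1 : F) = 1 := map_one _
  have hfix : ∀ (v : Fin 2 → F) (hvv : K.fm 4 (inc v) (inc v) = 0) (c : F) (hc : K.σ c = c),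
      ap (K.tEl hvv c hc : GL (Fin 4) F) fr.u = fr.u ∧
      ∀ a r : F, ap (K.tEl hvv c hc : GL (Fin 4) F) (a • fr.u + inc (r • p))
        = a • fr.u + inc (r • (p + (c * K.fm 2 p v) • v)) := by
    intro v hvv c hc
    have huv : K.fm 4 fr.u (inc v) = 0 := (eq_zero_comm hf).1 (fr.inc_u v)
    refine ⟨by rw [K.ap_tEl, huv, mul_zero, zero_smul, add_zero], fun a r => ?_⟩
    rw [K.ap_tEl, hf.add_left, hf.smul_left, huv, mul_zero, zero_add, inc_smul, hf.smul_left,
      K.fm_inc, inc_smul, inc_add, inc_smul]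
    module
  let M : Option {c : F // K.σ c = c} → {Ab : K.orb A // fr.u ∈ Ab.1} := fun o => o.elim
    ⟨⟨_, K.tEl hv' (-1) (by rw [map_neg, hone]), rfl⟩, himg _ (hfix y' hv' _ _).1⟩
    fun c => ⟨⟨_, K.tEl hv c.1 c.2, rfl⟩, himg _ (hfix p' hv c.1 c.2).1⟩
  have hM : Function.Injective M := by
    have hp'α : K.fm 2 p' p ≠ 0 := fun h => hpp' ((eq_zero_comm hf2).1 h)
    have mem : ∀ (v : Fin 2 → F) (hvv : K.fm 4 (inc v) (inc v) = 0) (c : F) (hc : K.σ c = c)
        (x : Fin 4 → F), x ∈ K.mapSub (K.tEl hvv c hc) A →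
        ∃ r : F, tail2 x = r • (p + (c * K.fm 2 p v) • v) := by
      rintro v hvv c hc _ ⟨y, hy, rfl⟩
      obtain ⟨r, hr⟩ := htail y hy
      obtain ⟨b, hb⟩ := fr.perp_eq y (hperp y hy)
      rw [hr] at hb
      refine ⟨r, ?_⟩
      show tail2 (ap (K.tEl hvv c hc : GL (Fin 4) F) y) = _
      rw [hb, (hfix v hvv c hc).2, tail2_add, tail2_smul, fr.tail_u, smul_zero, zero_add,
        tail2_inc]
    have base : ∀ (v : Fin 2 → F) (hvv : K.fm 4 (inc v) (inc v) = 0) (c : F) (hc : K.σ c = c),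
        inc (p + (c * K.fm 2 p v) • v) ∈ K.mapSub (K.tEl hvv c hc) A := by
      intro v hvv c hc
      have h := (K.mem_mapSub (g := K.tEl hvv c hc)).2 (hall 0 1)
      rw [(hfix v hvv c hc).2] at h
      simpa using h
    have hpy : K.fm 2 p y' = 1 := by
      rw [hy', add_right hf2, smul_right hf2, hpp, zero_add, ← hα, ha, K.invol,
        inv_mul_cancel₀ hpp']
    intro o o' e
    have e' : (M o).1.1 = (M o').1.1 := congrArg (fun t => t.1.1) e
    have inf_ne : ∀ c : {c : F // K.σ c = c},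
        K.mapSub (K.tEl hv' (-1) (by rw [map_neg, hone])) A ≠ K.mapSub (K.tEl hv c.1 c.2) A := by
      intro c h
      have h1 := base y' hv' (-1) (by rw [map_neg, hone])
      rw [h] at h1
      obtain ⟨r, hr⟩ := mem p' hv c.1 c.2 _ h1
      rw [tail2_inc, hpy] at hr
      have h2 := congrArg (fun w => K.fm 2 w p') hr
      simp only [hy', hf2.add_left, hf2.smul_left, hp'p', ← hα, mul_zero, add_zero] at h2
      have hr0 : r = 0 := by
        have : r * α = 0 := by linear_combination -h2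
        exact (mul_eq_zero.1 this).resolve_right hpp'
      rw [hr0, zero_smul, hy'] at hr
      have h3 : a • p' = 0 := by
        have : (p + ((-1 : F) * 1) • (p + a • p')) = -(a • p') := by module
        rw [this, neg_eq_zero] at hr
        exact hr
      rcases smul_eq_zero.1 h3 with h4 | h4
      · exact inv_ne_zero hpp' ((map_eq_zero_iff _ K.σ.injective).1 h4)
      · exact hp'0 h4
    rcases o with _ | c <;> rcases o' with _ | c'
    · rfl
    · exact absurd e' (inf_ne c')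
    · exact absurd e'.symm (inf_ne c)
    · have h1 := base p' hv c.1 c.2
      rw [show K.mapSub (K.tEl hv c.1 c.2) A = K.mapSub (K.tEl hv c'.1 c'.2) A from e'] at h1
      obtain ⟨r, hr⟩ := mem p' hv c'.1 c'.2 _ h1
      rw [tail2_inc] at hr
      have h2 := congrArg (fun w => K.fm 2 w p') hr
      simp only [hf2.add_left, hf2.smul_left, hp'p', ← hα, mul_zero, add_zero] at h2
      have hr1 : r = 1 := mul_right_cancel₀ hpp' (by linear_combination -h2)
      have h3 := congrArg (fun w => K.fm 2 w p) hr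
      simp only [hf2.add_left, hf2.smul_left, hpp, zero_add, hr1, one_mul, ← hα] at h3
      exact congrArg some (Subtype.ext (mul_right_cancel₀ hpp' (mul_right_cancel₀ hp'α h3)))
  have := Nat.card_le_card_of_injective M hM
  rw [Finite.card_option, K.card_fixed] at this
  exact this

end Frame

/-- The orbit of a non-trivial isotropic subgroup is long. -/
theorem six_bound (hq3 : 3 ≤ q) (A : AddSubgroup (Fin 4 → F)) (h1 : 1 < Nat.card A)
    (hle : Nat.card A ≤ q ^ 4) (hdvd : Nat.card A ∣ q ^ 8) :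
    K.pts 6 * Nat.card A ≤ Nat.card (K.orb A) * q ^ 9 := by
  classical
  obtain ⟨fr⟩ := exists_frame K 2
  have hf := K.skewForm 4
  by_contra hlt
  push Not at hlt
  have hx : fr.u ∈ K.cls (m := 4) 0 := ⟨fr.u_ne, fr.hu⟩
  have he := K.orbit_equation (by omega) A hx
  set γ := Nat.card (K.orb A) with hγ
  set μ := K.thru A fr.u with hμ
  set S := K.sAni (m := 4) (by omega) A with hS
  set s := Nat.card A with hs
  have hq' : (3 : ℤ) ≤ q := by exact_mod_cast hq3
  have h27 : (27 : ℤ) ≤ (q : ℤ) ^ 3 := by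
    calc (27 : ℤ) = 3 ^ 3 := by norm_num
      _ ≤ (q : ℤ) ^ 3 := pow_le_pow_left₀ (by norm_num) hq' 3
  have hq4 : (q : ℤ) ^ 4 = q * (q : ℤ) ^ 3 := by ring
  have hX : (0 : ℤ) < (q : ℤ) ^ 4 - 1 := by nlinarith
  zify [show 1 ≤ s by omega] at he
  rw [K.iso_four, K.norm_four] at he
  have he' : (γ : ℤ) * (s - 1)
      = ((q : ℤ) ^ 4 - 1) * (((μ + S : ℕ) : ℤ) * (q : ℤ) ^ 3 + μ) := by
    rw [he]; push_cast; ring
  set T := ((μ + S : ℕ) : ℤ) * (q : ℤ) ^ 3 + μ with hT
  -- something is incident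
  have hK : 1 ≤ μ + S := by
    obtain ⟨y, hy, hy0⟩ := K.exists_ne_zero_mem h1
    by_cases hyy : K.fm 4 y y = 0
    · have := K.exists_thru (by omega) hx ⟨hy0, hyy⟩ hy
      omega
    · have := K.one_le_sAni (by omega) hy hyy
      omega
  have hTq : (q : ℤ) ^ 3 ≤ T := by
    have h2 : (1 : ℤ) ≤ ((μ + S : ℕ) : ℤ) := by exact_mod_cast hK
    have : (1 : ℤ) * (q : ℤ) ^ 3 ≤ ((μ + S : ℕ) : ℤ) * (q : ℤ) ^ 3 :=
      mul_le_mul_of_nonneg_right h2 (by positivity)
    have : (0 : ℤ) ≤ (μ : ℤ) := Int.natCast_nonneg _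
    rw [hT]; linarith
  have hpts6 := K.pts_six
  have hlt' : (γ : ℤ) * (q : ℤ) ^ 9
      < ((q : ℤ) ^ 9 + (q : ℤ) ^ 7 + (q : ℤ) ^ 5 + (q : ℤ) ^ 4 + (q : ℤ) ^ 2 + 1) * s := by
    rw [hpts6] at hlt
    exact_mod_cast hlt
  have hsle : (s : ℤ) ≤ (q : ℤ) ^ 4 := by exact_mod_cast hle
  have hs0 : (2 : ℤ) ≤ s := by exact_mod_cast h1
  -- the subgroup is large
  have hs3 : q ^ 3 ≤ s := by
    by_contra h
    push Not at h
    have h2 : 2 * (s : ℤ) ≤ (q : ℤ) ^ 3 := by exact_mod_cast K.two_mul_le hdvd h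
    have h5 : K.pts 6 < 2 * q ^ 9 := K.pts_lt 3
    have h6 : γ * q ^ 9 < 2 * q ^ 9 * s := hlt.trans_le (Nat.mul_le_mul_right _ h5.le)
    have h7 : γ < 2 * s := by
      by_contra h7
      push Not at h7
      have := Nat.mul_le_mul_right (q ^ 9) h7
      linarith
    have h8 : (γ : ℤ) ≤ 2 * s := by exact_mod_cast h7.le
    have h9 : (γ : ℤ) * (s - 1) ≤ (2 * s) * (s - 1) :=
      mul_le_mul_of_nonneg_right h8 (by linarith)
    have h10 : (2 * (s : ℤ)) * (s - 1) ≤ (q : ℤ) ^ 3 * (q : ℤ) ^ 3 :=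
      mul_le_mul h2 (by linarith) (by linarith) (by positivity)
    have h11 : ((q : ℤ) ^ 4 - 1) * (q : ℤ) ^ 3 ≤ ((q : ℤ) ^ 4 - 1) * T :=
      mul_le_mul_of_nonneg_left hTq hX.le
    have h12 : (q : ℤ) ^ 3 + 1 < (q : ℤ) ^ 4 := by nlinarith
    nlinarith
  -- so the orbit is short
  have hγle : (γ : ℤ) * (q : ℤ) ^ 5 < (q : ℤ) ^ 9 + (q : ℤ) ^ 7 + (q : ℤ) ^ 5 + (q : ℤ) ^ 4
      + (q : ℤ) ^ 2 + 1 := by
    by_contra h
    push Not at h
    have h2 := mul_le_mul_of_nonneg_right h (show (0 : ℤ) ≤ s by linarith)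
    have h3 : (γ : ℤ) * (q : ℤ) ^ 5 * s ≤ (γ : ℤ) * (q : ℤ) ^ 5 * (q : ℤ) ^ 4 :=
      mul_le_mul_of_nonneg_left hsle (by positivity)
    nlinarith
  have hγ' : (γ : ℤ) ≤ (q : ℤ) ^ 4 + (q : ℤ) ^ 2 + 1 := by
    by_contra h
    push Not at h
    have h2 : ((q : ℤ) ^ 4 + (q : ℤ) ^ 2 + 2) * (q : ℤ) ^ 5 ≤ (γ : ℤ) * (q : ℤ) ^ 5 :=
      mul_le_mul_of_nonneg_right (by linarith) (by positivity)
    have h3 : (q : ℤ) ^ 4 + (q : ℤ) ^ 2 + 1 ≤ (q : ℤ) ^ 5 := by
      have : (q : ℤ) ^ 2 + 1 ≤ (q : ℤ) ^ 4 := by nlinarith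
      have : 2 * (q : ℤ) ^ 4 ≤ (q : ℤ) ^ 5 := by nlinarith
      linarith
    nlinarith
  have hTγ : T ≤ γ := by
    refine le_of_mul_le_mul_left ?_ hX
    rw [← he', mul_comm ((q : ℤ) ^ 4 - 1)]
    exact mul_le_mul_of_nonneg_left (by linarith) (Int.natCast_nonneg _)
  have hKq : μ + S ≤ q := by
    by_contra h
    push Not at h
    have h2 : ((q : ℤ) + 1) ≤ ((μ + S : ℕ) : ℤ) := by exact_mod_cast h
    have : ((q : ℤ) + 1) * (q : ℤ) ^ 3 ≤ ((μ + S : ℕ) : ℤ) * (q : ℤ) ^ 3 :=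
      mul_le_mul_of_nonneg_right h2 (by positivity)
    have : (0 : ℤ) ≤ (μ : ℤ) := Int.natCast_nonneg _
    have : (q : ℤ) ^ 2 + 1 < (q : ℤ) ^ 3 := by nlinarith
    rw [hT] at hTγ
    nlinarith
  -- the residue of the orbit length
  obtain ⟨s', hs'⟩ := K.pow_dvd_of_le hdvd hs3
  have hsc : (s : ℤ) = (q : ℤ) ^ 3 * s' := by exact_mod_cast hs'
  have hres : ((q : ℤ) ^ 3) ∣ (γ : ℤ) - μ := by
    refine ⟨(γ : ℤ) * s' - q * T + ((μ + S : ℕ) : ℤ), ?_⟩
    rw [hT] at *
    linear_combination -he' + (γ : ℤ) * hsc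
  obtain ⟨j, hj⟩ := hres
  have hμq : (μ : ℤ) ≤ q := by exact_mod_cast (show μ ≤ q by omega)
  have hjK : ((μ + S : ℕ) : ℤ) ≤ j := by
    by_contra h
    push Not at h
    have : (q : ℤ) ^ 3 * (j + 1) ≤ (q : ℤ) ^ 3 * ((μ + S : ℕ) : ℤ) :=
      mul_le_mul_of_nonneg_left (by linarith) (by positivity)
    rw [hT] at hTγ
    linarith
  have hjq : j ≤ q := by
    by_contra h
    push Not at h
    have : (q : ℤ) ^ 3 * (q + 1) ≤ (q : ℤ) ^ 3 * j :=
      mul_le_mul_of_nonneg_left (by linarith) (by positivity)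
    have : (q : ℤ) ^ 2 + 1 < (q : ℤ) ^ 3 := by nlinarith
    have : (0 : ℤ) ≤ (μ : ℤ) := Int.natCast_nonneg _
    nlinarith
  have hiso := K.iso_eq (by omega) A hx
  rw [← hμ, ← hγ] at hiso
  have hγ0 : 0 < γ := by
    have : Finite (AddSubgroup (Fin 4 → F)) := Finite.of_injective _ SetLike.coe_injective
    exact @Finite.card_pos _ _ ⟨⟨A, K.mem_orb_self A⟩⟩
  rcases Nat.eq_zero_or_pos μ with hμ0 | hμ0
  · -- no isotropic vectors
    have hno : ∀ z ∈ A, K.fm 4 z z = 0 → z = 0 := by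
      intro z hz hzz
      by_contra hz0
      have := K.exists_thru (by omega) hx ⟨hz0, hzz⟩ hz
      omega
    obtain ⟨y, hy, hy0⟩ := K.exists_ne_zero_mem h1
    obtain ⟨v, hvv, hv0, hyv⟩ := K.exists_iso_notperp 2 hy0
    obtain ⟨g, hg⟩ := K.exists_move_iso (by omega) hvv fr.hu hv0 fr.u_ne
    have h5 := fr.six_aniso (A := K.mapSub g A) (y := ap (g : GL (Fin 4) F) y) ?_
      (K.mem_mapSub.2 hy) ?_
    · rw [K.orb_mapSub_eq, ← hγ] at h5
      have h6 : (q : ℤ) ^ 5 ≤ (γ : ℤ) := by exact_mod_cast h5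
      have : (q : ℤ) ^ 2 + 1 < (q : ℤ) ^ 4 := by nlinarith
      nlinarith
    · rintro _ ⟨z, hz, rfl⟩ hzz
      change K.fm 4 (ap (g : GL (Fin 4) F) z) (ap (g : GL (Fin 4) F) z) = 0 at hzz
      rw [K.fm_ap] at hzz
      show ap (g : GL (Fin 4) F) z = 0
      rw [hno z hz hzz, ap_zero]
    · rwa [← hg, K.fm_ap]
  rcases eq_or_lt_of_le (show (μ : ℤ) ≤ j from le_trans (by exact_mod_cast Nat.le_add_right μ S) hjK)
    with hμj | hμj
  · -- everything is isotropic
    have hS0 : S = 0 := by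
      have : ((μ + S : ℕ) : ℤ) ≤ (μ : ℤ) := by rw [hμj]; exact hjK
      have : μ + S ≤ μ := by exact_mod_cast this
      omega
    have hγT : (γ : ℤ) = T := by rw [hT, hS0, Nat.add_zero]; linear_combination hj + (q : ℤ) ^ 3 * hμj.symm
    have hs4 : s = q ^ 4 := by
      have h2 : (γ : ℤ) * (s - 1) = (γ : ℤ) * ((q : ℤ) ^ 4 - 1) := by rw [he', hγT]; ring
      have h3 := mul_left_cancel₀ (show (γ : ℤ) ≠ 0 by exact_mod_cast hγ0.ne') h2
      exact_mod_cast (show (s : ℤ) = (q : ℤ) ^ 4 by linarith)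
    have hall : ∀ z ∈ A, K.fm 4 z z = 0 := by
      intro z hz
      by_contra hzz
      have := K.one_le_sAni (by omega) hz hzz
      omega
    have horth : ∀ x ∈ A, ∀ y ∈ A, K.fm 4 y x = 0 := by
      intro x hxA y hyA
      by_cases hx0 : x = 0
      · rw [hx0, zero_right hf]
      obtain ⟨g, hg⟩ := K.exists_move_iso (by omega) (hall x hxA) fr.hu hx0 fr.u_ne
      rw [← K.fm_ap g y x, hg]
      refine fr.six_orth (A := K.mapSub g A) ?_ (by rw [← hg]; exact K.mem_mapSub.2 hxA) ?_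
        (K.mem_mapSub.2 hyA)
      · rintro _ ⟨z, hz, rfl⟩
        show K.fm 4 (ap (g : GL (Fin 4) F) z) (ap (g : GL (Fin 4) F) z) = 0
        rw [K.fm_ap]; exact hall z hz
      · rw [show K.thru (K.mapSub g A) fr.u = μ by rw [hμ, UC.thru, UC.thru, K.orb_mapSub_eq]]
        omega
    obtain ⟨x, hxA, hx0⟩ := K.exists_ne_zero_mem h1
    obtain ⟨g, hg⟩ := K.exists_move_iso (by omega) (hall x hxA) fr.hu hx0 fr.u_ne
    have h6 := fr.six_plane (A := K.mapSub g A) (by rw [← hg]; exact K.mem_mapSub.2 hxA)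
      (by rw [K.card_mapSub]; exact hs4) ?_
    · rw [show K.thru (K.mapSub g A) fr.u = μ by rw [hμ, UC.thru, UC.thru, K.orb_mapSub_eq]] at h6
      omega
    · rintro _ ⟨z, hz, rfl⟩ _ ⟨z', hz', rfl⟩
      show K.fm 4 (ap (g : GL (Fin 4) F) z) (ap (g : GL (Fin 4) F) z') = 0
      rw [K.fm_ap]; exact horth z' hz' z hz
  · -- arithmetic contradiction
    have hdiv : (γ : ℤ) ∣ (μ : ℤ) * ((q : ℤ) ^ 3 + 1) * ((q : ℤ) ^ 4 - 1) := by
      refine ⟨(K.nIso A : ℤ), ?_⟩
      rw [mul_assoc, ← K.iso_four]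
      exact_mod_cast hiso.symm
    have hd1 : (γ : ℤ) ∣ (μ : ℤ) * (j - μ) * (j + μ * q) := by
      obtain ⟨e, he2⟩ := hdiv
      refine ⟨(μ : ℤ) * ((q : ℤ) * γ - (j + μ * q) + q * (j - μ)) - j * j * e, ?_⟩
      linear_combination (-(j * j)) * he2
        + ((μ : ℤ) * (-((q : ℤ) * γ) + j + μ * q - q * j - (q : ℤ) ^ 4 * j)) * hj
    have hμ' : (1 : ℤ) ≤ μ := by exact_mod_cast hμ0
    have hpos : (0 : ℤ) < (μ : ℤ) * (j - μ) * (j + μ * q) := by
      have h2 : (0 : ℤ) < j + μ * q := by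
        have : (0 : ℤ) ≤ (μ : ℤ) * q := by positivity
        linarith
      exact mul_pos (mul_pos (by linarith) (by linarith)) h2
    have hle2 := Int.le_of_dvd hpos hd1
    have h4 : 4 * ((μ : ℤ) * (j - μ)) ≤ j * j := by nlinarith [sq_nonneg (j - 2 * μ)]
    have hj0 : (0 : ℤ) < j := by linarith
    have h5 : j + μ * q ≤ j * (q + 1) := by
      have : (μ : ℤ) * q ≤ j * q := mul_le_mul_of_nonneg_right hμj.le (by linarith)
      linarith
    have h6 : 4 * (γ : ℤ) ≤ j * j * (j * (q + 1)) := by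
      calc 4 * (γ : ℤ) ≤ 4 * ((μ : ℤ) * (j - μ) * (j + μ * q)) := by linarith
        _ = 4 * ((μ : ℤ) * (j - μ)) * (j + μ * q) := by ring
        _ ≤ j * j * (j * (q + 1)) := mul_le_mul h4 h5 (by positivity) (by positivity)
    have h7 : j * j * (q + 1) < 4 * (q : ℤ) ^ 3 := by
      have : j * j ≤ (q : ℤ) * q := mul_le_mul hjq hjq hj0.le (by linarith)
      have : j * j * ((q : ℤ) + 1) ≤ (q : ℤ) * q * ((q : ℤ) + 1) :=
        mul_le_mul_of_nonneg_right this (by linarith)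
      nlinarith
    have h8 : j * (j * j * (q + 1)) < j * (4 * (q : ℤ) ^ 3) := mul_lt_mul_of_pos_left h7 hj0
    nlinarith

end CfsgLib.MinIndexUnit
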