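import Cfsg.Agent.Lib.MinIndex.Unit.Five
import Cfsg.Agent.Lib.MinIndex.Unit.Six

/-!
In a small action, a point moved by a transvection group has a stabiliser in the root group
inside that transvection group.
-/

set_option autoImplicit false
set_option linter.unusedSectionVars false

namespace CfsgLib.MinIndexUnit

open CfsgLib.Geometric CfsgLib.Geometric.Unitary CfsgLib.ClassicalForms MulAction

variable {F : Type*} [Field F] [Finite F] {q : ℕ} (K : UC F q)

namespace UC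

/-- A point fixed by all transvections is fixed by the group. -/
theorem smul_eq_of_tr {n : ℕ} (hn : 3 ≤ n) (h32 : ¬ (n = 3 ∧ q = 2)) {Ω : Type*}
    [MulAction (K.G n) Ω] {z : Ω}
    (h : ∀ (v : Fin n → F) (hv : K.fm n v v = 0) (c : F) (hc : K.σ c = c),
      K.tEl hv c hc • z = z) (g : K.G n) : g • z = z := by
  have hM : HasT (K.skewForm n) ((stabilizer (K.G n) z).map (K.G n).subtype) := fun v hv c hc =>
    ⟨K.tEl hv c hc, h v hv c hc, rfl⟩
  obtain ⟨g', hg', e⟩ := K.G_le_of_hasT hn h32 hM g.2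
  obtain rfl : g' = g := Subtype.ext e
  exact hg'

/-- The group acts on the orbit of a subgroup of vectors. -/
@[reducible] def orbAction {m : ℕ} (A : AddSubgroup (Fin m → F)) :
    MulAction (K.G m) (K.orb A) where
  smul g B := ⟨K.mapSub g B.1, K.orb_mapSub g B.2⟩
  one_smul B := Subtype.ext (K.mapSub_one B.1)
  mul_smul g h B := Subtype.ext (K.mapSub_mul g h B.1)

end UC

namespace Frame

variable {K} {m : ℕ} (fr : Frame K m) {Ω : Type*} [MulAction (K.G (m + 2)) Ω]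

lemma card_ab_dvd (z : Ω) : Nat.card (fr.ab z) ∣ q ^ (2 * m) := by
  rw [← card_fun_fin K.card_eq m]
  exact AddSubgroup.card_addSubgroup_dvd_card _

lemma card_ab_le (z : Ω) (hz : fr.cz z ≠ K.fx) : Nat.card (fr.ab z) ≤ q ^ m := by
  refine Nat.mul_self_le_mul_self_iff.1 ((fr.sq_card_ab_le hz).trans (le_of_eq ?_))
  ring

end Frame

namespace UC

/-- A transvection moving a point gives a point moved by the transvection group of a frame. -/
theorem exists_moved {m : ℕ} (hn : 3 ≤ m + 2) (fr : Frame K m) {Ω : Type*}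
    [MulAction (K.G (m + 2)) Ω] {v : Fin (m + 2) → F} (hv : K.fm _ v v = 0) {c : F}
    (hc : K.σ c = c) {z : Ω} (h : K.tEl hv c hc • z ≠ z) : ∃ z' : Ω, fr.cz z' ≠ K.fx := by
  have hv0 : v ≠ 0 := by
    intro h0
    apply h
    rw [show K.tEl hv c hc = 1 from K.g_ext fun x => by rw [K.ap_tEl, h0]; simp, one_smul]
  obtain ⟨g, hg⟩ := K.exists_move_iso hn fr.hu hv fr.u_ne hv0
  refine ⟨g⁻¹ • z, fun he => h ?_⟩
  have h1 := (fr.cz_eq_iff (g⁻¹ • z)).1 he _ (K.isTr_tEl fr.hu c hc)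
  rw [← K.conj_tEl fr.hu hv c c hc hc g (a := 1) (by rw [hg, one_smul]) (by simp), mul_smul,
    mul_smul, h1, smul_inv_smul]

/-- A weak lower bound for a non-trivial action. -/
theorem pow_le_card_weak (k : ℕ) (hk : 1 ≤ k) {Ω : Type*} [Finite Ω] [MulAction (K.G (k + 2)) Ω]
    {v : Fin (k + 2) → F} (hv : K.fm _ v v = 0) {c : F} (hc : K.σ c = c) {z : Ω}
    (h : K.tEl hv c hc • z ≠ z) : q ^ (k + 1) ≤ Nat.card Ω := by
  obtain ⟨fr⟩ := exists_frame K k
  obtain ⟨z1, hz1⟩ := K.exists_moved (by omega) fr hv hc h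
  have h1 := fr.moved_bound (by omega) hz1 (B := 1) fun z' _ _ => by
    have : Finite (AddSubgroup (Fin k → F)) := Finite.of_injective _ SetLike.coe_injective
    exact @Finite.card_pos _ _ ⟨⟨_, K.mem_orb_self (fr.ab z')⟩⟩
  have h2 := fr.card_ab_le z1 hz1
  have h3 : Nat.card {y : Ω // fr.cz y ≠ K.fx} ≤ Nat.card Ω := Finite.card_subtype_le _
  have hq := K.two_le
  refine Nat.le_of_mul_le_mul_right ?_ (Nat.pow_pos (a := q) (n := k) (by omega))
  calc q ^ (k + 1) * q ^ k = 1 * q ^ (2 * k + 1) := by ring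
    _ ≤ _ := h1.trans (Nat.mul_le_mul h3 h2)

/-- A strong lower bound for a non-trivial action. -/
theorem pow_le_card (k : ℕ) (hk : 3 ≤ k) {Ω : Type*} [Finite Ω] [MulAction (K.G (k + 2)) Ω]
    {v : Fin (k + 2) → F} (hv : K.fm _ v v = 0) {c : F} (hc : K.σ c = c) {z : Ω}
    (h : K.tEl hv c hc • z ≠ z) : q ^ (2 * k) ≤ Nat.card Ω := by
  obtain ⟨k', rfl⟩ : ∃ k', k = k' + 2 := ⟨k - 2, by omega⟩
  obtain ⟨fr⟩ := exists_frame K (k' + 2)
  obtain ⟨z1, hz1⟩ := K.exists_moved (by omega) fr hv hc h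
  have h2 := fr.card_ab_le z1 hz1
  have h3 : Nat.card {y : Ω // fr.cz y ≠ K.fx} ≤ Nat.card Ω := Finite.card_subtype_le _
  have hq := K.two_le
  rcases Nat.lt_or_ge 1 (Nat.card (fr.ab z1)) with hs | hs
  · have h1 := fr.moved_bound (by omega) hz1 (B := q ^ (k' + 1)) fun z' hz' e =>
      K.pow_le_orb k' (by omega) _ (e ▸ hs) (e ▸ h2)
    refine Nat.le_of_mul_le_mul_right ?_ (Nat.pow_pos (a := q) (n := k' + 2) (by omega))
    calc q ^ (2 * (k' + 2)) * q ^ (k' + 2) = q ^ (k' + 1) * q ^ (2 * (k' + 2) + 1) := by ring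
      _ ≤ _ := h1.trans (Nat.mul_le_mul h3 h2)
  · have h1 := fr.moved_bound (by omega) hz1 (B := 1) fun z' _ _ => by
      have : Finite (AddSubgroup (Fin (k' + 2) → F)) := Finite.of_injective _ SetLike.coe_injective
      exact @Finite.card_pos _ _ ⟨⟨_, K.mem_orb_self (fr.ab z')⟩⟩
    calc q ^ (2 * (k' + 2)) ≤ q ^ (2 * (k' + 2) + 1) := Nat.pow_le_pow_right (by omega) (by omega)
      _ = 1 * q ^ (2 * (k' + 2) + 1) := (one_mul _).symm
      _ ≤ Nat.card {y : Ω // fr.cz y ≠ K.fx} * Nat.card (fr.ab z1) := h1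
      _ ≤ Nat.card Ω * 1 := Nat.mul_le_mul h3 hs
      _ = Nat.card Ω := mul_one _

end UC

namespace Frame

variable {K} {m : ℕ} (fr : Frame K m) {Ω : Type*} [MulAction (K.G (m + 2)) Ω] [Finite Ω]

/-- The dichotomy, given the bound in the four-dimensional case. -/
theorem ab_eq_bot' (hm : 3 ≤ m) (hΩ : Nat.card Ω < K.pts (m + 2))
    (hsix : m = 4 → ∀ A : AddSubgroup (Fin 4 → F), 1 < Nat.card A → Nat.card A ≤ q ^ 4 →
      Nat.card A ∣ q ^ 8 → Nat.card Ω * Nat.card A < Nat.card (K.orb A) * q ^ 9) {z : Ω}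
    (hz : fr.cz z ≠ K.fx) : fr.ab z = ⊥ := by
  classical
  rw [← AddSubgroup.card_eq_one]
  by_contra hne
  have hpos : 0 < Nat.card (fr.ab z) := Nat.card_pos
  set s := Nat.card (fr.ab z) with hs
  have h1s : 1 < s := by omega
  obtain ⟨z1, ⟨hz1, hs1⟩, hmin⟩ := Set.exists_min_image
    {y : Ω | fr.cz y ≠ K.fx ∧ Nat.card (fr.ab y) = s}
    (fun y => Nat.card (K.orb (fr.ab y))) (Set.toFinite _) ⟨z, hz, rfl⟩
  set γ := Nat.card (K.orb (fr.ab z1)) with hγ
  have hb := fr.moved_bound (by omega) hz1 (B := γ) fun z' hz' e => hmin z' ⟨hz', e.trans hs1⟩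
  rw [hs1] at hb
  have hle : γ * q ^ (2 * m + 1) ≤ Nat.card Ω * s :=
    hb.trans (Nat.mul_le_mul_right _ (Finite.card_subtype_le _))
  have hd : γ * q ^ (2 * m + 1) < K.pts (m + 2) * s :=
    lt_of_le_of_lt (hb.trans (Nat.mul_le_mul_right _ (Finite.card_subtype_le _)))
      (Nat.mul_lt_mul_of_pos_right hΩ hpos)
  have hsq : s ≤ q ^ m := hs1 ▸ fr.card_ab_le z1 hz1
  have hdvd : s ∣ q ^ (2 * m) := hs1 ▸ fr.card_ab_dvd z1
  have hq := K.two_le
  rw [← hs1] at h1s hd hle hsq hdvd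
  generalize fr.ab z1 = A at h1s hd hle hsq hdvd hγ
  obtain rfl | rfl | hm5 : m = 3 ∨ m = 4 ∨ 5 ≤ m := by omega
  · rcases hsq.lt_or_eq with hlt | heq
    · have h2 := K.two_mul_le hdvd hlt
      have hl := five_lower (K := K) A h1s h2
      rw [← hγ] at hl
      have hp : K.pts 5 < 2 * q ^ 7 := K.pts_lt 2
      have e1 : q ^ 3 * q ^ 7 ≤ γ * q ^ 7 := Nat.mul_le_mul_right _ hl
      have e2 : γ * q ^ 7 < 2 * q ^ 7 * Nat.card A :=
        hd.trans_le (Nat.mul_le_mul_right _ hp.le)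
      have e3 : 2 * Nat.card A * q ^ 7 ≤ q ^ 3 * q ^ 7 := Nat.mul_le_mul_right _ h2
      linarith only [e1, e2, e3]
    · have hl := five_full (K := K) A heq
      rw [← hγ] at hl
      rw [heq, K.pts_five] at hd
      have h4 : γ * q ^ 4 < q ^ 7 + q ^ 5 + q ^ 2 + 1 := by
        refine Nat.lt_of_mul_lt_mul_right (a := q ^ 3) ?_
        calc γ * q ^ 4 * q ^ 3 = γ * q ^ (2 * 3 + 1) := by ring
          _ < _ := hd
      have h5 : (q ^ 3 + q + 1) * q ^ 4 ≤ γ * q ^ 4 := Nat.mul_le_mul_right _ hl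
      have h6 : q ^ 2 + 1 ≤ q ^ 4 := by nlinarith
      nlinarith
  · have h6 := hsix rfl A h1s hsq hdvd
    rw [← hγ] at h6
    exact absurd hle (not_le.2 h6)
  · obtain ⟨k, rfl⟩ : ∃ k, m = k + 2 := ⟨m - 2, by omega⟩
    have : Finite (AddSubgroup (Fin (k + 2) → F)) := Finite.of_injective _ SetLike.coe_injective
    letI := K.orbAction A
    have h2s : γ < 2 * Nat.card A := by
      have hp : K.pts (k + 2 + 2) < 2 * q ^ (2 * (k + 1) + 3) := K.pts_lt (k + 1)
      refine Nat.lt_of_mul_lt_mul_right (a := q ^ (2 * (k + 2) + 1)) ?_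
      refine hd.trans_le ((Nat.mul_le_mul_right _ hp.le).trans (le_of_eq ?_))
      ring
    have hlow := K.pow_le_orb k (by omega) A h1s hsq
    rw [← hγ] at hlow
    by_cases hex : ∃ (v : Fin (k + 2) → F) (hv : K.fm _ v v = 0) (c : F) (hc : K.σ c = c)
        (B : K.orb A), K.tEl hv c hc • B ≠ B
    · obtain ⟨v, hv, c, hc, B, hB⟩ := hex
      have h7 := K.pow_le_card k (by omega) hv hc hB
      rw [← hγ] at h7
      have h8 : q * q ^ (k + 2) ≤ q ^ (2 * k) := by
        rw [← pow_succ']; exact Nat.pow_le_pow_right (by omega) (by omega)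
      have : 2 * q ^ (k + 2) ≤ q * q ^ (k + 2) := Nat.mul_le_mul_right _ hq
      omega
    · push Not at hex
      have : Subsingleton (K.orb A) := by
        refine ⟨fun B C => ?_⟩
        have key : ∀ B : K.orb A, B = ⟨A, K.mem_orb_self A⟩ := fun B => by
          obtain ⟨g, hg⟩ := B.2
          have := K.smul_eq_of_tr (by omega) (by omega) (z := (⟨A, K.mem_orb_self A⟩ : K.orb A))
            (fun v hv c hc => hex v hv c hc _) g
          exact (Subtype.ext hg.symm).trans this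
        rw [key B, key C]
      have h7 : γ ≤ 1 := hγ ▸ Finite.card_le_one_iff_subsingleton.2 this
      have : 2 ≤ q ^ (k + 1) := le_trans hq (Nat.le_self_pow (by omega) q)
      omega

/-- The dichotomy. -/
theorem ab_eq_bot (hm : 3 ≤ m) (hqm : 3 ≤ q ∨ Odd m) (hΩ : Nat.card Ω < K.pts (m + 2)) {z : Ω}
    (hz : fr.cz z ≠ K.fx) : fr.ab z = ⊥ := by
  refine fr.ab_eq_bot' hm hΩ (fun h4 A h1 hle hdvd => ?_) hz
  subst h4
  have hq3 : 3 ≤ q := hqm.resolve_right (by decide)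
  exact lt_of_lt_of_le (Nat.mul_lt_mul_of_pos_right hΩ (by omega))
    (six_bound (K := K) hq3 A h1 hle hdvd)

end Frame

end CfsgLib.MinIndexUnit
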