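import Cfsg.Agent.Lib.MinIndex.Unit.Tools

/-!
The number of points fixed by a transvection group but not by its root group.
-/

set_option autoImplicit false
set_option linter.unusedSectionVars false

namespace CfsgLib.MinIndexUnit

open CfsgLib.Geometric CfsgLib.Geometric.Unitary CfsgLib.ClassicalForms MulAction
open CfsgLib.MinIndexOrth (perpG card_mul_perpG)

variable {F : Type*} [Field F] [Finite F] {q : ℕ}

namespace Frame

variable {K : UC F q} {k : ℕ} (fr : Frame K k)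
include fr

/-- A member that is alone through the vector is stabilised by the stabiliser of the vector. -/
lemma thru_one {B : AddSubgroup (Fin (k + 2) → F)} (hu : fr.u ∈ B) (h : K.thru B fr.u = 1)
    {g : K.G (k + 2)} (hg : ap (g : GL (Fin (k + 2)) F) fr.u = fr.u) : K.mapSub g B = B := by
  have h1 := (Nat.card_eq_one_iff_unique.1 h).1
  have e := h1.elim ⟨⟨B, K.mem_orb_self B⟩, hu⟩
    ⟨⟨K.mapSub g B, ⟨g, rfl⟩⟩, by rw [← hg]; exact K.mem_mapSub.2 hu⟩
  exact (congrArg (fun t => t.1.1) e).symm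

/-- In an isotropic subgroup alone through the vector, all is orthogonal to it. -/
lemma one_orth (hk : 1 ≤ k) {B : AddSubgroup (Fin (k + 2) → F)}
    (hiso : ∀ z ∈ B, K.fm _ z z = 0) (hu : fr.u ∈ B) (h : K.thru B fr.u = 1)
    {y : Fin (k + 2) → F} (hy : y ∈ B) : K.fm _ y fr.u = 0 := by
  by_contra hα
  have hf := K.skewForm (k + 2)
  obtain ⟨g, hg, hp⟩ := fr.exists_proj (Pi.single ⟨0, hk⟩ 1)
  obtain ⟨x, c, hx, -, e⟩ := id hg
  have hux : K.fm _ fr.u x = 0 := (eq_zero_comm hf).1 hx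
  have hD := hiso _ (K.sub_mem_of_fix (fr.thru_one hu h (fr.ap_U_u hg)) hy)
  rw [fr.disp e] at hD
  simp only [hf.add_left, add_right hf, hf.smul_left, smul_right hf, hx, hux, fr.hu, mul_zero,
    add_zero] at hD
  have h0 : K.fm k (tail2 x) (tail2 x) = 0 := by
    rw [← fr.tail_fm hx]
    exact (mul_eq_zero.1 ((mul_eq_zero.1 hD).resolve_left hα)).resolve_left
      ((map_ne_zero_iff _ K.σ.injective).2 hα)
  rw [← fr.proj_eq e, hp, UC.fm, K.conj.single_right, Pi.single_eq_same, mul_one] at h0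
  exact K.ζ_ne h0

/-- A totally isotropic subgroup alone through the vector is small. -/
lemma one_small {B : AddSubgroup (Fin (k + 2) → F)} (h0 : ∀ y ∈ B, ∀ y' ∈ B, K.fm _ y y' = 0)
    (hu : fr.u ∈ B) (h : K.thru B fr.u = 1) : Nat.card B ≤ q ^ 2 := by
  have hf := K.skewForm (k + 2)
  have hperp : ∀ y ∈ B, K.fm _ y fr.u = 0 := fun y hy => h0 y hy _ hu
  suffices ht : ∀ y ∈ B, tail2 y = 0 by
    rw [← K.card_eq]
    refine Nat.card_le_card_of_injective
      (fun y : B => (fr.perp_eq y.1 (hperp _ y.2)).choose) fun y y' e => Subtype.ext ?_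
    refine (fr.perp_eq y.1 (hperp _ y.2)).choose_spec.trans
      (Eq.trans ?_ (fr.perp_eq y'.1 (hperp _ y'.2)).choose_spec.symm)
    exact congrArg₂ (fun a w => a • fr.u + inc w) e ((ht _ y.2).trans (ht _ y'.2).symm)
  intro y hy
  by_contra hne
  have hyy : K.fm k (tail2 y) (tail2 y) = 0 := by
    rw [← fr.tail_fm (hperp _ hy)]; exact h0 _ hy _ hy
  obtain rfl | rfl | hk2 : k = 0 ∨ k = 1 ∨ 2 ≤ k := by omega
  · exact hne (funext fun i => i.elim0)
  · rw [UC.fm, K.conj.herm_apply, Fin.sum_univ_one, mul_eq_zero, or_iff_right K.ζ_ne,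
      mul_eq_zero] at hyy
    refine hne (funext fun i => ?_)
    rw [Fin.fin_one_eq_zero i]
    exact hyy.elim id K.conj.eq_zero
  · obtain ⟨k', rfl⟩ : ∃ k', k = k' + 2 := ⟨k - 2, by omega⟩
    obtain ⟨p, hpp, -, hyp⟩ := K.exists_iso_notperp k' hne
    have hv : K.fm _ (inc p) (inc p) = 0 := by rw [K.fm_inc, hpp]
    have huv : K.fm _ fr.u (inc p) = 0 := (eq_zero_comm hf).1 (fr.inc_u p)
    set t := K.tEl hv 1 (map_one _)
    have ht : ap (t : GL (Fin (k' + 2 + 2)) F) fr.u = fr.u := by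
      rw [K.ap_tEl, huv, mul_zero, zero_smul, add_zero]
    have hty : ap (t : GL (Fin (k' + 2 + 2)) F) y ∈ B := by
      have := (K.mem_mapSub (g := t)).2 hy
      rwa [fr.thru_one hu h ht] at this
    obtain ⟨a, ha⟩ := fr.perp_eq y (hperp _ hy)
    have hyv : K.fm _ y (inc p) ≠ 0 := by
      rw [ha, hf.add_left, hf.smul_left, huv, mul_zero, zero_add, K.fm_inc]
      exact hyp
    have h1 := h0 _ hty _ hy
    rw [K.ap_tEl, hf.add_left, hf.smul_left, h0 _ hy _ hy, zero_add, one_mul, mul_eq_zero,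
      or_iff_right hyv] at h1
    exact hyv ((eq_zero_comm hf).1 h1)

end Frame

namespace UC

variable (K : UC F q)

/-- A subgroup whose non-zero vectors all have the same non-zero value is tiny. -/
lemma card_le_four {m : ℕ} {B : AddSubgroup (Fin m → F)} {a : F} (ha : a ≠ 0)
    (h : ∀ z ∈ B, z ≠ 0 → K.fm m z z = a) : Nat.card B ≤ 4 := by
  classical
  by_contra hlt
  push Not at hlt
  have hf := K.skewForm m
  have := Fintype.ofFinite B
  rw [Nat.card_eq_fintype_card] at hlt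
  have pick : ∀ S : Finset B, S.card ≤ 4 → ∃ x : B, x ∉ S := fun S hS => by
    by_contra hh
    push Not at hh
    have : (Finset.univ : Finset B).card ≤ S.card := Finset.card_le_card fun x _ => hh x
    rw [Finset.card_univ] at this
    omega
  obtain ⟨b, hb⟩ := pick {0} (by simp)
  obtain ⟨c, hc⟩ := pick {0, b, -b} (le_trans Finset.card_le_three (by norm_num))
  simp only [Finset.mem_singleton, Finset.mem_insert, not_or] at hb hc
  have hval : ∀ x : B, x ≠ 0 → K.fm m (x : Fin m → F) x = a := fun x hx =>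
    h _ x.2 fun h0 => hx (Subtype.ext h0)
  have hexp : ∀ x y : B, K.fm m ((x + y : B) : Fin m → F) (x + y : B)
      = K.fm m (x : Fin m → F) x + K.fm m (y : Fin m → F) y
        + (K.fm m (x : Fin m → F) y + K.fm m (y : Fin m → F) x) := fun x y => by
    rw [AddSubgroup.coe_add, hf.add_left, add_right hf, add_right hf]; ring
  have hneg : ∀ x y : B, K.fm m ((x + -y : B) : Fin m → F) (x + -y : B)
      = K.fm m (x : Fin m → F) x + K.fm m (y : Fin m → F) y
        - (K.fm m (x : Fin m → F) y + K.fm m (y : Fin m → F) x) := fun x y => by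
    rw [hexp, AddSubgroup.coe_neg, neg_left hf, neg_right hf, neg_right hf, neg_left hf]; ring
  have htwo : (2 : F) = 0 := by
    have h1 := hval (b + c) fun h0 => hc.2.2 (eq_neg_of_add_eq_zero_right h0)
    have h2 := hval (b + -c) fun h0 => hc.2.1 (by
      rw [← sub_eq_add_neg, sub_eq_zero] at h0; exact h0.symm)
    rw [hexp, hval b hb, hval c hc.1] at h1
    rw [hneg, hval b hb, hval c hc.1] at h2
    refine (mul_eq_zero.1 (show (2 : F) * a = 0 from ?_)).resolve_right ha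
    linear_combination h1 + h2
  have hB2 : ∀ x : B, -x = x := fun x => Subtype.ext (funext fun i => by
    show -((x : Fin m → F) i) = (x : Fin m → F) i
    linear_combination -(x : Fin m → F) i * htwo)
  obtain ⟨d, hd⟩ := pick {0, b, c, b + c} Finset.card_le_four
  simp only [Finset.mem_singleton, Finset.mem_insert, not_or] at hd
  have hne : ∀ x y : B, x ≠ y → x + y ≠ 0 := fun x y hxy h0 => hxy (by
    rw [add_eq_zero_iff_eq_neg, hB2] at h0; exact h0)
  have tr : ∀ x y : B, x ≠ 0 → y ≠ 0 → x ≠ y →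
      K.fm m (x : Fin m → F) y + K.fm m (y : Fin m → F) x = a := fun x y hx hy hxy => by
    have h1 := hval (x + y) (hne x y hxy)
    rw [hexp, hval x hx, hval y hy] at h1
    linear_combination h1 - a * htwo
  have hbc : b ≠ c := fun h0 => hc.2.1 h0.symm
  have hcd : c + d ≠ 0 := hne c d fun h0 => hd.2.2.1 h0.symm
  have hbcd : b ≠ c + d := fun h0 => hd.2.2.2 (by rw [h0, add_comm c d, add_assoc, ← sub_neg_eq_add c, hB2, sub_self, add_zero])
  have e1 := tr b c hb hc.1 hbc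
  have e2 := tr b d hb hd.1 (fun h0 => hd.2.1 h0.symm)
  have e3 := tr b (c + d) hb hcd hbcd
  rw [AddSubgroup.coe_add, hf.add_left, add_right hf] at e3
  apply ha
  linear_combination e3 - e1 - e2

/-- The number of vectors of a fixed anisotropic value is large. -/
lemma norm_large (m : ℕ) (hm : 3 ≤ m) (hqm : 3 ≤ q ∨ Odd m) :
    3 * (q : ℤ) ^ 2 * K.isoCount m ≤ 4 * ((q : ℤ) ^ 2 - 1) * K.normCount m := by
  obtain ⟨k, rfl⟩ : ∃ k, m = k + 1 := ⟨m - 1, by omega⟩
  rw [K.iso_succ k, K.norm_succ k]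
  have hq : (2 : ℤ) ≤ q := by exact_mod_cast K.two_le
  have hP : (0 : ℤ) < (q : ℤ) ^ k := by positivity
  rcases Nat.even_or_odd (k + 1) with he | ho
  · have hq3 : (3 : ℤ) ≤ q := by
      exact_mod_cast hqm.resolve_right (Nat.not_odd_iff_even.2 he)
    have hk : 3 ≤ k := by
      rcases he with ⟨r, hr⟩; omega
    have hP3 : (q : ℤ) ^ 3 ≤ (q : ℤ) ^ k := pow_le_pow_right₀ (by linarith) hk
    rw [he.neg_one_pow, show (q : ℤ) ^ (2 * k + 1) = q * (q : ℤ) ^ k * (q : ℤ) ^ k by ring,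
      show (q : ℤ) ^ (k + 1) = q * (q : ℤ) ^ k by ring]
    generalize (q : ℤ) ^ k = P at hP hP3
    have h1 : 15 * (q : ℤ) ^ 3 ≤ q * P * ((q : ℤ) ^ 2 - 4) := by
      have a1 : (5 : ℤ) ≤ (q : ℤ) ^ 2 - 4 := by nlinarith
      calc 15 * (q : ℤ) ^ 3 = 3 * (q : ℤ) ^ 3 * 5 := by ring
        _ ≤ q * P * ((q : ℤ) ^ 2 - 4) :=
          mul_le_mul (mul_le_mul hq3 hP3 (by positivity) (by linarith)) a1 (by norm_num)
            (by positivity)
    have h2 : 4 * (q : ℤ) ^ 2 ≤ 2 * (q : ℤ) ^ 3 := by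
      have : 2 * (q : ℤ) ^ 2 ≤ q * (q : ℤ) ^ 2 := mul_le_mul_of_nonneg_right hq (by positivity)
      linarith
    have h3 : (0 : ℤ) ≤ P * (q * P * ((q : ℤ) ^ 2 - 4) - (3 * (q : ℤ) ^ 3 + 4 * (q : ℤ) ^ 2)) :=
      mul_nonneg hP.le (by nlinarith)
    have h4 : (0 : ℤ) ≤ P * (q : ℤ) ^ 2 := by positivity
    nlinarith
  · rw [ho.neg_one_pow]
    have h1 : (q : ℤ) ^ k ≤ (q : ℤ) ^ (k + 1) := pow_le_pow_right₀ (by linarith) (by omega)
    have h2 : (0 : ℤ) < (q : ℤ) ^ (2 * k + 1) := by positivity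
    have h3 : 3 * (q : ℤ) ^ 2 ≤ 4 * ((q : ℤ) ^ 2 - 1) := by nlinarith
    refine mul_le_mul h3 (by linarith) ?_ (by nlinarith)
    have : (q : ℤ) ^ (k + 1) ≤ (q : ℤ) ^ (2 * k + 1) := pow_le_pow_right₀ (by linarith) (by omega)
    have : (1 : ℤ) ≤ (q : ℤ) ^ k := one_le_pow₀ (by linarith)
    linarith

/-- A subgroup of isotropic vectors that is alone through a vector is small. -/
lemma card_iso_le {k : ℕ} (hm : 3 ≤ k + 2) (B : AddSubgroup (Fin (k + 2) → F))
    (h1 : 1 < Nat.card B) (hall : ∀ z ∈ B, K.fm _ z z = 0) {x : Fin (k + 2) → F}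
    (hx : x ∈ K.cls 0) (hμ : K.thru B x = 1) : Nat.card B ≤ q ^ 2 := by
  obtain ⟨fr⟩ := exists_frame K k
  have hone : ∀ g : K.G (k + 2), K.thru (K.mapSub g B) fr.u = 1 := fun g => by
    rw [show K.thru (K.mapSub g B) fr.u = K.thru B fr.u by
      rw [UC.thru, UC.thru, K.orb_mapSub_eq], K.thru_eq hm B ⟨fr.u_ne, fr.hu⟩ hx, hμ]
  have horth : ∀ x ∈ B, ∀ y ∈ B, K.fm _ y x = 0 := by
    intro x' hxB y hyB
    by_cases hx0 : x' = 0
    · rw [hx0, zero_right (K.skewForm _)]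
    obtain ⟨g, hg⟩ := K.exists_move_iso hm (hall _ hxB) fr.hu hx0 fr.u_ne
    rw [← K.fm_ap g y x', hg]
    refine fr.one_orth (by omega) (B := K.mapSub g B) ?_
      (by rw [← hg]; exact K.mem_mapSub.2 hxB) (hone g) (K.mem_mapSub.2 hyB)
    rintro _ ⟨z, hz, rfl⟩
    show K.fm _ (ap (g : GL (Fin (k + 2)) F) z) (ap (g : GL (Fin (k + 2)) F) z) = 0
    rw [K.fm_ap]; exact hall z hz
  obtain ⟨x', hxB, hx0⟩ := K.exists_ne_zero_mem h1
  obtain ⟨g, hg⟩ := K.exists_move_iso hm (hall _ hxB) fr.hu hx0 fr.u_ne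
  rw [← K.card_mapSub g B]
  refine fr.one_small ?_ (by rw [← hg]; exact K.mem_mapSub.2 hxB) (hone g)
  rintro _ ⟨z, hz, rfl⟩ _ ⟨z', hz', rfl⟩
  show K.fm _ (ap (g : GL (Fin (k + 2)) F) z) (ap (g : GL (Fin (k + 2)) F) z') = 0
  rw [K.fm_ap]; exact horth z' hz' z hz

/-- The key bound for a subgroup and its orbit. -/
theorem orb_mul_card {m : ℕ} (hm : 3 ≤ m) (hqm : 3 ≤ q ∨ Odd m)
    (B : AddSubgroup (Fin m → F)) (h1 : 1 < Nat.card B) :
    q ^ 2 * K.pts m ≤ Nat.card (K.orb B) * Nat.card B := by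
  classical
  obtain ⟨k, rfl⟩ : ∃ k, m = k + 2 := ⟨m - 2, by omega⟩
  obtain ⟨x, hx⟩ := K.exists_cls_zero k
  have he := K.orbit_equation hm B hx
  have hN := K.norm_large _ hm hqm
  set γ := Nat.card (K.orb B) with hγ
  set μ := K.thru B x with hμ
  set S := K.sAni (m := k + 2) (by omega) B with hS
  set b := Nat.card B with hb
  refine Nat.le_of_mul_le_mul_left ?_ K.sq_sub_one_pos
  rw [show (q ^ 2 - 1) * (q ^ 2 * K.pts (k + 2)) = q ^ 2 * ((q ^ 2 - 1) * K.pts (k + 2)) by ring,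
    K.pts_mul]
  zify [show 1 ≤ q ^ 2 from by have := K.sq_sub_one_pos; omega]
  zify [show 1 ≤ b by omega] at he
  have hq4 : (4 : ℤ) ≤ (q : ℤ) ^ 2 := by
    have : (2 : ℤ) ≤ q := by exact_mod_cast K.two_le
    nlinarith
  have hX0 : (0 : ℤ) ≤ K.isoCount (k + 2) := Int.natCast_nonneg _
  set X0 := (K.isoCount (k + 2) : ℤ)
  set X1 := (K.normCount (k + 2) : ℤ)
  set Q := (q : ℤ) ^ 2
  have hγn : (0 : ℤ) ≤ γ := Int.natCast_nonneg _
  rcases Nat.lt_or_ge (μ + S) 2 with hlt | hge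
  · -- only one class with multiplicity one
    have hK : 1 ≤ μ + S := by
      obtain ⟨y, hy, hy0⟩ := K.exists_ne_zero_mem h1
      by_cases hyy : K.fm _ y y = 0
      · have := K.exists_thru hm hx ⟨hy0, hyy⟩ hy
        omega
      · have := K.one_le_sAni hm hy hyy
        omega
    rcases Nat.eq_zero_or_pos μ with hμ0 | hμ0
    · -- a single anisotropic value
      have hS1 : S = 1 := by omega
      obtain ⟨y, hy, hy0⟩ := K.exists_ne_zero_mem h1
      have hiso : ∀ z ∈ B, z ≠ 0 → K.fm _ z z ≠ 0 := fun z hz hz0 hzz => by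
        have := K.exists_thru hm (A := B) hx ⟨hz0, hzz⟩ hz
        omega
      have hb4 := K.card_le_four (hiso y hy hy0) (B := B) fun z hz hz0 => by
        by_contra hne
        have := K.two_le_sAni hm hz hy (hiso z hz hz0) (hiso y hy hy0) hne
        omega
      have hb4' : (b : ℤ) ≤ 4 := by exact_mod_cast hb4
      rw [hμ0, hS1] at he
      push_cast at he
      have h4 : 4 * ((γ : ℤ) * ((b : ℤ) - 1)) ≤ 3 * ((γ : ℤ) * b) := by nlinarith
      have h5 := mul_le_mul_of_nonneg_left h4 (show (0 : ℤ) ≤ Q - 1 by linarith)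
      nlinarith
    · -- totally isotropic
      have hμ1 : μ = 1 := by omega
      have hall : ∀ z ∈ B, K.fm _ z z = 0 := by
        intro z hz
        by_contra hzz
        have := K.one_le_sAni hm hz hzz
        omega
      have hbq : b ≤ q ^ 2 := K.card_iso_le hm B h1 hall hx (hμ ▸ hμ1)
      have hbq' : (b : ℤ) ≤ Q := by
        show (b : ℤ) ≤ (q : ℤ) ^ 2
        exact_mod_cast hbq
      rw [hμ1, show S = 0 by omega] at he
      push_cast at he
      have h4 := mul_le_mul_of_nonneg_left hbq' hγn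
      nlinarith
  · have hge' : (2 : ℤ) ≤ (μ : ℤ) + S := by exact_mod_cast hge
    have h4 : 3 * Q * X0 ≤ 4 * (Q - 1) * X0 := mul_le_mul_of_nonneg_right (by linarith) hX0
    have h5 := mul_le_mul_of_nonneg_left h4 (Int.natCast_nonneg μ)
    have h6 := mul_le_mul_of_nonneg_left hN (Int.natCast_nonneg S)
    have h7 := mul_le_mul_of_nonneg_right hge' (mul_nonneg (show (0 : ℤ) ≤ Q by linarith) hX0)
    have h8 : ((γ : ℤ) * ((b : ℤ) - 1)) * (Q - 1) ≤ (γ : ℤ) * b * (Q - 1) :=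
      mul_le_mul_of_nonneg_right (by linarith) (by linarith)
    rw [he] at h8
    have h9 : (0 : ℤ) ≤ Q * X0 := mul_nonneg (by linarith) hX0
    nlinarith

end UC

namespace Frame

variable {K : UC F q} {m : ℕ} (fr : Frame K m) {Ω : Type*} [MulAction (K.G (m + 2)) Ω] [Finite Ω]

/-- A subgroup whose orbit bounds the second family from below. -/
theorem exists_fixed_dual {z : Ω} (hz : fr.cz z = K.fx) (hz' : fr.ab z ≠ ⊤) :
    ∃ B : AddSubgroup (Fin m → F), 1 < Nat.card B ∧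
      Nat.card (K.orb B) * Nat.card B ≤ Nat.card {y : Ω // fr.cz y = K.fx ∧ fr.ab y ≠ ⊤} := by
  have hb := fr.fixed_bound hz hz'
  obtain ⟨lam, hl⟩ := K.exists_lam_top
  have hc := card_mul_perpG (K.pr_nondeg hl) (fr.ab z)
  refine ⟨perpG (K.pr lam) (fr.ab z), ?_, ?_⟩
  · by_contra h
    push Not at h
    refine hz' (AddSubgroup.eq_top_of_le_card _ ?_)
    rw [← hc]
    exact (Nat.mul_le_mul_left _ h).trans (le_of_eq (mul_one _))
  set B := perpG (K.pr lam) (fr.ab z)
  rw [card_fun_fin K.card_eq] at hc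
  rw [← hc] at hb
  refine Nat.le_of_mul_le_mul_right ?_ (Nat.card_pos : 0 < Nat.card (fr.ab z))
  calc Nat.card (K.orb B) * Nat.card B * Nat.card (fr.ab z)
      ≤ Nat.card (K.orb (fr.ab z)) * Nat.card B * Nat.card (fr.ab z) :=
        Nat.mul_le_mul_right _ (Nat.mul_le_mul_right _ (K.card_orb_perp_le lam _))
    _ = Nat.card (K.orb (fr.ab z)) * (Nat.card (fr.ab z) * Nat.card B) := by ring
    _ ≤ _ := hb

/-- The second family is large. -/
theorem fixed_large (hm : 3 ≤ m) (hqm : 3 ≤ q ∨ Odd m) {z : Ω} (hz : fr.cz z = K.fx)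
    (hz' : fr.ab z ≠ ⊤) :
    q ^ 2 * K.pts m ≤ Nat.card {y : Ω // fr.cz y = K.fx ∧ fr.ab y ≠ ⊤} := by
  obtain ⟨B, h1, h2⟩ := fr.exists_fixed_dual hz hz'
  exact (K.orb_mul_card hm hqm B h1).trans h2

end Frame

end CfsgLib.MinIndexUnit
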