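import Cfsg.Agent.Lib.MinIndex.Unit.Dichotomy
import Cfsg.Agent.Lib.MinIndex.Unit.Fixed
import Cfsg.Agent.Lib.MinIndex.Unit.Diag

/-!
There is no small non-trivial transitive action of the special unitary group.
-/

set_option autoImplicit false
set_option linter.unusedSectionVars false

namespace CfsgLib.MinIndexUnit

open CfsgLib.Geometric CfsgLib.Geometric.Unitary CfsgLib.ClassicalForms MulAction

variable {F : Type*} [Field F] [Finite F] {q : ℕ}

namespace UC

variable (K : UC F q) {n : ℕ} {Ω : Type*} [MulAction (K.G n) Ω]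

/-- The transvections at a vector fix a point. -/
def Fixes (x : Fin n → F) (z : Ω) : Prop := ∀ g : K.G n, IsTr K n x g → g • z = z

lemma fixes_conj {x : Fin n → F} {z : Ω} (h : K.Fixes x z) (g : K.G n) :
    K.Fixes (ap (g : GL (Fin n) F) x) (g • z) := fun r hr => by
  have h1 := IsTr.conj hr g⁻¹
  rw [inv_inv, Subgroup.coe_inv, ap_inv_ap] at h1
  have h2 := h _ h1
  rwa [mul_smul, mul_smul, inv_smul_eq_iff] at h2

lemma fixes_conj_iff {x : Fin n → F} {z : Ω} (g : K.G n) :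
    K.Fixes (ap (g : GL (Fin n) F) x) (g • z) ↔ K.Fixes x z :=
  ⟨fun h => by simpa [ap_inv_ap] using K.fixes_conj h g⁻¹, fun h => K.fixes_conj h g⟩

lemma fixes_smul {x : Fin n → F} {z : Ω} (a : F) (h : K.Fixes x z) : K.Fixes (a • x) z :=
  fun _ hg => h _ (IsTr.of_smul hg)

lemma emb_tEl {m : ℕ} {v : Fin m → F} (hv : K.fm m v v = 0) (c : F) (hc : K.σ c = c) :
    K.embHom m (K.tEl hv c hc) = K.tEl (u := inc v) (by rw [K.fm_inc, hv]) c hc := by
  refine K.g_ext fun z => ?_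
  show ap (emb (K.tEl hv c hc : GL (Fin m) F)) z = _
  rw [K.ap_tEl]
  conv_lhs => rw [← cons_tail2 z]
  rw [ap_emb, K.ap_tEl]
  have h : K.fm (m + 2) z (inc v) = K.fm m (tail2 z) v := by
    conv_lhs => rw [← cons_tail2 z]
    rw [inc, K.fm_cons, K.fm_cons]
    simp
  rw [h]
  funext i
  refine Fin.cases ?_ (fun j => ?_) i
  · simp [inc]
  · refine Fin.cases ?_ (fun l => ?_) j <;> simp [inc, tail2]

end UC

namespace Frame

variable {K : UC F q} {m : ℕ} (fr : Frame K m) {Ω : Type*} [MulAction (K.G (m + 2)) Ω]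
include fr

lemma cz_fixes (z : Ω) : fr.cz z = K.fx ↔ K.Fixes fr.u z := fr.cz_eq_iff z

/-- Root elements at an arbitrary vector fix what its transvections fix. -/
lemma root_fix (hn : 3 ≤ m + 2) (htop : ∀ z : Ω, fr.cz z = K.fx → fr.ab z = ⊤)
    {x : Fin (m + 2) → F} (hx : x ∈ K.cls 0) {z : Ω} (h : K.Fixes x z) {g : K.G (m + 2)}
    (hg : IsRoot K (m + 2) x g) : g • z = z := by
  obtain ⟨k, rfl⟩ := K.exists_move_iso hn fr.hu hx.2 fr.u_ne hx.1
  have h1 : K.Fixes fr.u (k⁻¹ • z) := by simpa [ap_inv_ap] using K.fixes_conj h k⁻¹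
  have hC := (fr.cz_fixes _).2 h1
  have h2 := IsRoot.conj hg k⁻¹
  rw [inv_inv, Subgroup.coe_inv, ap_inv_ap] at h2
  have h3 := (fr.ab_eq_top_iff _ hC).1 (htop _ hC) _ h2
  rw [mul_smul, mul_smul, smul_inv_smul, smul_left_cancel_iff] at h3
  exact h3

/-- A root element that fixes a point lies in the transvection group or these fix it. -/
lemma root_dich (hn : 3 ≤ m + 2) (hbot : ∀ z : Ω, fr.cz z ≠ K.fx → fr.ab z = ⊥)
    {x : Fin (m + 2) → F} (hx : x ∈ K.cls 0) {z : Ω} {g : K.G (m + 2)}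
    (hg : IsRoot K (m + 2) x g) (hgz : g • z = z) (hnt : ¬ IsTr K (m + 2) x g) : K.Fixes x z := by
  obtain ⟨k, rfl⟩ := K.exists_move_iso hn fr.hu hx.2 fr.u_ne hx.1
  by_contra h
  refine hnt ?_
  have hC : fr.cz (k⁻¹ • z) ≠ K.fx := fun e => h (by
    simpa using K.fixes_conj ((fr.cz_fixes _).1 e) k)
  have h2 := IsRoot.conj hg k⁻¹
  rw [inv_inv, Subgroup.coe_inv, ap_inv_ap] at h2
  have h3 := (fr.eq_bot_iff_stab _).1 (hbot _ hC) _ h2
    (by rw [mul_smul, mul_smul, smul_inv_smul, hgz])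
  have h4 := IsTr.conj h3 k
  rwa [show k * (k⁻¹ * g * k) * k⁻¹ = g by group] at h4

/-- Fixing passes to orthogonal vectors. -/
lemma fixes_perp (hn : 3 ≤ m + 2) (hbot : ∀ z : Ω, fr.cz z ≠ K.fx → fr.ab z = ⊥)
    (htop : ∀ z : Ω, fr.cz z = K.fx → fr.ab z = ⊤) {x y : Fin (m + 2) → F} (hx : x ∈ K.cls 0)
    (hy : y ∈ K.cls 0) (hxy : K.fm _ y x = 0) (hind : ∀ a : F, x ≠ a • y) {z : Ω}
    (h : K.Fixes x z) : K.Fixes y z := by
  have hf := K.skewForm (m + 2)
  have hyx : K.fm _ x y = 0 := (eq_zero_comm hf).1 hxy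
  set g := K.eEl hx.2 hxy 0 (by rw [map_zero, sub_zero, hy.2])
  have hgz : g • z = z := fr.root_fix hn htop hx h (K.isRoot_eEl _ _ _ _)
  refine fr.root_dich hn hbot hy (g := g) ⟨x, 0, hyx, by rw [map_zero, sub_zero, hx.2],
    fun w => ?_⟩ hgz ?_
  · rw [K.ap_eEl]; module
  · rintro ⟨c, -, e⟩
    obtain ⟨w, hw⟩ := (hf.nondegenerate y hy.1).2
    have hwy : K.fm _ w y ≠ 0 := fun h0 => hw ((eq_zero_comm hf).1 h0)
    have h1 := e w
    rw [K.ap_eEl, zero_mul, zero_smul, add_zero, add_assoc, add_right_inj] at h1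
    refine hind ((K.fm _ w y)⁻¹ * (c * K.fm _ w y - K.fm _ w x)) ?_
    calc x = (K.fm _ w y)⁻¹ • (K.fm _ w y • x) := (inv_smul_smul₀ hwy x).symm
      _ = (K.fm _ w y)⁻¹ • ((c * K.fm _ w y - K.fm _ w x) • y) := by
        rw [eq_sub_of_add_eq' h1, sub_smul]
      _ = _ := smul_smul _ _ _

/-- A non-zero isotropic tail orthogonal to a given one. -/
lemma exists_iso_perp (hm : 3 ≤ m) (t : Fin m → F) :
    ∃ p : Fin m → F, p ≠ 0 ∧ K.fm m p p = 0 ∧ K.fm m p t = 0 := by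
  have hf := K.skewForm m
  by_cases ht : K.fm m t t = 0
  · by_cases ht0 : t = 0
    · obtain ⟨k, rfl⟩ : ∃ k, m = k + 2 := ⟨m - 2, by omega⟩
      obtain ⟨x, hx⟩ := K.exists_cls_zero k
      exact ⟨x, hx.1, hx.2, by rw [ht0, zero_right hf]⟩
    · exact ⟨t, ht0, ht, ht⟩
  · have hW : Cfsg.Geo.IsNondegenerateOn (K.fm m) (Submodule.span F {t}) := by
      intro z hz hz0
      obtain ⟨r, rfl⟩ := Submodule.mem_span_singleton.1 hz
      refine ⟨⟨t, Submodule.mem_span_singleton_self t, ?_⟩,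
        ⟨t, Submodule.mem_span_singleton_self t, ?_⟩⟩ <;>
      · have hr : r ≠ 0 := fun h => hz0 (by rw [h, zero_smul])
        simp [hf.smul_left, smul_right hf, hr, ht]
    have ht0 : t ≠ 0 := fun h => ht (by rw [h, zero_left hf])
    have h1 := finrank_add_perp hf hW
    rw [finrank_span_singleton ht0, Fintype.card_fin] at h1
    obtain ⟨p, hp, hp0, hpp⟩ := exists_isotropic hf (perp_nondegenerate hf hW) (by omega)
    exact ⟨p, hp0, hpp, (mem_perp_span hf).1 hp⟩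

variable [Finite Ω] [IsPretransitive (K.G (m + 2)) Ω]

/-- No point is fixed by the transvection group of the frame. -/
theorem no_fixed (hm : 3 ≤ m) (h1 : 1 < Nat.card Ω)
    (hbot : ∀ z : Ω, fr.cz z ≠ K.fx → fr.ab z = ⊥)
    (htop : ∀ z : Ω, fr.cz z = K.fx → fr.ab z = ⊤) {x : Fin (m + 2) → F} (hx : x ∈ K.cls 0)
    (z : Ω) : ¬ K.Fixes x z := by
  intro h
  obtain ⟨k, hk⟩ := K.exists_move_iso (by omega) hx.2 fr.hu hx.1 fr.u_ne
  have hu : K.Fixes fr.u (k • z) := by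
    have := K.fixes_conj h k
    rwa [hk] at this
  set w := k • z
  have hall : ∀ v ∈ K.cls (m := m + 2) 0, K.Fixes v w := by
    intro v hv
    by_cases hpar : ∃ a : F, v = a • fr.u
    · obtain ⟨a, rfl⟩ := hpar
      exact K.fixes_smul a hu
    push Not at hpar
    have hf := K.skewForm (m + 2)
    by_cases hvu : K.fm _ v fr.u = 0
    · refine fr.fixes_perp (by omega) hbot htop ⟨fr.u_ne, fr.hu⟩ hv hvu (fun a e => ?_) hu
      have ha : a ≠ 0 := fun h0 => fr.u_ne (by rw [e, h0, zero_smul])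
      exact hpar a⁻¹ (by rw [e, inv_smul_smul₀ ha])
    · obtain ⟨p, hp0, hpp, hpt⟩ := fr.exists_iso_perp hm (tail2 v)
      have hpc : inc p ∈ K.cls (m := m + 2) 0 := ⟨fun e => hp0 (by
        have := congrArg tail2 e
        rwa [tail2_inc] at this), by rw [K.fm_inc, hpp]⟩
      have hvp : K.fm _ v (inc p) = 0 := by
        conv_lhs => rw [← cons_tail2 v]
        rw [inc, K.fm_cons, K.fm_cons, (eq_zero_comm (K.skewForm m)).1 hpt]
        simp
      have h2 : K.Fixes (inc p) w := by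
        refine fr.fixes_perp (by omega) hbot htop ⟨fr.u_ne, fr.hu⟩ hpc (fr.inc_u p) (fun a e => ?_) hu
        have := congrArg tail2 e
        rw [fr.tail_u, tail2_smul, tail2_inc] at this
        rcases smul_eq_zero.1 this.symm with h0 | h0
        · exact fr.u_ne (by rw [e, h0, zero_smul])
        · exact hp0 h0
      refine fr.fixes_perp (by omega) hbot htop hpc hv hvp (fun a e => ?_) h2
      have := congrArg (fun y => K.fm _ y fr.u) e
      simp only [fr.inc_u, hf.smul_left] at this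
      rcases mul_eq_zero.1 this.symm with h0 | h0
      · exact hpc.1 (by rw [e, h0, zero_smul])
      · exact hvu h0
  have hfix : ∀ g : K.G (m + 2), g • w = w := fun g =>
    K.smul_eq_of_tr (by omega) (by omega) (fun v hv c hc => by
      by_cases hv0 : v = 0
      · rw [show K.tEl hv c hc = 1 from K.g_ext fun x => by rw [K.ap_tEl, hv0]; simp, one_smul]
      · exact hall v ⟨hv0, hv⟩ _ (K.isTr_tEl hv c hc)) g
  have : Subsingleton Ω := ⟨fun a b => by
    obtain ⟨g, rfl⟩ := exists_smul_eq (K.G (m + 2)) w a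
    obtain ⟨g', rfl⟩ := exists_smul_eq (K.G (m + 2)) w b
    rw [hfix, hfix]⟩
  have := Finite.card_le_one_iff_subsingleton.2 this
  omega

/-- A transvection group moves some point. -/
lemma exists_moved_pt (hm : 3 ≤ m) (h1 : 1 < Nat.card Ω) : ∃ z : Ω, fr.cz z ≠ K.fx := by
  by_contra hall
  have hfix : ∀ (g : K.G (m + 2)) (z : Ω), g • z = z := fun g z =>
    K.smul_eq_of_tr (by omega) (by omega) (fun v hv c hc => by
      by_contra h
      exact hall (K.exists_moved (by omega) fr hv hc h)) g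
  have : Subsingleton Ω := ⟨fun a b => by
    obtain ⟨g, rfl⟩ := exists_smul_eq (K.G (m + 2)) a b
    rw [hfix]⟩
  have := Finite.card_le_one_iff_subsingleton.2 this
  omega

/-- In a small action the second family is empty. -/
theorem fixed_top (hm : 3 ≤ m) (hqm : 3 ≤ q ∨ Odd m) (h1 : 1 < Nat.card Ω)
    (hΩ : Nat.card Ω < K.pts (m + 2)) {z : Ω} (hz : fr.cz z = K.fx) : fr.ab z = ⊤ := by
  classical
  by_contra hz'
  obtain ⟨k, rfl⟩ : ∃ k, m = k + 1 := ⟨m - 1, by omega⟩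
  obtain ⟨z0, hz0⟩ := fr.exists_moved_pt hm h1
  have hM := fr.moved_bound (by omega) hz0 (B := 1) fun z' _ _ => by
    have : Finite (AddSubgroup (Fin (k + 1) → F)) := Finite.of_injective _ SetLike.coe_injective
    exact @Finite.card_pos _ _ ⟨⟨_, K.mem_orb_self (fr.ab z')⟩⟩
  rw [one_mul, fr.ab_eq_bot hm hqm hΩ hz0, AddSubgroup.card_bot, mul_one] at hM
  have hF := fr.fixed_large hm hqm hz hz'
  have hsub : Nat.card {y : Ω // fr.cz y = K.fx ∧ fr.ab y ≠ ⊤}
      ≤ Nat.card {y : Ω // fr.cz y = K.fx} :=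
    Nat.card_le_card_of_injective (fun y => ⟨y.1, y.2.1⟩)
      fun y y' e => Subtype.ext (congrArg (fun t => t.1) e)
  have hsplit : Nat.card {y : Ω // fr.cz y = K.fx} + Nat.card {y : Ω // fr.cz y ≠ K.fx}
      = Nat.card Ω := by
    rw [← Nat.card_sum]; exact Nat.card_congr (Equiv.sumCompl _)
  have hrec := K.pts_rec k
  rw [show k + 3 = k + 1 + 2 from rfl, show 2 * k + 3 = 2 * (k + 1) + 1 by ring] at hrec
  set d := Nat.card Ω with hd
  set f := Nat.card {y : Ω // fr.cz y = K.fx} with hf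
  have hdp : K.pts (k + 1 + 2) = d + 1 := by omega
  have hf0 : 0 < f := @Finite.card_pos _ _ ⟨⟨z, hz⟩⟩
  have hfd : f < d := by
    have : 0 < q ^ (2 * (k + 1) + 1) := Nat.pow_pos (by have := K.two_le; omega)
    omega
  -- double counting
  have : Finite (Fin (k + 1 + 2) → F) := inferInstance
  have := Fintype.ofFinite (K.cls (m := k + 1 + 2) 0)
  have := Fintype.ofFinite Ω
  have hcx : ∀ x : K.cls (m := k + 1 + 2) 0, Nat.card {y : Ω // K.Fixes x.1 y} = f := by
    intro x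
    obtain ⟨g, hg⟩ := K.exists_move_iso (by omega) fr.hu x.2.2 fr.u_ne x.2.1
    refine (Nat.card_congr ((MulAction.toPerm g).subtypeEquiv fun y => ?_)).symm
    rw [MulAction.toPerm_apply, ← hg, K.fixes_conj_iff, fr.cz_fixes]
  set l := Nat.card {x : Fin (k + 1 + 2) → F // x ∈ K.cls 0 ∧ K.Fixes x z} with hl
  have hcz : ∀ y : Ω, Nat.card {x : Fin (k + 1 + 2) → F // x ∈ K.cls 0 ∧ K.Fixes x y} = l := by
    intro y
    obtain ⟨g, hg⟩ := exists_smul_eq (K.G (k + 1 + 2)) z y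
    refine (Nat.card_congr ((apEquiv (g : GL (Fin (k + 1 + 2)) F)).toEquiv.subtypeEquiv
      fun x => ?_)).symm
    show x ∈ K.cls 0 ∧ K.Fixes x z ↔
      ap (g : GL (Fin (k + 1 + 2)) F) x ∈ K.cls 0 ∧ K.Fixes (ap (g : GL (Fin (k + 1 + 2)) F) x) y
    rw [← hg, K.fixes_conj_iff]
    refine and_congr_left fun _ => and_congr ?_ (by rw [K.fm_ap])
    exact ⟨ap_ne_zero _, fun h h0 => h (by rw [h0, ap_zero])⟩
  have hcount : K.isoCount (k + 1 + 2) * f = d * l := by
    have e : (Σ x : K.cls (m := k + 1 + 2) 0, {y : Ω // K.Fixes x.1 y})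
        ≃ Σ y : Ω, {x : Fin (k + 1 + 2) → F // x ∈ K.cls 0 ∧ K.Fixes x y} :=
      { toFun := fun p => ⟨p.2.1, p.1.1, p.1.2, p.2.2⟩
        invFun := fun p => ⟨⟨p.2.1, p.2.2.1⟩, p.1, p.2.2.2⟩
        left_inv := fun p => rfl
        right_inv := fun p => rfl }
    have h2 := Nat.card_congr e
    rw [Nat.card_sigma, Nat.card_sigma, Finset.sum_congr rfl (fun x _ => hcx x),
      Finset.sum_congr rfl (fun y _ => hcz y), Finset.sum_const, Finset.sum_const,
      Finset.card_univ, Finset.card_univ, smul_eq_mul, smul_eq_mul, ← Nat.card_eq_fintype_card,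
      ← Nat.card_eq_fintype_card, K.card_cls_zero] at h2
    exact h2
  obtain ⟨l', hl'⟩ := K.dvd_cone (fun x : Fin (k + 1 + 2) → F => x ∈ K.cls 0 ∧ K.Fixes x z) (fun x hx => hx.1.1)
    (fun c hc x hx => ⟨⟨smul_ne_zero hc hx.1.1, isotropic_smul (K.skewForm _) hx.1.2 c⟩,
      K.fixes_smul c hx.2⟩)
  rw [← hl] at hl'
  rw [← K.pts_mul, hl', mul_assoc, ← mul_left_comm (q ^ 2 - 1) d l'] at hcount
  have h2 := Nat.eq_of_mul_eq_mul_left K.sq_sub_one_pos hcount
  rw [hdp, add_mul, one_mul] at h2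
  have hdvd : d ∣ f := (Nat.dvd_add_right (dvd_mul_right d f)).1 (h2 ▸ dvd_mul_right d l')
  exact absurd (Nat.le_of_dvd hf0 hdvd) (not_le.2 hfd)

/-- The action of the embedded group on the orbits of the root group. -/
@[reducible] def quotAction : MulAction (K.G m) (orbitRel.Quotient fr.U Ω) where
  smul g := Quotient.map' (fun z => K.embHom m g • z) fun a b hab => by
    obtain ⟨⟨r, hr⟩, rfl⟩ := hab
    refine ⟨⟨_, (fr.proj_conj g hr).1⟩, ?_⟩
    show (K.embHom m g * r * (K.embHom m g)⁻¹) • K.embHom m g • b = K.embHom m g • r • b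
    rw [mul_smul, inv_smul_smul, mul_smul]
  one_smul o := Quotient.inductionOn' o fun z => congrArg Quotient.mk'' (by simp)
  mul_smul g h o := Quotient.inductionOn' o fun z =>
    congrArg Quotient.mk'' (by simp [mul_smul])

end Frame

variable {K : UC F q}

/-- A point fixed, up to the transvection group, by the centraliser of a suitable element. -/
theorem exists_centr_fix {k : ℕ} (fr : Frame K (k + 2)) {Ω : Type*}
    [MulAction (K.G (k + 2 + 2)) Ω] [Finite Ω] (hm : 3 ≤ k + 2) (h1 : 1 < Nat.card Ω)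
    (hΩ : Nat.card Ω < K.pts (k + 2 + 2)) (hcz : ∀ z : Ω, fr.cz z ≠ K.fx)
    (hbot : ∀ z : Ω, fr.cz z ≠ K.fx → fr.ab z = ⊥) {s : K.G (k + 2)} (hspow : s ^ (q + 1) = 1)
    (hsfix : ∀ x, ap (s : GL (Fin (k + 2)) F) x = x → x = 0)
    (hssurj : ∀ y, ∃ x, x - ap (s : GL (Fin (k + 2)) F) x = y) :
    ∃ z1 : Ω, ∀ g : K.G (k + 2), s * g = g * s →
      ∃ c ∈ fr.Z, (c * K.embHom _ g) • z1 = z1 := by
  classical
  have hq := K.two_le
  -- the orbits of the root group are long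
  have hlong : ∀ z : Ω, 2 * q ^ (2 * (k + 2)) ≤ Nat.card (orbit fr.U z) := fun z => by
    have ho := fr.card_orbit z
    rw [hbot z (hcz z), AddSubgroup.card_bot, one_mul] at ho
    have hdvd : Nat.card (fr.cz z) ∣ q ^ 1 := by
      rw [pow_one]
      calc Nat.card (fr.cz z) ∣ Nat.card K.fx := AddSubgroup.card_dvd_of_le (fr.cz_le z)
        _ = q := K.card_fx
    have hlt : Nat.card (fr.cz z) < q ^ 1 := by
      rw [pow_one]
      refine lt_of_lt_of_eq (Set.Finite.card_lt_card (Set.toFinite _)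
        (SetLike.coe_ssubset_coe.2 (lt_of_le_of_ne (fr.cz_le z) (hcz z)))) K.card_fx
    have h2 := K.two_mul_le hdvd hlt
    refine Nat.le_of_mul_le_mul_right ?_ (show 0 < q by omega)
    calc 2 * q ^ (2 * (k + 2)) * q = 2 * q ^ (2 * (k + 2) + 1) := by ring
      _ = Nat.card (orbit fr.U z) * (2 * Nat.card (fr.cz z)) := by rw [← ho]; ring
      _ ≤ Nat.card (orbit fr.U z) * q := Nat.mul_le_mul_left _ (by simpa using h2)
  have hfew : Nat.card (orbitRel.Quotient fr.U Ω) < q := by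
    have := Fintype.ofFinite (orbitRel.Quotient fr.U Ω)
    have h2 : Nat.card (orbitRel.Quotient fr.U Ω) * (2 * q ^ (2 * (k + 2))) ≤ Nat.card Ω := by
      rw [Nat.card_congr (selfEquivSigmaOrbits fr.U Ω), Nat.card_sigma, Nat.card_eq_fintype_card,
        ← smul_eq_mul, ← Finset.card_univ, ← Finset.sum_const]
      exact Finset.sum_le_sum fun o _ => hlong _
    have h3 : K.pts (k + 2 + 2) < 2 * q ^ (2 * (k + 1) + 3) := K.pts_lt (k + 1)
    refine Nat.lt_of_mul_lt_mul_right (a := 2 * q ^ (2 * (k + 2))) ?_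
    calc _ ≤ Nat.card Ω := h2
      _ < 2 * q ^ (2 * (k + 1) + 3) := hΩ.trans h3
      _ = q * (2 * q ^ (2 * (k + 2))) := by ring
  -- so the embedded group fixes each of them
  letI := Frame.quotAction fr (Ω := Ω)
  have hfixo : ∀ (g : K.G (k + 2)) (o : orbitRel.Quotient fr.U Ω), g • o = o := by
    by_cases h32 : k + 2 = 3 ∧ q = 2
    · have : Subsingleton (orbitRel.Quotient fr.U Ω) :=
        Finite.card_le_one_iff_subsingleton.1 (by omega)
      exact fun g o => Subsingleton.elim _ _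
    · intro g o
      refine K.smul_eq_of_tr (by omega) h32 (fun v hv c hc => ?_) g
      by_contra hne
      have h2 := K.pow_le_card_weak k (by omega) hv hc hne
      have : q ≤ q ^ (k + 1) := Nat.le_self_pow (by omega) q
      omega
  have hback : ∀ (g : K.G (k + 2)) (z : Ω), ∃ e ∈ fr.U, (e * K.embHom _ g) • z = z := by
    intro g z
    have h2 : (Quotient.mk'' (K.embHom _ g • z) : orbitRel.Quotient fr.U Ω) = Quotient.mk'' z :=
      hfixo g (Quotient.mk'' z)
    obtain ⟨⟨e, he⟩, hez⟩ : z ∈ orbit fr.U (K.embHom _ g • z) := Quotient.eq''.1 h2.symm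
    exact ⟨e, he, by rw [mul_smul]; exact hez⟩
  have : Nonempty Ω := (Nat.card_pos_iff.1 (by omega : 0 < Nat.card Ω)).1
  let z : Ω := Classical.arbitrary Ω
  obtain ⟨e, he, hez⟩ := hback s z
  obtain ⟨x, hx⟩ := hssurj (fr.proj e)
  obtain ⟨r, hr, hrp⟩ := fr.exists_proj x
  set S := K.embHom (k + 2) s with hS
  have hpinv : ∀ r ∈ fr.U, fr.proj r⁻¹ = -fr.proj r := fun r hr => by
    refine eq_neg_of_add_eq_zero_left ?_
    rw [← fr.proj_mul (inv_mem hr) hr, inv_mul_cancel, fr.proj_tr (one_mem _)]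
  have hcm : ∀ r ∈ fr.U, r * (S * r⁻¹ * S⁻¹) ∈ fr.U ∧
      fr.proj (r * (S * r⁻¹ * S⁻¹)) = fr.proj r - ap (s : GL (Fin (k + 2)) F) (fr.proj r) := by
    intro r hr
    have h2 := fr.proj_conj s (inv_mem hr)
    refine ⟨mul_mem hr h2.1, ?_⟩
    rw [fr.proj_mul hr h2.1, h2.2, hpinv r hr, sub_eq_add_neg]
    congr 1
    exact map_neg (apEquiv (s : GL (Fin (k + 2)) F)) _
  obtain ⟨d, hdZ, hd⟩ : ∃ d ∈ fr.Z, e = r * (S * r⁻¹ * S⁻¹) * d := by
    refine ⟨(r * (S * r⁻¹ * S⁻¹))⁻¹ * e, ?_, by rw [mul_inv_cancel_left]⟩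
    refine fr.mem_Z_of_proj (mul_mem (inv_mem (hcm r hr).1) he) ?_
    rw [fr.proj_mul (inv_mem (hcm r hr).1) he, hpinv _ (hcm r hr).1, (hcm r hr).2, hrp, hx,
      neg_add_cancel]
  set z1 := r⁻¹ • z with hz1
  have hrd : r⁻¹ * d * r = d := by
    obtain ⟨c, hc, rfl⟩ := IsTr.eq_tEl hdZ fr.hu
    conv_lhs => rw [show r = (r⁻¹)⁻¹ from (inv_inv r).symm]
    rw [inv_inv r⁻¹, show r⁻¹⁻¹ = r from inv_inv r]
    have := K.conj_tEl fr.hu fr.hu c c hc hc r⁻¹ (a := 1)
      (by rw [fr.ap_U_u (inv_mem hr), one_smul]) (by simp)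
    rwa [inv_inv] at this
  have hSd : (S * d) • z1 = z1 := by
    have h2 : r⁻¹ * (e * S) * r = S * d := by
      rw [hd, show r⁻¹ * (r * (S * r⁻¹ * S⁻¹) * d * S) * r = S * r⁻¹ * (S⁻¹ * (d * S)) * r by group,
        ← fr.emb_comm_Z s hdZ, inv_mul_cancel_left, mul_assoc, mul_assoc, ← mul_assoc r⁻¹, hrd]
    rw [← h2, hz1, mul_smul, mul_smul, smul_inv_smul, hez]
  have hSz : S • z1 = z1 := by
    have hd1 : d ^ q = 1 := by
      have h2 := pow_card_eq_one' (G := fr.Z) (x := ⟨d, hdZ⟩)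
      rw [fr.card_Z] at h2
      exact congrArg Subtype.val h2
    have hpow : (S * d) ^ (q + 1) = d := by
      rw [(show Commute S d from fr.emb_comm_Z s hdZ).mul_pow, hS, ← map_pow, hspow, map_one,
        one_mul, pow_succ, hd1, one_mul]
    have hdz : d • z1 = z1 :=
      hpow ▸ mem_stabilizer_iff.1 (pow_mem (show S * d ∈ stabilizer _ z1 from hSd) (q + 1))
    rwa [mul_smul, hdz] at hSd
  have hC : ∀ g : K.G (k + 2), s * g = g * s → ∃ c ∈ fr.Z, (c * K.embHom _ g) • z1 = z1 := by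
    intro g hg
    obtain ⟨e, he, hez⟩ := hback g z1
    refine ⟨e, fr.mem_Z_of_proj he ?_, hez⟩
    set h := e * K.embHom (k + 2) g with hh
    have hfix : (e * (S * e⁻¹ * S⁻¹)) • z1 = z1 := by
      have h2 : h * S * h⁻¹ * S⁻¹ = e * (S * e⁻¹ * S⁻¹) := by
        rw [hh, mul_assoc e, hS, ← map_mul, ← hg, map_mul]
        group
      rw [← h2, mul_smul, mul_smul, mul_smul]
      rw [show S⁻¹ • z1 = z1 from inv_smul_eq_iff.2 hSz.symm,
        show h⁻¹ • z1 = z1 from inv_smul_eq_iff.2 hez.symm, hSz, hez]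
    have h3 : fr.proj (e * (S * e⁻¹ * S⁻¹)) ∈ fr.ab z1 := ⟨_, (hcm e he).1, hfix, rfl⟩
    rw [hbot z1 (hcz z1), AddSubgroup.mem_bot, (hcm e he).2, sub_eq_zero] at h3
    exact hsfix _ h3.symm
  exact ⟨z1, hC⟩

namespace Frame

variable {K : UC F q} {m : ℕ} (fr : Frame K m) {Ω : Type*} [MulAction (K.G (m + 2)) Ω] [Finite Ω]
  [IsPretransitive (K.G (m + 2)) Ω]
include fr

/-- The final contradiction. -/
theorem no_small_action (hm : 3 ≤ m) (hqm : 3 ≤ q ∨ Odd m) (h1 : 1 < Nat.card Ω)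
    (hΩ : Nat.card Ω < K.pts (m + 2)) : False := by
  classical
  have hbot : ∀ z : Ω, fr.cz z ≠ K.fx → fr.ab z = ⊥ := fun z hz => fr.ab_eq_bot hm hqm hΩ hz
  have htop : ∀ z : Ω, fr.cz z = K.fx → fr.ab z = ⊤ := fun z hz => fr.fixed_top hm hqm h1 hΩ hz
  have hnf : ∀ x ∈ K.cls (m := m + 2) 0, ∀ z : Ω, ¬ K.Fixes x z := fun x hx z =>
    fr.no_fixed hm h1 hbot htop hx z
  have hcz : ∀ z : Ω, fr.cz z ≠ K.fx := fun z h =>
    hnf _ ⟨fr.u_ne, fr.hu⟩ z ((fr.cz_fixes z).1 h)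
  obtain ⟨k, rfl⟩ : ∃ k, m = k + 2 := ⟨m - 2, by omega⟩
  have hqk : 3 ≤ q ∨ Odd k := hqm.imp id fun h => by
    rcases h with ⟨r, hr⟩; exact ⟨r - 1, by omega⟩
  obtain ⟨fr', s, hspow, hsfix, hssurj, hscomm, hcase⟩ :=
    exists_semi (K := K) k (by omega) hqk
  obtain ⟨z1, hC⟩ := exists_centr_fix fr hm h1 hΩ hcz hbot hspow hsfix hssurj
  have hinc : inc fr'.u ∈ K.cls (m := k + 2 + 2) 0 := ⟨fun e => fr'.u_ne (by
    have := congrArg tail2 e
    rwa [tail2_inc] at this), by rw [K.fm_inc, fr'.hu]⟩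
  refine hnf _ hinc z1 fun w hw => ?_
  obtain ⟨c0, hc0, rfl⟩ := IsTr.eq_tEl hw hinc.2
  rw [← K.emb_tEl fr'.hu c0 hc0]
  rcases hcase with ⟨-, t, a, hst, htu, hN⟩ | ⟨hq2, g, d0, hd0, hd00, hsg, hgg⟩
  · -- commutators
    have hN' : K.σ (a * K.σ a) = a * K.σ a := by rw [map_mul, K.invol, mul_comm]
    set lam := c0 / (a * K.σ a - 1)
    have hlam : K.σ lam = lam := by rw [map_div₀, map_sub, hN', hc0, map_one]
    set T0 := K.tEl fr'.hu lam hlam
    have e1 : t * T0 * t⁻¹ * T0⁻¹ = K.tEl fr'.hu c0 hc0 := by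
      rw [K.conj_tEl fr'.hu fr'.hu lam (a * K.σ a * lam) hlam (by rw [map_mul, hN', hlam]) t htu rfl,
        mul_inv_eq_iff_eq_mul, K.tEl_mul]
      refine K.tEl_congr _ _ _ ?_
      have : a * K.σ a - 1 ≠ 0 := sub_ne_zero.2 hN
      simp only [lam]
      field_simp
      ring
    obtain ⟨c, hc, hct⟩ := hC t hst
    obtain ⟨c', hc', hcT⟩ := hC T0 (hscomm lam hlam)
    set A := c * K.embHom (k + 2) t with hA
    set B := c' * K.embHom (k + 2) T0 with hB
    have e2 : A * B * A⁻¹ * B⁻¹ = K.embHom (k + 2) (t * T0 * t⁻¹ * T0⁻¹) := by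
      have hcc : c * c' = c' * c := by
        obtain ⟨p, hp, rfl⟩ := IsTr.eq_tEl hc fr.hu
        obtain ⟨p', hp', rfl⟩ := IsTr.eq_tEl hc' fr.hu
        rw [K.tEl_mul, K.tEl_mul]
        exact K.tEl_congr _ _ _ (add_comm p p')
      have k1 : ∀ g, K.embHom (k + 2) g * c = c * K.embHom (k + 2) g := fun g => fr.emb_comm_Z g hc
      have k2 : ∀ g, K.embHom (k + 2) g * c' = c' * K.embHom (k + 2) g := fun g =>
        fr.emb_comm_Z g hc'
      rw [mul_inv_eq_iff_eq_mul, mul_inv_eq_iff_eq_mul, hA, hB]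
      calc c * K.embHom (k + 2) t * (c' * K.embHom (k + 2) T0)
          = c' * c * K.embHom (k + 2) (t * T0) := by
            rw [mul_assoc, ← mul_assoc (K.embHom (k + 2) t), k2, ← hcc, map_mul]
            simp only [mul_assoc]
        _ = c' * c * K.embHom (k + 2) (t * T0 * t⁻¹ * T0⁻¹ * T0 * t) := by
            rw [inv_mul_cancel_right, inv_mul_cancel_right]
        _ = _ := by
            rw [map_mul, map_mul _ _ T0]
            set X := K.embHom (k + 2) (t * T0 * t⁻¹ * T0⁻¹)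
            rw [← mul_assoc X c', show X * c' = c' * X from k2 _]
            simp only [mul_assoc]
            rw [← mul_assoc (K.embHom (k + 2) T0) c, k1, ← mul_assoc X (c * _), ← mul_assoc X c,
              show X * c = c * X from k1 _]
            simp only [mul_assoc]
    rw [← e1, ← e2, mul_smul, mul_smul, mul_smul,
      show B⁻¹ • z1 = z1 from inv_smul_eq_iff.2 hcT.symm,
      show A⁻¹ • z1 = z1 from inv_smul_eq_iff.2 hct.symm, hcT, hct]
  · -- squares
    rcases K.fixed_two hq2 hc0 hd0 hd00 with h0 | h0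
    · rw [K.tEl_congr fr'.hu hc0 (map_zero _) h0, K.tEl_zero, map_one, one_smul]
    · rw [K.tEl_congr fr'.hu hc0 hd0 h0, ← hgg]
      obtain ⟨c, hc, hcg⟩ := hC g hsg
      have hcc : c * c = 1 := by
        have h2 := pow_card_eq_one' (G := fr.Z) (x := ⟨c, hc⟩)
        rw [fr.card_Z] at h2
        have h3 : c ^ q = 1 := congrArg Subtype.val h2
        rw [← pow_two, ← h3]
        exact congrArg (c ^ ·) hq2.symm
      have e2 : c * K.embHom (k + 2) g * (c * K.embHom (k + 2) g) = K.embHom (k + 2) (g * g) := by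
        rw [mul_assoc, ← mul_assoc (K.embHom (k + 2) g), fr.emb_comm_Z g hc, ← mul_assoc,
          ← mul_assoc, hcc, one_mul, map_mul]
      rw [← e2, mul_smul, hcg, hcg]

end Frame

end CfsgLib.MinIndexUnit
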