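import Cfsg.Agent.Lib.MinIndex.Unit.Tools

/-!
Orbits of large isotropic subgroups under the three-dimensional special unitary group.
-/

set_option autoImplicit false
set_option linter.unusedSectionVars false

namespace CfsgLib.MinIndexUnit

open CfsgLib.Geometric CfsgLib.Geometric.Unitary CfsgLib.ClassicalForms MulAction

variable {F : Type*} [Field F] [Finite F] {q : ℕ} {K : UC F q}

lemma card_pi_one (K : UC F q) : Nat.card (Fin 1 → F) = q ^ 2 := by
  rw [Nat.card_fun, K.card_eq, Nat.card_fin, pow_one]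

lemma fm_one (K : UC F q) (v w : Fin 1 → F) : K.fm 1 v w = K.ζ * (v 0 * K.σ (w 0)) := by
  simp [UC.fm, K.conj.herm_apply, K.σ_eq]

lemma tail_zero_of_iso (K : UC F q) (w : Fin 1 → F) (h : K.fm 1 w w = 0) : w = 0 := by
  rw [fm_one, mul_eq_zero, or_iff_right K.ζ_ne, mul_eq_zero,
    map_eq_zero_iff _ K.σ.injective, or_self] at h
  funext i
  rw [Fin.fin_one_eq_zero i]
  exact h

namespace Frame

variable (fr : Frame K 1)
include fr

/-- If a subgroup avoids an isotropic line and is not orthogonal to it, the root group has trivial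
stabiliser. -/
lemma five_free {A : AddSubgroup (Fin 3 → F)}
    (h1 : ∀ r : F, r • fr.u ∈ A → r = 0) {y : Fin 3 → F} (hy : y ∈ A)
    (hα : K.fm 3 y fr.u ≠ 0) : q ^ 3 ≤ Nat.card (K.orb A) := by
  have hU : Nat.card fr.U = q ^ 3 := fr.card_U
  rw [← hU]
  refine K.card_le_orb A fr.U fun g hg hfix => ?_
  obtain ⟨x, c, hx, hc, e⟩ := hg
  have hf := K.skewForm 3
  have hux : K.fm 3 fr.u x = 0 := (eq_zero_comm hf).1 hx
  have hD : ap (g : GL (Fin 3) F) y - y ∈ A := K.sub_mem_of_fix hfix hy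
  rw [fr.disp e] at hD
  have hD2 := K.sub_mem_of_fix hfix hD
  rw [fr.disp e] at hD2
  simp only [hf.add_left, hf.smul_left, hx, fr.hu, hux, mul_zero, zero_smul, add_zero,
    zero_add] at hD2
  have hxx : K.fm 3 x x = 0 := (mul_eq_zero.1 (h1 _ hD2)).resolve_left hα
  obtain ⟨a, ha⟩ := fr.perp_eq x hx
  have ht : tail2 x = 0 := tail_zero_of_iso K _ (by rw [← fr.tail_fm hx, hxx])
  have hinc : inc (0 : Fin 1 → F) = 0 := by
    have := inc_smul (0 : F) (0 : Fin 1 → F)
    simpa using this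
  rw [ht, hinc, add_zero] at ha
  subst ha
  simp only [smul_right hf, smul_smul, ← add_smul] at hD
  have h0 := h1 _ hD
  have hcf : a + K.σ a + c = 0 := by
    refine (mul_eq_zero.1 (show K.fm 3 y fr.u * (a + K.σ a + c) = 0 from ?_)).resolve_left hα
    linear_combination h0
  refine K.g_ext fun z => ?_
  rw [e, Subgroup.coe_one, ap_one, smul_right hf, smul_smul, add_assoc, add_assoc, ← add_smul,
    ← add_smul]
  rw [show K.fm 3 z fr.u * a + (K.σ a * K.fm 3 z fr.u + c * K.fm 3 z fr.u)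
      = K.fm 3 z fr.u * (a + K.σ a + c) by ring, hcf, mul_zero, zero_smul, add_zero]

end Frame

/-- A subgroup of half size at most gives an orbit of at least `q ^ 3` members. -/
theorem five_lower (A : AddSubgroup (Fin 3 → F)) (h1 : 1 < Nat.card A)
    (h2 : 2 * Nat.card A ≤ q ^ 3) : q ^ 3 ≤ Nat.card (K.orb A) := by
  classical
  obtain ⟨fr⟩ := exists_frame K 1
  have hf := K.skewForm 3
  obtain ⟨y, hy, hy0⟩ := K.exists_ne_zero_mem h1
  -- a good isotropic vector
  obtain ⟨v, hv0, hvv, hvA, hvy⟩ : ∃ v : Fin 3 → F, v ≠ 0 ∧ K.fm 3 v v = 0 ∧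
      (∀ r : F, r • v ∈ A → r = 0) ∧ K.fm 3 y v ≠ 0 := by
    by_contra hne
    push Not at hne
    let P : Set (Fin 3 → F) := (fun p : Fˣ × A => (p.1 : F) • (p.2 : Fin 3 → F)) ''
      {p | (p.2 : Fin 3 → F) ≠ 0}
    have hsub : K.cls (m := 3) 0 ⊆ P ∪ {v | K.fm 3 y v = 0} := by
      intro v hv
      by_cases h : ∀ r : F, r • v ∈ A → r = 0
      · exact Or.inr (hne v hv.1 hv.2 h)
      · push Not at h
        obtain ⟨r, hr, hr0⟩ := h
        exact Or.inl ⟨(Units.mk0 r⁻¹ (inv_ne_zero hr0), ⟨r • v, hr⟩), smul_ne_zero hr0 hv.1,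
          inv_smul_smul₀ hr0 v⟩
    have hA : Nat.card {p : Fˣ × A | (p.2 : Fin 3 → F) ≠ 0}
        ≤ (q ^ 2 - 1) * (Nat.card A - 1) := by
      have e : Nat.card {a : A // (a : Fin 3 → F) ≠ 0} = Nat.card A - 1 := by
        have e' : Option {a : A // (a : Fin 3 → F) ≠ 0} ≃ A :=
          { toFun := fun o => o.elim 0 Subtype.val
            invFun := fun a => if h : (a : Fin 3 → F) = 0 then none else some ⟨a, h⟩
            left_inv := fun o => by cases o with
              | none => simp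
              | some a => simp [a.2]
            right_inv := fun a => by
              by_cases h : (a : Fin 3 → F) = 0
              · simp [h]; exact Subtype.ext h.symm
              · simp [h] }
        rw [← Nat.card_congr e', Finite.card_option, Nat.add_sub_cancel]
      rw [← e, ← K.card_eq, ← Nat.card_units, ← Nat.card_prod]
      refine Nat.card_le_card_of_injective (fun p => (p.1.1, ⟨p.1.2, p.2⟩)) fun p p' h => ?_
      simp only [Prod.mk.injEq, Subtype.mk.injEq] at h
      exact Subtype.ext (Prod.ext h.1 h.2)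
    have hker : Nat.card {v : Fin 3 → F | K.fm 3 y v = 0} ≤ q ^ 4 := by
      obtain ⟨p, hp⟩ := (hf.nondegenerate y hy0).2
      have h0 : K.fm 3 p y ≠ 0 := fun h => hp ((eq_zero_comm hf).1 h)
      have e : Nat.card {v : Fin 3 → F | K.fm 3 y v = 0} * Nat.card F
          ≤ Nat.card (Fin 3 → F) := by
        rw [← Nat.card_prod]
        refine Nat.card_le_card_of_injective (fun q => (q.1 : Fin 3 → F) + q.2 • p) fun a b h => ?_
        have h2 := congrArg (fun w => K.fm 3 y w) h
        simp only [add_right hf, smul_right hf, show K.fm 3 y a.1.1 = 0 from a.1.2,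
          show K.fm 3 y b.1.1 = 0 from b.1.2, zero_add] at h2
        have h3 : a.2 = b.2 := K.σ.injective (mul_right_cancel₀ hp h2)
        refine Prod.ext (Subtype.ext ?_) h3
        simp only [h3, add_left_inj] at h
        exact h
      rw [card_fun_fin K.card_eq, K.card_eq] at e
      have hq := K.two_le
      refine Nat.le_of_mul_le_mul_right ?_ (show 0 < q ^ 2 by positivity)
      rw [← pow_add]
      exact e
    have h3 : K.isoCount 3 ≤ (q ^ 2 - 1) * (Nat.card A - 1) + q ^ 4 := by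
      rw [← K.card_cls_zero]
      calc Nat.card (K.cls (m := 3) 0)
          ≤ Nat.card (P ∪ {v | K.fm 3 y v = 0} : Set (Fin 3 → F)) :=
            Nat.card_mono (Set.toFinite _) hsub
        _ ≤ Nat.card P + Nat.card {v | K.fm 3 y v = 0} := by
            rw [Nat.card_coe_set_eq, Nat.card_coe_set_eq, Nat.card_coe_set_eq]
            exact Set.ncard_union_le _ _
        _ ≤ _ := add_le_add ((Nat.card_image_le (Set.toFinite _)).trans hA) hker
    have hq := K.two_le
    zify [show 1 ≤ q ^ 2 by nlinarith, show 1 ≤ Nat.card A by omega] at h3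
    rw [K.iso_three] at h3
    have h2' : 2 * (Nat.card A : ℤ) ≤ (q : ℤ) ^ 3 := by exact_mod_cast h2
    have hq' : (2 : ℤ) ≤ q := by exact_mod_cast hq
    have h4 : (4 : ℤ) ≤ (q : ℤ) ^ 2 := by nlinarith
    have h5 : (0 : ℤ) ≤ ((q : ℤ) ^ 2 - 1) * ((q : ℤ) ^ 3 - 2 * Nat.card A) :=
      mul_nonneg (by linarith) (by linarith)
    have h6 : (q : ℤ) ^ 5 = (q : ℤ) ^ 2 * (q : ℤ) ^ 3 := by ring
    have h7 : 2 * (q : ℤ) ^ 4 ≤ (q : ℤ) ^ 5 := by
      have : 0 ≤ (q : ℤ) ^ 4 * ((q : ℤ) - 2) := mul_nonneg (by positivity) (by linarith)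
      nlinarith
    have h8 : (8 : ℤ) ≤ (q : ℤ) ^ 3 := by nlinarith
    nlinarith
  obtain ⟨g, hg⟩ := K.exists_move_iso le_rfl hvv fr.hu hv0 fr.u_ne
  have e := fr.five_free (A := K.mapSub g A) (y := ap (g : GL (Fin 3) F) y) ?_
    (K.mem_mapSub.2 hy) ?_
  · rwa [K.orb_mapSub_eq] at e
  · intro r hr
    rw [← hg, ← ap_smul, K.mem_mapSub] at hr
    exact hvA r hr
  · rwa [← hg, K.fm_ap]

/-- A subgroup of size `q ^ 3` gives an orbit of more than `q ^ 3 + q` members. -/
theorem five_full (A : AddSubgroup (Fin 3 → F)) (hA : Nat.card A = q ^ 3) :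
    q ^ 3 + q < Nat.card (K.orb A) := by
  classical
  have : Finite (AddSubgroup (Fin 3 → F)) := Finite.of_injective _ SetLike.coe_injective
  obtain ⟨fr⟩ := exists_frame K 1
  have hf := K.skewForm 3
  have hq := K.two_le
  by_contra hle
  push Not at hle
  have hx : fr.u ∈ K.cls (m := 3) 0 := ⟨fr.u_ne, fr.hu⟩
  have he := K.orbit_equation le_rfl A hx
  set γ := Nat.card (K.orb A) with hγ
  set μ := K.thru A fr.u with hμ
  set S := K.sAni (m := 3) (by omega) A
  rw [hA, K.norm_three] at he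
  have hq8 : 8 ≤ q ^ 3 := Nat.pow_le_pow_left hq 3
  zify [show 1 ≤ q ^ 3 by omega] at he
  rw [K.iso_three] at he
  have hdvd : ((q : ℤ) ^ 3 + 1) ∣ 2 * (γ : ℤ) :=
    ⟨(γ : ℤ) - ((μ : ℤ) * ((q : ℤ) ^ 2 - 1) + S * (q : ℤ) ^ 2), by linear_combination -he⟩
  have hdvd' : (q ^ 3 + 1) ∣ 2 * γ := by exact_mod_cast hdvd
  obtain ⟨j, hj⟩ := hdvd'
  have hqq : 2 * q < q ^ 3 := by nlinarith [Nat.mul_le_mul (Nat.mul_le_mul hq hq) (le_refl q)]
  have hγ0 : 0 < γ := @Finite.card_pos _ _ ⟨⟨A, K.mem_orb_self A⟩⟩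
  have hj3 : j < 3 := by
    by_contra hj3
    push Not at hj3
    have := Nat.mul_le_mul_left (q ^ 3 + 1) hj3
    omega
  have hj0 : 0 < j := by
    rcases Nat.eq_zero_or_pos j with h | h
    · rw [h, mul_zero] at hj; omega
    · exact h
  have hj' : 2 * (γ : ℤ) = ((q : ℤ) ^ 3 + 1) * j := by exact_mod_cast hj
  have hmain : (j : ℤ) * ((q : ℤ) ^ 3 - 1) = 2 * ((μ : ℤ) * ((q : ℤ) ^ 2 - 1) + S * (q : ℤ) ^ 2) := by
    refine mul_left_cancel₀ (show ((q : ℤ) ^ 3 + 1) ≠ 0 by positivity) ?_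
    linear_combination 2 * he - ((q : ℤ) ^ 3 - 1) * hj'
  have hq' : (2 : ℤ) ≤ q := by exact_mod_cast hq
  have h4 : (4 : ℤ) ≤ (q : ℤ) ^ 2 := by nlinarith
  have hS : (0 : ℤ) ≤ (S : ℤ) * (q : ℤ) ^ 2 := by positivity
  -- the multiplicity is small
  have hj2 : (j : ℤ) ≤ 2 := by exact_mod_cast (show j ≤ 2 by omega)
  have hμq : (μ : ℤ) ≤ (q : ℤ) + 1 := by
    by_contra h
    push Not at h
    have : (μ : ℤ) * ((q : ℤ) ^ 2 - 1) ≥ ((q : ℤ) + 2) * ((q : ℤ) ^ 2 - 1) :=
      mul_le_mul_of_nonneg_right (by linarith) (by linarith)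
    have h6 : (j : ℤ) * ((q : ℤ) ^ 3 - 1) ≤ 2 * ((q : ℤ) ^ 3 - 1) :=
      mul_le_mul_of_nonneg_right hj2 (by nlinarith)
    nlinarith
  obtain ⟨t, ht⟩ : ((q : ℤ) ^ 2) ∣ (j : ℤ) - 2 * μ :=
    ⟨(j : ℤ) * q - 2 * μ - 2 * S, by linear_combination -hmain⟩
  have hμ1 : μ = 1 ∧ j = 2 := by
    have hj1 : (1 : ℤ) ≤ j := by exact_mod_cast hj0
    have hμ0 : (0 : ℤ) ≤ μ := Int.natCast_nonneg _
    have ht1 : t ≤ 0 := by
      by_contra h
      push Not at h
      have : (q : ℤ) ^ 2 * 1 ≤ (q : ℤ) ^ 2 * t := mul_le_mul_of_nonneg_left h (by linarith)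
      linarith
    have ht0 : t = 0 ∨ (μ = 1 + t.natAbs ∧ False) ∨ t ≤ -1 := by omega
    rcases ht0 with rfl | ⟨-, h⟩ | h
    · rw [mul_zero] at ht
      omega
    · exact h.elim
    · exfalso
      have h5 : (q : ℤ) ^ 2 * t ≤ (q : ℤ) ^ 2 * (-1) := mul_le_mul_of_nonneg_left h (by linarith)
      -- then `2μ` is at least `q² + j`
      rcases Nat.lt_or_ge q 3 with hq3 | hq3
      · have hq2 : q = 2 := by omega
        subst hq2
        norm_num at *
        omega
      · have : (3 : ℤ) ≤ q := by exact_mod_cast hq3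
        nlinarith
  obtain ⟨hμ1, hj2'⟩ := hμ1
  -- an isotropic vector in the subgroup
  have hiso := K.iso_eq le_rfl A hx
  rw [← hμ, hμ1, one_mul] at hiso
  have hpos : 0 < K.nIso A := by
    rcases Nat.eq_zero_or_pos (K.nIso A) with h | h
    · rw [h, mul_zero] at hiso
      have h3 := K.iso_three
      rw [← hiso] at h3
      have : (0 : ℤ) < ((q : ℤ) ^ 3 + 1) * ((q : ℤ) ^ 2 - 1) := by
        have : (0 : ℤ) < (q : ℤ) ^ 3 + 1 := by positivity
        nlinarith
      simp at h3
      rcases h3 with h3 | h3 <;> nlinarith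
    · exact h
  obtain ⟨⟨x0, hx0A, hx0⟩⟩ := (Nat.card_pos_iff.1 hpos).1
  obtain ⟨g, hg⟩ := K.exists_move_iso le_rfl hx0.2 fr.hu hx0.1 fr.u_ne
  set A' := K.mapSub g A with hA'
  have huA : fr.u ∈ A' := by rw [← hg]; exact K.mem_mapSub.2 hx0A
  have hcard : Nat.card A' = q ^ 3 := by rw [hA', K.card_mapSub, hA]
  -- the member through a vector is unique
  have huniq : ∀ h : K.G 3, fr.u ∈ K.mapSub h A' → K.mapSub h A' = A' := by
    intro h hh
    have h1 : Nat.card {Ab : K.orb A // fr.u ∈ Ab.1} = 1 := hμ1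
    obtain ⟨hsub, -⟩ := Nat.card_eq_one_iff_unique.1 h1
    have m1 : K.mapSub h A' ∈ K.orb A := by
      rw [← K.orb_mapSub_eq g A]; exact ⟨h, rfl⟩
    have e := hsub.elim ⟨⟨_, m1⟩, hh⟩ ⟨⟨A', ⟨g, rfl⟩⟩, huA⟩
    exact congrArg (fun t => t.1.1) e
  -- the root group fixes the member
  have hroot : ∀ r ∈ fr.U, K.mapSub r A' = A' := fun r hr => huniq r (by
    rw [← fr.ap_U_u hr]; exact K.mem_mapSub.2 huA)
  have hinc0 : inc (0 : Fin 1 → F) = 0 := by
    have := inc_smul (0 : F) (0 : Fin 1 → F)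
    simpa using this
  -- the member is orthogonal to the vector
  have horth : ∀ y ∈ A', K.fm 3 y fr.u = 0 := by
    intro y hy
    by_contra hα
    have hall : ∀ w : Fin 1 → F, ∃ a : F, a • fr.u + inc w ∈ A' := by
      intro w
      obtain ⟨r, hr, hrw⟩ := fr.exists_proj ((K.fm 3 y fr.u)⁻¹ • w)
      obtain ⟨x, c, hx, -, e⟩ := id hr
      have hD := K.sub_mem_of_fix (hroot r hr) hy
      rw [fr.disp e] at hD
      obtain ⟨a, ha⟩ := fr.perp_eq x hx
      rw [← fr.proj_eq e, hrw] at ha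
      rw [ha, smul_add, ← inc_smul, smul_inv_smul₀ hα, smul_smul] at hD
      refine ⟨K.fm 3 y fr.u * a + (K.fm 3 y (a • fr.u + inc ((K.fm 3 y fr.u)⁻¹ • w))
        + c * K.fm 3 y fr.u), ?_⟩
      convert hD using 1
      rw [add_smul]; abel
    have hline : ∀ a : F, a • fr.u ∈ A' := by
      intro a
      set w1 : Fin 1 → F := Pi.single 0 1
      obtain ⟨a1, ha1⟩ := hall w1
      obtain ⟨r, hr, hrw⟩ := fr.exists_proj ((K.σ (a / K.ζ)) • w1)
      obtain ⟨x, c, hx, -, e⟩ := id hr
      have hD := K.sub_mem_of_fix (hroot r hr) ha1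
      have hu1 : K.fm 3 (a1 • fr.u + inc w1) fr.u = 0 := by
        rw [hf.add_left, hf.smul_left, fr.hu, fr.inc_u, mul_zero, add_zero]
      rw [fr.disp e, hu1] at hD
      have hval : K.fm 3 (a1 • fr.u + inc w1) x = a := by
        rw [fr.tail_fm2 hu1 hx, ← fr.proj_eq e, hrw, tail2_add, tail2_smul, fr.tail_u, tail2_inc,
          smul_zero, zero_add, smul_right (K.skewForm 1), K.invol, fm_one]
        simp [w1, K.ζ_ne]
      rw [hval] at hD
      simpa using hD
    have h4 : q ^ 4 ≤ Nat.card A' := by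
      have e : Nat.card (F × (Fin 1 → F)) = q ^ 4 := by
        rw [Nat.card_prod, K.card_eq, card_pi_one K]; ring
      rw [← e]
      refine Nat.card_le_card_of_injective
        (fun p : F × (Fin 1 → F) => (⟨p.1 • fr.u + inc p.2, by
          obtain ⟨a, ha⟩ := hall p.2
          have := add_mem (hline (p.1 - a)) ha
          convert this using 1
          rw [sub_smul]; abel⟩ : A')) fun p p' h => ?_
      have h1 := congrArg Subtype.val h
      have h2 := congrArg tail2 h1
      simp only [tail2_add, tail2_smul, fr.tail_u, tail2_inc, smul_zero, zero_add] at h2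
      simp only [h2, add_left_inj] at h1
      exact Prod.ext (smul_left_injective F fr.u_ne h1) h2
    rw [hcard] at h4
    have : q ^ 3 < q ^ 4 := Nat.pow_lt_pow_right (by omega) (by omega)
    omega
  -- the line lies in the member
  obtain ⟨y1, hy1, hy1t⟩ : ∃ y ∈ A', tail2 y ≠ 0 := by
    by_contra h
    push Not at h
    have : Nat.card A' ≤ Nat.card F := by
      refine Nat.card_le_card_of_injective
        (fun y : A' => (fr.perp_eq y.1 (horth _ y.2)).choose) fun y y' e => Subtype.ext ?_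
      refine (fr.perp_eq y.1 (horth _ y.2)).choose_spec.trans
        (Eq.trans ?_ (fr.perp_eq y'.1 (horth _ y'.2)).choose_spec.symm)
      exact congrArg₂ (fun a w => a • fr.u + inc w) e ((h _ y.2).trans (h _ y'.2).symm)
    rw [hcard, K.card_eq] at this
    have : q ^ 2 < q ^ 3 := Nat.pow_lt_pow_right (by omega) (by omega)
    omega
  have hline : ∀ a : F, a • fr.u ∈ A' := by
    intro a
    obtain ⟨p, hp⟩ : ∃ p, K.fm 1 (tail2 y1) p = a := by
      obtain ⟨p, hp⟩ := ((K.skewForm 1).nondegenerate _ hy1t).2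
      exact ⟨K.σ (a / K.fm 1 (tail2 y1) p) • p, by
        rw [smul_right (K.skewForm 1), K.invol, div_mul_cancel₀ _ hp]⟩
    obtain ⟨r, hr, hrw⟩ := fr.exists_proj p
    obtain ⟨x, c, hx, -, e⟩ := id hr
    have hD := K.sub_mem_of_fix (hroot r hr) hy1
    rw [fr.disp e, horth _ hy1, fr.tail_fm2 (horth _ hy1) hx, ← fr.proj_eq e, hrw, hp] at hD
    simpa using hD
  have hsplit : ∀ y ∈ A', inc (tail2 y) ∈ A' := fun y hy => by
    obtain ⟨a, ha⟩ := fr.perp_eq y (horth _ hy)
    have := sub_mem hy (hline a)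
    rwa [show y - a • fr.u = inc (tail2 y) by rw [sub_eq_iff_eq_add', ← ha]] at this
  -- the scalars preserving the second coordinate
  let D : AddSubgroup F :=
    { carrier := {d | inc (Pi.single 0 d : Fin 1 → F) ∈ A'}
      zero_mem' := by
        show inc (Pi.single 0 (0 : F) : Fin 1 → F) ∈ A'
        rw [Pi.single_zero, hinc0]; exact zero_mem _
      add_mem' := fun {a b} ha hb => by
        show inc (Pi.single 0 (a + b) : Fin 1 → F) ∈ A'
        rw [Pi.single_add, inc_add]; exact add_mem ha hb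
      neg_mem' := fun {a} ha => by
        show inc (Pi.single 0 (-a) : Fin 1 → F) ∈ A'
        rw [show (Pi.single 0 (-a) : Fin 1 → F) = (-1 : F) • Pi.single 0 a by
          funext i; rw [Fin.fin_one_eq_zero i]; simp, inc_smul]
        simpa using neg_mem (show inc (Pi.single 0 a : Fin 1 → F) ∈ A' from ha) }
  have hDcard : Nat.card D * q ^ 2 = q ^ 3 := by
    rw [← hcard, ← K.card_eq, ← Nat.card_prod]
    refine (Nat.card_congr (α := A') (β := D × F)
      { toFun := fun y => (⟨tail2 (y : Fin 3 → F) 0, by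
            show inc (Pi.single 0 (tail2 (y : Fin 3 → F) 0) : Fin 1 → F) ∈ A'
            rw [show (Pi.single 0 (tail2 (y : Fin 3 → F) 0) : Fin 1 → F) = tail2 (y : Fin 3 → F) by
              funext i; rw [Fin.fin_one_eq_zero i]; simp]
            exact hsplit _ y.2⟩,
          -K.fm 3 (y : Fin 3 → F) fr.u')
        invFun := fun p => ⟨p.2 • fr.u + inc (Pi.single 0 (p.1 : F)), add_mem (hline _) p.1.2⟩
        left_inv := fun y => Subtype.ext ?_
        right_inv := fun p => ?_ }).symm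
    · obtain ⟨a, ha⟩ := fr.perp_eq y.1 (horth _ y.2)
      have hu' : K.fm 3 y.1 fr.u' = -a := by
        conv_lhs => rw [ha]
        rw [hf.add_left, hf.smul_left, fr.inc_u', fr.pair']; ring
      show (-K.fm 3 y.1 fr.u') • fr.u + inc (Pi.single 0 (tail2 y.1 0)) = y.1
      rw [hu', neg_neg, show (Pi.single 0 (tail2 y.1 0) : Fin 1 → F) = tail2 y.1 by
        funext i; rw [Fin.fin_one_eq_zero i]; simp, ← ha]
    · refine Prod.ext (Subtype.ext ?_) ?_
      · simp [tail2_add, tail2_smul, fr.tail_u, tail2_inc]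
      · show -K.fm 3 (p.2 • fr.u + inc (Pi.single 0 (p.1 : F))) fr.u' = p.2
        rw [hf.add_left, hf.smul_left, fr.inc_u', fr.pair']; ring
  have hDq : Nat.card D = q := by
    refine Nat.eq_of_mul_eq_mul_right (show 0 < q ^ 2 by positivity) ?_
    rw [hDcard]; ring
  -- stable under every norm one scalar
  have hstab : ∀ c : F, c ≠ 0 → ∀ d ∈ D, K.σ c / c * d ∈ D := by
    intro c hc d hd
    obtain ⟨h, hu, -, hw⟩ := fr.exists_tor one_pos hc
    have h1 : K.mapSub h A' = A' := huniq h (by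
      have := (K.mem_mapSub (g := h)).2 (hline c⁻¹)
      rwa [ap_smul, hu, smul_smul, inv_mul_cancel₀ hc, one_smul] at this)
    have h2 := (K.mem_mapSub (g := h)).2 (show inc (Pi.single 0 d : Fin 1 → F) ∈ A' from hd)
    rw [h1, hw] at h2
    show inc (Pi.single 0 (K.σ c / c * d) : Fin 1 → F) ∈ A'
    convert h2 using 2
    funext i
    rw [Fin.fin_one_eq_zero i]
    simp
    ring
  -- the multipliers form a field
  let R : AddSubgroup F :=
    { carrier := {r | ∀ d ∈ D, r * d ∈ D}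
      zero_mem' := fun d _ => by rw [zero_mul]; exact zero_mem _
      add_mem' := fun {a b} ha hb d hd => by rw [add_mul]; exact add_mem (ha d hd) (hb d hd)
      neg_mem' := fun {a} ha d hd => by rw [neg_mul]; exact neg_mem (ha d hd) }
  have hR : Nat.card R ≤ q := by
    obtain ⟨d, hd, hd0⟩ : ∃ d ∈ D, d ≠ 0 := by
      by_contra h
      push Not at h
      rw [(AddSubgroup.eq_bot_iff_forall D).2 h, AddSubgroup.card_bot] at hDq
      omega
    rw [← hDq]
    exact Nat.card_le_card_of_injective (fun r => (⟨r.1 * d, r.2 d hd⟩ : D)) fun r r' e =>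
      Subtype.ext (mul_right_cancel₀ hd0 (congrArg Subtype.val e))
  have hnorm : ∀ μ : Fˣ, μ ^ (q + 1) = 1 → (μ : F) ∈ R := by
    intro μ hμ
    have hμn : (μ : F) * K.σ μ = 1 := by
      rw [K.σ_eq, K.conj.mul_conj, ← Units.val_pow_eq_pow_val, hμ, Units.val_one]
    by_cases hm1 : (μ : F) = -1
    · intro d hd; rw [hm1, neg_one_mul]; exact neg_mem hd
    · have hc : (1 : F) + K.σ μ ≠ 0 := fun h => hm1 (by
        have h2 := congrArg K.σ h
        rw [map_add, map_one, K.invol, map_zero] at h2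
        linear_combination h2)
      intro d hd
      have h3 := hstab _ hc d hd
      have e : K.σ (1 + K.σ (μ : F)) / (1 + K.σ μ) = μ := by
        rw [map_add, map_one, K.invol, div_eq_iff hc]
        linear_combination -hμn
      rwa [e] at h3
  have hbig : q + 1 ≤ Nat.card R := by
    rw [← card_norm_one K.card_eq]
    exact Nat.card_le_card_of_injective (fun μ => (⟨(μ.1 : F), hnorm _ μ.2⟩ : R)) fun μ μ' e =>
      Subtype.ext (Units.ext (congrArg Subtype.val e))
  omega

end CfsgLib.MinIndexUnit
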