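import Cfsg.Agent.Lib.MinIndex.Unit.Tools
import Cfsg.Agent.Lib.MinIndex.Unit.Diag

/-!
The two-dimensional special unitary group: isotropic lines, real forms and regular classes.
-/

set_option autoImplicit false
set_option linter.unusedSectionVars false

namespace CfsgLib.MinIndexUnit

open CfsgLib.Geometric CfsgLib.Geometric.Unitary CfsgLib.ClassicalForms MulAction

variable {F : Type*} [Field F] [Finite F] {q : ℕ} (K : UC F q)

/-- Two isotropic vectors of the plane with a non-zero real product. -/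
structure Hyp (x y : Fin 2 → F) where
  hxx : K.fm 2 x x = 0
  hyy : K.fm 2 y y = 0
  hreal : K.σ (K.fm 2 x y) = K.fm 2 x y
  hne : K.fm 2 x y ≠ 0

namespace UC

/-- The real span of two vectors. -/
def rspan {m : ℕ} (x y : Fin m → F) : AddSubgroup (Fin m → F) where
  carrier := {z | ∃ a ∈ K.fx, ∃ b ∈ K.fx, z = a • x + b • y}
  zero_mem' := ⟨0, zero_mem _, 0, zero_mem _, by simp⟩
  add_mem' := by
    rintro _ _ ⟨a, ha, b, hb, rfl⟩ ⟨a', ha', b', hb', rfl⟩
    exact ⟨a + a', add_mem ha ha', b + b', add_mem hb hb', by module⟩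
  neg_mem' := by
    rintro _ ⟨a, ha, b, hb, rfl⟩
    exact ⟨-a, neg_mem ha, -b, neg_mem hb, by module⟩

lemma mem_rspan {m : ℕ} {x y z : Fin m → F} :
    z ∈ K.rspan x y ↔ ∃ a ∈ K.fx, ∃ b ∈ K.fx, z = a • x + b • y := Iff.rfl

/-- An isotropic vector has a partner. -/
lemma exists_hyp {x : Fin 2 → F} (hxx : K.fm 2 x x = 0) (hx0 : x ≠ 0) :
    ∃ y, Hyp K x y ∧ K.fm 2 x y = 1 := by
  have hf := K.skewForm 2
  obtain ⟨v, hvv, -, hxv⟩ := K.exists_iso_notperp 0 hx0
  refine ⟨K.σ (K.fm 2 x v)⁻¹ • v, ?_⟩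
  have e : K.fm 2 x (K.σ (K.fm 2 x v)⁻¹ • v) = 1 := by
    rw [smul_right hf, K.invol, inv_mul_cancel₀ hxv]
  exact ⟨⟨hxx, isotropic_smul hf hvv _, by rw [e, map_one], by rw [e]; exact one_ne_zero⟩, e⟩

/-- The plane has an isotropic vector. -/
lemma exists_iso_two : ∃ x : Fin 2 → F, x ≠ 0 ∧ K.fm 2 x x = 0 :=
  let ⟨fr⟩ := exists_frame K 0
  ⟨fr.u, fr.u_ne, fr.hu⟩

end UC

namespace Hyp

variable {K} {x y : Fin 2 → F} (h : Hyp K x y)
include h

lemma fyx : K.fm 2 y x = -K.fm 2 x y := by rw [(K.skewForm 2).skew, h.hreal]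

lemma x_ne : x ≠ 0 := fun e => h.hne (by rw [e, zero_left (K.skewForm 2)])

lemma ext {z w : Fin 2 → F} (h1 : K.fm 2 z x = K.fm 2 w x) (h2 : K.fm 2 z y = K.fm 2 w y) :
    z = w := by
  have hf := K.skewForm 2
  have hli : LinearIndependent F ![x, y] := by
    refine LinearIndependent.pair_iff.2 fun s t e => ?_
    have e1 := congrArg (fun v => K.fm 2 v x) e
    have e2 := congrArg (fun v => K.fm 2 v y) e
    simp only [hf.add_left, hf.smul_left, h.hxx, h.hyy, h.fyx, zero_left hf, mul_zero, zero_add,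
      add_zero] at e1 e2
    exact ⟨(mul_eq_zero.1 e2).resolve_right h.hne,
      (mul_eq_zero.1 e1).resolve_right (neg_ne_zero.2 h.hne)⟩
  set B := basisOfLinearIndependentOfCardEqFinrank hli (by simp) with hB
  by_contra hne
  obtain ⟨v, hv⟩ := (hf.nondegenerate (z - w) (sub_ne_zero.2 hne)).2
  apply hv
  have hx : K.fm 2 (z - w) x = 0 := by rw [sub_left hf, h1, sub_self]
  have hy : K.fm 2 (z - w) y = 0 := by rw [sub_left hf, h2, sub_self]
  have e := B.sum_repr v
  rw [Fin.sum_univ_two, hB, coe_basisOfLinearIndependentOfCardEqFinrank] at e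
  simp only [Matrix.cons_val_zero, Matrix.cons_val_one] at e
  rw [← e, add_right hf, smul_right hf, smul_right hf, hx, hy, mul_zero, mul_zero, add_zero]

/-- Coordinates. -/
lemma coord (z : Fin 2 → F) :
    z = (K.fm 2 z y / K.fm 2 x y) • x + (-(K.fm 2 z x / K.fm 2 x y)) • y := by
  have hf := K.skewForm 2
  have hne := h.hne
  refine h.ext ?_ ?_ <;>
  · simp only [hf.add_left, hf.smul_left, h.hxx, h.hyy, h.fyx]
    field_simp
    ring

lemma coord_unique {a b a' b' : F} (e : a • x + b • y = a' • x + b' • y) : a = a' ∧ b = b' := by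
  have hf := K.skewForm 2
  have e1 := congrArg (fun v => K.fm 2 v x) e
  have e2 := congrArg (fun v => K.fm 2 v y) e
  simp only [hf.add_left, hf.smul_left, h.hxx, h.hyy, h.fyx, mul_zero, zero_add,
    add_zero] at e1 e2
  exact ⟨mul_right_cancel₀ h.hne e2, mul_right_cancel₀ (neg_ne_zero.2 h.hne) e1⟩

lemma card_rspan : Nat.card (K.rspan x y) = q ^ 2 := by
  have hb : Function.Bijective
      (fun p : K.fx × K.fx => (⟨(p.1 : F) • x + (p.2 : F) • y, p.1, p.1.2, p.2, p.2.2, rfl⟩ :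
        K.rspan x y)) := by
    constructor
    · intro p p' e
      obtain ⟨e1, e2⟩ := h.coord_unique (congrArg Subtype.val e)
      exact Prod.ext (Subtype.ext e1) (Subtype.ext e2)
    · rintro ⟨_, a, ha, b, hb, rfl⟩
      exact ⟨(⟨a, ha⟩, ⟨b, hb⟩), rfl⟩
  rw [← Nat.card_congr (Equiv.ofBijective _ hb), Nat.card_prod, K.card_fx, pow_two]

/-- The group is transitive on the non-zero vectors of a real form. -/
theorem trans {w : Fin 2 → F} (hw : w ∈ K.rspan x y) (hw0 : w ≠ 0) :
    ∃ g : K.G 2, ap (g : GL (Fin 2) F) x = w := by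
  have hf := K.skewForm 2
  obtain ⟨a, ha, b, hb, rfl⟩ := hw
  set r := K.fm 2 x y with hr
  have hr0 : r ≠ 0 := h.hne
  have hrr : K.σ r = r := h.hreal
  have ha' : K.σ a = a := ha
  have hb' : K.σ b = b := hb
  have key : ∀ a b : F, K.σ a = a → K.σ b = b → b ≠ 0 →
      ∃ g : K.G 2, ap (g : GL (Fin 2) F) x = a • x + b • y := by
    intro a b ha hb hb0
    refine ⟨K.tEl h.hxx ((1 - a) / (b * r)) (by rw [map_div₀, map_sub, map_one, ha, map_mul, hb, hrr])
      * K.tEl h.hyy (b / r) (by rw [map_div₀, hb, hrr]), ?_⟩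
    rw [Subgroup.coe_mul, ap_mul, K.ap_tEl, K.ap_tEl]
    simp only [hf.add_left, hf.smul_left, h.hxx, h.fyx, ← hr]
    rw [zero_add, show b / r * r = b by field_simp,
      show (1 - a) / (b * r) * (b * -r) = a - 1 by field_simp; ring]
    module
  by_cases hb0 : b = 0
  · have ha0 : a ≠ 0 := fun h0 => hw0 (by rw [h0, hb0]; simp)
    obtain ⟨g, hg⟩ := key a 1 ha' (map_one _) one_ne_zero
    refine ⟨K.tEl h.hyy (-1 / (a * r)) (by rw [map_div₀, map_neg, map_one, map_mul, ha', hrr]) * g, ?_⟩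
    rw [Subgroup.coe_mul, ap_mul, hg, K.ap_tEl]
    simp only [hf.add_left, hf.smul_left, h.hyy, ← hr, hb0]
    rw [mul_zero, add_zero, show -1 / (a * r) * (a * r) = -1 by field_simp]
    module
  · exact key a b ha' hb' hb0

/-- The group is large. -/
theorem card_L : q * (q ^ 2 - 1) ≤ Nat.card (K.G 2) := by
  classical
  have hR : Nat.card {w : Fin 2 → F // w ∈ K.rspan x y ∧ w ≠ 0} = q ^ 2 - 1 := by
    have e : Option {w : Fin 2 → F // w ∈ K.rspan x y ∧ w ≠ 0} ≃ K.rspan x y :=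
      { toFun := fun o => o.elim 0 fun w => ⟨w.1, w.2.1⟩
        invFun := fun w => if h0 : (w : Fin 2 → F) = 0 then none else some ⟨w.1, w.2, h0⟩
        left_inv := fun o => by cases o with
          | none => simp
          | some w => simp [w.2.2]
        right_inv := fun w => by
          by_cases h0 : (w : Fin 2 → F) = 0
          · simp [h0]; exact Subtype.ext h0.symm
          · simp [h0] }
    have := (Nat.card_congr e).trans h.card_rspan
    rw [Finite.card_option] at this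
    omega
  suffices hle : Nat.card ({w : Fin 2 → F // w ∈ K.rspan x y ∧ w ≠ 0} × {c : F // K.σ c = c})
      ≤ Nat.card (K.G 2) by
    rwa [Nat.card_prod, K.card_fixed, hR, mul_comm] at hle
  choose g hg using fun w : {w : Fin 2 → F // w ∈ K.rspan x y ∧ w ≠ 0} => h.trans w.2.1 w.2.2
  refine Nat.card_le_card_of_injective
    (fun p : {w : Fin 2 → F // w ∈ K.rspan x y ∧ w ≠ 0} × {c : F // K.σ c = c} =>
      g p.1 * K.tEl h.hxx p.2.1 p.2.2) fun p p' e => ?_
  have hx : ∀ p : {w : Fin 2 → F // w ∈ K.rspan x y ∧ w ≠ 0} × {c : F // K.σ c = c},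
      ap ((g p.1 * K.tEl h.hxx p.2.1 p.2.2 : K.G 2) : GL (Fin 2) F) x = p.1.1 := fun p => by
    rw [Subgroup.coe_mul, ap_mul, K.ap_tEl, h.hxx, mul_zero, zero_smul, add_zero, hg]
  have e1 : p.1 = p'.1 := Subtype.ext (by
    have := hx p
    simp only at e
    rw [e, hx p'] at this
    exact this.symm)
  simp only [e1, mul_left_cancel_iff] at e
  refine Prod.ext e1 (Subtype.ext ?_)
  have h2 := congrArg (fun t : K.G 2 => ap (t : GL (Fin 2) F) y) e
  simp only [K.ap_tEl, add_right_inj] at h2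
  exact mul_right_cancel₀ (by rw [h.fyx]; exact neg_ne_zero.2 h.hne)
    (smul_left_injective F h.x_ne h2)

/-- The isotropic lines. -/
lemma line_cases {l : Fin 2 → F} (hl : K.fm 2 l l = 0) :
    (∃ a : F, l = a • x) ∨ ∃ a : F, ∃ c ∈ K.fx, l = a • (c • x + y) := by
  have hf := K.skewForm 2
  have hc := h.coord l
  set r := K.fm 2 x y with hr
  set α := K.fm 2 l y / r
  set β := -(K.fm 2 l x / r)
  by_cases hβ : β = 0
  · exact Or.inl ⟨α, by rw [hc, hβ, zero_smul, add_zero]⟩
  refine Or.inr ⟨β, α / β, ?_, by rw [smul_add, smul_smul, mul_div_cancel₀ _ hβ]; exact hc⟩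
  show K.σ (α / β) = α / β
  rw [hc] at hl
  simp only [hf.add_left, add_right hf, hf.smul_left, smul_right hf, h.hxx, h.hyy, h.fyx, ← hr] at hl
  rw [map_div₀, div_eq_div_iff ((map_ne_zero_iff _ K.σ.injective).2 hβ) hβ]
  have h2 : r * (α * K.σ β - β * K.σ α) = 0 := by linear_combination hl
  linear_combination -((mul_eq_zero.1 h2).resolve_left h.hne)

/-- The group is transitive on isotropic lines. -/
theorem line_trans {l : Fin 2 → F} (hl : K.fm 2 l l = 0) (hl0 : l ≠ 0) :
    ∃ g : K.G 2, ∃ a : F, a ≠ 0 ∧ ap (g : GL (Fin 2) F) x = a • l := by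
  rcases h.line_cases hl with ⟨a, e⟩ | ⟨a, c, hc, e⟩
  · have ha : a ≠ 0 := fun h0 => hl0 (by rw [e, h0, zero_smul])
    exact ⟨1, a⁻¹, inv_ne_zero ha, by rw [Subgroup.coe_one, ap_one, e, inv_smul_smul₀ ha]⟩
  · have ha : a ≠ 0 := fun h0 => hl0 (by rw [e, h0, zero_smul])
    have hw : c • x + y ∈ K.rspan x y := ⟨c, hc, 1, map_one _, by rw [one_smul]⟩
    obtain ⟨g, hg⟩ := h.trans hw fun e0 => hl0 (by rw [e, e0, smul_zero])
    exact ⟨g, a⁻¹, inv_ne_zero ha, by rw [hg, e, inv_smul_smul₀ ha]⟩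

/-- There are more than `q` isotropic lines. -/
theorem exists_lines : ∃ v : Option K.fx → Fin 2 → F,
    (∀ i, v i ≠ 0 ∧ K.fm 2 (v i) (v i) = 0) ∧ ∀ i j (a : F), v i = a • v j → i = j := by
  have hf := K.skewForm 2
  refine ⟨fun o => o.elim x fun c => (c : F) • x + y, fun i => ?_, fun i j a e => ?_⟩
  · cases i with
    | none => exact ⟨h.x_ne, h.hxx⟩
    | some c =>
      refine ⟨fun e => ?_, ?_⟩
      · have h2 : (c : F) • x + (1 : F) • y = (0 : F) • x + (0 : F) • y := by simpa using e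
        exact one_ne_zero (h.coord_unique h2).2
      · simp only [Option.elim_some, hf.add_left, add_right hf, hf.smul_left, smul_right hf, h.hxx,
          h.hyy, h.fyx, show K.σ (c : F) = c from c.2]
        ring
  · cases i with
    | none =>
      cases j with
      | none => rfl
      | some c =>
        have h2 : (1 : F) • x + (0 : F) • y = (a * c) • x + a • y := by
          rw [mul_smul, ← smul_add]; simpa using e
        obtain ⟨e1, e2⟩ := h.coord_unique h2
        rw [← e2, zero_mul] at e1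
        exact absurd e1 one_ne_zero
    | some c =>
      cases j with
      | none =>
        have h2 : (c : F) • x + (1 : F) • y = a • x + (0 : F) • y := by simpa using e
        exact absurd (h.coord_unique h2).2 one_ne_zero
      | some d =>
        have h2 : (c : F) • x + (1 : F) • y = (a * d) • x + a • y := by
          rw [mul_smul, ← smul_add]; simpa using e
        obtain ⟨e1, e2⟩ := h.coord_unique h2
        rw [← e2, one_mul] at e1
        exact congrArg some (Subtype.ext e1)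

/-- A scalar keeping a non-zero vector in the real form is real. -/
lemma real_of_smul_mem {w : Fin 2 → F} (hw : w ∈ K.rspan x y) (hw0 : w ≠ 0) {k : F}
    (hk : k • w ∈ K.rspan x y) : K.σ k = k := by
  obtain ⟨a, ha, b, hb, rfl⟩ := hw
  obtain ⟨a', ha', b', hb', e⟩ := hk
  rw [smul_add, smul_smul, smul_smul] at e
  obtain ⟨e1, e2⟩ := h.coord_unique e
  have ha : K.σ a = a := ha
  have ha' : K.σ a' = a' := ha'
  have hb : K.σ b = b := hb
  have hb' : K.σ b' = b' := hb'
  by_cases h0 : a = 0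
  · have hb0 : b ≠ 0 := fun h1 => hw0 (by rw [h0, h1]; simp)
    rw [show k = b' / b by rw [← e2, mul_div_cancel_right₀ _ hb0], map_div₀, hb, hb']
  · rw [show k = a' / a by rw [← e1, mul_div_cancel_right₀ _ h0], map_div₀, ha, ha']

lemma smul_mem {w : Fin 2 → F} (hw : w ∈ K.rspan x y) {k : F} (hk : K.σ k = k) :
    k • w ∈ K.rspan x y := by
  obtain ⟨a, ha, b, hb, rfl⟩ := hw
  refine ⟨k * a, ?_, k * b, ?_, by rw [smul_add, smul_smul, smul_smul]⟩
  · show K.σ (k * a) = k * a
    rw [map_mul, hk, show K.σ a = a from ha]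
  · show K.σ (k * b) = k * b
    rw [map_mul, hk, show K.σ b = b from hb]

end Hyp

namespace UC

/-- The group acts freely on anisotropic vectors. -/
theorem eq_one_of_fix_aniso {z : Fin 2 → F} (hz : K.fm 2 z z ≠ 0) {g : K.G 2}
    (hg : ap (g : GL (Fin 2) F) z = z) : g = 1 := by
  have hf := K.skewForm 2
  have hz0 : z ≠ 0 := fun e => hz (by rw [e, zero_left hf])
  have hW : Cfsg.Geo.IsNondegenerateOn (K.fm 2) (Submodule.span F {z}) := by
    intro t ht ht0
    obtain ⟨r, rfl⟩ := Submodule.mem_span_singleton.1 ht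
    refine ⟨⟨z, Submodule.mem_span_singleton_self z, ?_⟩,
      ⟨z, Submodule.mem_span_singleton_self z, ?_⟩⟩ <;>
    · have hr : r ≠ 0 := fun h => ht0 (by rw [h, zero_smul])
      simp [hf.smul_left, smul_right hf, hr, hz]
  have h1 := finrank_add_perp hf hW
  rw [finrank_span_singleton hz0, Fintype.card_fin] at h1
  obtain ⟨y, hy, hyy⟩ := exists_anisotropic hf (perp_nondegenerate hf hW) fun hb => by
    rw [hb, finrank_bot] at h1; omega
  have hy0 : y ≠ 0 := fun e => hyy (by rw [e, zero_left hf])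
  have hspan : ∀ w, w ∈ perp hf (Submodule.span F {z}) → ∃ r : F, w = r • y := by
    have hfr : Module.finrank F (perp hf (Submodule.span F {z})) = 1 := by omega
    intro w hw
    obtain ⟨r, hr⟩ := (finrank_eq_one_iff_of_nonzero' (⟨y, hy⟩ : perp hf (Submodule.span F {z}))
      (fun e => hy0 (congrArg Subtype.val e))).1 hfr ⟨w, hw⟩
    exact ⟨r, (congrArg Subtype.val hr).symm⟩
  have hyz : K.fm 2 y z = 0 := (mem_perp_span hf).1 hy
  obtain ⟨k, hk⟩ := hspan (ap (g : GL (Fin 2) F) y) ((mem_perp_span hf).2 (by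
    conv_lhs => rw [← hg]
    rw [K.fm_ap, hyz]))
  set φ : (Fin 2 → F) →ₗ[F] F := ((k - 1) / K.fm 2 y y) • fl hf y with hφ
  have hap : ∀ w, ap (g : GL (Fin 2) F) w = w + φ w • y := by
    intro w
    set α := K.fm 2 w z / K.fm 2 z z
    obtain ⟨r, hr⟩ := hspan (w - α • z) ((mem_perp_span hf).2 (by
      rw [sub_left hf, hf.smul_left, div_mul_cancel₀ _ hz, sub_self]))
    have hw : w = α • z + r • y := by rw [← hr, add_sub_cancel]
    have hzy : K.fm 2 z y = 0 := (eq_zero_comm hf).1 hyz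
    conv_lhs => rw [hw, ap_add, ap_smul, ap_smul, hg, hk]
    rw [hw]
    simp only [hφ, LinearMap.smul_apply, fl_apply, hf.add_left, hf.smul_left, hzy, smul_eq_mul,
      mul_zero, zero_add]
    rw [show (k - 1) / K.fm 2 y y * (r * K.fm 2 y y) = (k - 1) * r by field_simp]
    module
  have hdet := det_of_ap (g : GL (Fin 2) F) y φ hap
  rw [(mem_specialLinear_iff _).1 g.2.2] at hdet
  have hk1 : k = 1 := by
    simp only [hφ, LinearMap.smul_apply, fl_apply, smul_eq_mul] at hdet
    rw [div_mul_cancel₀ _ hyy] at hdet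
    linear_combination -hdet
  refine K.g_ext fun w => ?_
  rw [hap, hφ, hk1, Subgroup.coe_one, ap_one]
  simp

/-- An orbit covers the regular orbits of the anisotropic vectors of its members. -/
theorem card_L_le (A : AddSubgroup (Fin 2 → F)) {z : Fin 2 → F} (hzA : z ∈ A)
    (hz : K.fm 2 z z ≠ 0) : Nat.card (K.G 2) ≤ Nat.card (K.orb A) * K.nAni A := by
  classical
  have : Finite (AddSubgroup (Fin 2 → F)) := Finite.of_injective _ SetLike.coe_injective
  have := Fintype.ofFinite (K.orb A)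
  have h1 : Nat.card (Σ B : K.orb A, {w : Fin 2 → F // w ∈ B.1 ∧ K.fm 2 w w ≠ 0})
      = Nat.card (K.orb A) * K.nAni A := by
    rw [Nat.card_sigma, Finset.sum_congr rfl (fun (B : K.orb A) _ =>
      show Nat.card {w : Fin 2 → F // w ∈ B.1 ∧ K.fm 2 w w ≠ 0} = K.nAni A by
        obtain ⟨g, hg⟩ := B.2
        refine (Nat.card_congr ((apEquiv (g : GL (Fin 2) F)).toEquiv.subtypeEquiv fun w => ?_)).symm
        show w ∈ A ∧ _ ↔ ap (g : GL (Fin 2) F) w ∈ B.1 ∧ _
        rw [← hg, K.mem_mapSub]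
        exact and_congr_right fun _ => by
          show _ ↔ ¬K.fm 2 (ap (g : GL (Fin 2) F) w) (ap (g : GL (Fin 2) F) w) = 0
          rw [K.fm_ap]), Finset.sum_const, Finset.card_univ, smul_eq_mul,
      Nat.card_eq_fintype_card]
  rw [← h1]
  refine Nat.card_le_card_of_injective (fun g => ⟨⟨K.mapSub g A, g, rfl⟩, ap (g : GL (Fin 2) F) z,
    K.mem_mapSub.2 hzA, by rw [K.fm_ap]; exact hz⟩) fun g g' e => ?_
  have e' : ap (g : GL (Fin 2) F) z = ap (g' : GL (Fin 2) F) z :=
    congrArg (fun t => (t.2 : Fin 2 → F)) e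
  refine (inv_mul_eq_one.1 (K.eq_one_of_fix_aniso hz (g := g'⁻¹ * g) ?_)).symm
  rw [Subgroup.coe_mul, ap_mul, e', Subgroup.coe_inv, ap_inv_ap]

/-- Two values contribute twice. -/
theorem two_card_L_le (A : AddSubgroup (Fin 2 → F)) {z z' : Fin 2 → F} (hzA : z ∈ A) (hzA' : z' ∈ A)
    (hz : K.fm 2 z z ≠ 0) (hz' : K.fm 2 z' z' ≠ 0) (hne : K.fm 2 z z ≠ K.fm 2 z' z') :
    2 * Nat.card (K.G 2) ≤ Nat.card (K.orb A) * K.nAni A := by
  classical
  have : Finite (AddSubgroup (Fin 2 → F)) := Finite.of_injective _ SetLike.coe_injective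
  have := Fintype.ofFinite (K.orb A)
  have h1 : Nat.card (Σ B : K.orb A, {w : Fin 2 → F // w ∈ B.1 ∧ K.fm 2 w w ≠ 0})
      = Nat.card (K.orb A) * K.nAni A := by
    rw [Nat.card_sigma, Finset.sum_congr rfl (fun (B : K.orb A) _ =>
      show Nat.card {w : Fin 2 → F // w ∈ B.1 ∧ K.fm 2 w w ≠ 0} = K.nAni A by
        obtain ⟨g, hg⟩ := B.2
        refine (Nat.card_congr ((apEquiv (g : GL (Fin 2) F)).toEquiv.subtypeEquiv fun w => ?_)).symm
        show w ∈ A ∧ _ ↔ ap (g : GL (Fin 2) F) w ∈ B.1 ∧ _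
        rw [← hg, K.mem_mapSub]
        exact and_congr_right fun _ => by
          show _ ↔ ¬K.fm 2 (ap (g : GL (Fin 2) F) w) (ap (g : GL (Fin 2) F) w) = 0
          rw [K.fm_ap]), Finset.sum_const, Finset.card_univ, smul_eq_mul,
      Nat.card_eq_fintype_card]
  rw [← h1, two_mul, ← Nat.card_sum]
  let sel : Bool → {w : Fin 2 → F // w ∈ A ∧ K.fm 2 w w ≠ 0} := fun b =>
    bif b then ⟨z, hzA, hz⟩ else ⟨z', hzA', hz'⟩
  let tag : K.G 2 ⊕ K.G 2 → Bool × K.G 2 := Sum.elim (fun g => (true, g)) fun g => (false, g)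
  refine Nat.card_le_card_of_injective
    (fun t => ⟨⟨K.mapSub (tag t).2 A, (tag t).2, rfl⟩,
      ap ((tag t).2 : GL (Fin 2) F) (sel (tag t).1).1, K.mem_mapSub.2 (sel (tag t).1).2.1,
      by rw [K.fm_ap]; exact (sel (tag t).1).2.2⟩) fun t t' e => ?_
  have htag : Function.Injective tag := by
    rintro (a | a) (b | b) h <;> simp [tag] at h <;> simp [h]
  refine htag ?_
  have e' : ap ((tag t).2 : GL (Fin 2) F) (sel (tag t).1).1
      = ap ((tag t').2 : GL (Fin 2) F) (sel (tag t').1).1 :=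
    congrArg (fun t => (t.2 : Fin 2 → F)) e
  generalize tag t = p at e' ⊢
  generalize tag t' = p' at e' ⊢
  obtain ⟨b, g⟩ := p
  obtain ⟨b', g'⟩ := p'
  have hb : b = b' := by
    have h2 := congrArg (fun v => K.fm 2 v v) e'
    simp only [K.fm_ap] at h2
    cases b <;> cases b' <;> simp [sel] at h2 <;> first | rfl | exact absurd h2 hne | exact absurd h2.symm hne
  subst hb
  refine Prod.ext rfl (inv_mul_eq_one.1 (K.eq_one_of_fix_aniso (sel b).2.2 (g := g'⁻¹ * g) ?_)).symm
  rw [Subgroup.coe_mul, ap_mul, e', Subgroup.coe_inv, ap_inv_ap]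

end UC

end CfsgLib.MinIndexUnit
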