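import Cfsg.Agent.Lib.MinIndex.Unit.Dichotomy
import Cfsg.Agent.Lib.MinIndex.Unit.FourPlane

/-!
The points moved by a transvection group in a small action of the four-dimensional group.
-/

set_option autoImplicit false
set_option linter.unusedSectionVars false

namespace CfsgLib.MinIndexUnit

open CfsgLib.Geometric CfsgLib.Geometric.Unitary CfsgLib.ClassicalForms MulAction
open CfsgLib.MinIndexOrth (perpG card_mul_perpG)

variable {F : Type*} [Field F] [Finite F] {q : ℕ} {K : UC F q}

/-- The determinant of two vectors of the plane. -/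
def dd (v w : Fin 2 → F) : F := v 0 * w 1 - v 1 * w 0

lemma dd_ap (g : K.G 2) (v w : Fin 2 → F) :
    dd (ap (g : GL (Fin 2) F) v) (ap (g : GL (Fin 2) F) w) = dd v w := by
  have h : ((g : GL (Fin 2) F) : Matrix (Fin 2) (Fin 2) F).det = 1 :=
    (mem_specialLinear_iff _).1 g.2.2
  rw [Matrix.det_fin_two] at h
  simp only [dd, ap, Matrix.mulVec, dotProduct, Fin.sum_univ_two]
  linear_combination (v 0 * w 1 - v 1 * w 0) * h

namespace UC

variable (K)

/-- The anisotropic vectors of a subgroup are fewer than its elements. -/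
lemma nAni_lt {m : ℕ} (A : AddSubgroup (Fin m → F)) : K.nAni A + 1 ≤ Nat.card A := by
  rw [K.card_split A]; omega

/-- A subgroup without commutators is closed under the fixed scalars when it is maximal. -/
lemma smul_mem_of_lagrangian {A : AddSubgroup (Fin 2 → F)} (hA : Nat.card A = q ^ 2)
    (hom : ∀ v ∈ A, ∀ w ∈ A, K.om v w = 0) {r : F} (hr : K.σ r = r) {v : Fin 2 → F}
    (hv : v ∈ A) : r • v ∈ A := by
  have hf := K.skewForm 2
  set B := A.map (DistribSMul.toAddMonoidHom (Fin 2 → F) r)
  obtain ⟨lam, hl⟩ := K.exists_lam_top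
  have hB : ∀ x ∈ A ⊔ B, ∀ a ∈ A ⊔ B, K.om x a = 0 := by
    have e1 : ∀ x y : Fin 2 → F, K.om (r • x) y = r * K.om x y := fun x y => by
      simp only [om, hf.smul_left, smul_right hf, hr]; ring
    have e2 : ∀ x y : Fin 2 → F, K.om x (r • y) = r * K.om x y := fun x y => by
      simp only [om, hf.smul_left, smul_right hf, hr]; ring
    intro x hx a ha
    obtain ⟨x1, hx1, _, ⟨x2, hx2, rfl⟩, rfl⟩ := AddSubgroup.mem_sup.1 hx
    obtain ⟨a1, ha1, _, ⟨a2, ha2, rfl⟩, rfl⟩ := AddSubgroup.mem_sup.1 ha
    have split : ∀ p p' t : Fin 2 → F, K.om (p + p') t = K.om p t + K.om p' t := fun p p' t => by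
      simp only [om, add_right hf, hf.add_left]; ring
    have split' : ∀ p t t' : Fin 2 → F, K.om p (t + t') = K.om p t + K.om p t' := fun p t t' => by
      simp only [om, add_right hf, hf.add_left]; ring
    rw [split, split', split']
    show K.om x1 a1 + K.om x1 (r • a2) + (K.om (r • x2) a1 + K.om (r • x2) (r • a2)) = 0
    rw [e1, e1, e2, e2, hom _ hx1 _ ha1, hom _ hx1 _ ha2, hom _ hx2 _ ha1, hom _ hx2 _ ha2]
    ring
  have hle : A ⊔ B ≤ perpG (K.pr lam) (A ⊔ B) := fun x hx a ha => by
    rw [K.pr_apply, hB x hx a ha, mul_zero, AddChar.map_zero_eq_one]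
  have h3 := card_mul_perpG (K.pr_nondeg hl) (A ⊔ B)
  rw [card_fun_fin K.card_eq] at h3
  have h4 : Nat.card (A ⊔ B : AddSubgroup (Fin 2 → F)) ≤ q ^ 2 := by
    refine Nat.mul_self_le_mul_self_iff.1
      (le_trans (Nat.mul_le_mul_left _ (AddSubgroup.card_le_of_le hle)) (le_of_eq ?_))
    rw [h3]; ring
  rw [AddSubgroup.eq_of_le_of_card_ge (le_sup_left (b := B)) (h4.trans (le_of_eq hA.symm))]
  exact AddSubgroup.mem_sup_right ⟨v, hv, rfl⟩

/-- A subgroup of a real form without enough commutators is small in odd characteristic. -/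
lemma card_real_odd (h2 : (2 : F) ≠ 0) {x y : Fin 2 → F} (h : Hyp K x y) {A : AddSubgroup (Fin 2 → F)}
    (hA : A ≤ K.rspan x y) {C : AddSubgroup F} (hC : C < K.fx)
    (hom : ∀ v ∈ A, ∀ w ∈ A, K.om v w ∈ C) : Nat.card A ≤ q := by
  have hf := K.skewForm 2
  obtain ⟨lam, h1, hl⟩ := K.exists_lam hC
  have hsym : ∀ w ∈ K.rspan x y, ∀ w' ∈ K.rspan x y, K.fm 2 w w' = -K.fm 2 w' w := by
    rintro _ ⟨a, ha, b, hb, rfl⟩ _ ⟨a', ha', b', hb', rfl⟩
    simp only [hf.add_left, add_right hf, hf.smul_left, smul_right hf, h.hxx, h.hyy, h.fyx,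
      show K.σ a = a from ha, show K.σ b = b from hb, show K.σ a' = a' from ha',
      show K.σ b' = b' from hb']
    ring
  have hζ : K.σ K.ζ ≠ K.ζ := fun e => by
    rw [K.ζ_skew] at e
    exact K.ζ_ne ((mul_eq_zero.1 (show (2 : F) * K.ζ = 0 by linear_combination -e)).resolve_left h2)
  have h3 := card_mul_perpG (K.pr_nondeg hl) A
  rw [card_fun_fin K.card_eq] at h3
  have hcard : Nat.card (A × K.rspan x y) ≤ Nat.card (perpG (K.pr lam) A) := by
    refine Nat.card_le_card_of_injective (fun p => ⟨p.1.1 + K.ζ • p.2.1, fun a ha => ?_⟩) ?_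
    · show CfsgLib.MinIndexOrth.chi F (lam * K.om (p.1.1 + K.ζ • p.2.1) a) = 1
      have e : K.om (p.1.1 + K.ζ • p.2.1) a = K.om p.1.1 a := by
        have := hsym _ p.2.2 _ (hA ha)
        simp only [om, hf.add_left, add_right hf, hf.smul_left, smul_right hf, K.ζ_skew]
        linear_combination (-K.ζ) * this
      rw [e]
      exact h1 _ (hom _ p.1.2 _ ha)
    · intro p p' e
      have e' : p.1.1 + K.ζ • p.2.1 = p'.1.1 + K.ζ • p'.2.1 := congrArg Subtype.val e
      have h4 : K.ζ • (p.2.1 - p'.2.1) = p'.1.1 - p.1.1 := by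
        rw [smul_sub]; linear_combination (norm := module) e'
      by_cases h5 : p.2.1 - p'.2.1 = 0
      · rw [h5, smul_zero] at h4
        exact Prod.ext (Subtype.ext (sub_eq_zero.1 h4.symm).symm) (Subtype.ext (sub_eq_zero.1 h5))
      · refine absurd (h.real_of_smul_mem (sub_mem p.2.2 p'.2.2) h5 (k := K.ζ) ?_) hζ
        rw [h4]
        exact sub_mem (hA p'.1.2) (hA p.1.2)
  rw [Nat.card_prod, h.card_rspan] at hcard
  have h4 := Nat.mul_le_mul_left (Nat.card A) hcard
  rw [h3] at h4
  refine Nat.mul_self_le_mul_self_iff.1 (Nat.le_of_mul_le_mul_right ?_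
    (show 0 < q ^ 2 from Nat.pow_pos (by have := K.two_le; omega)))
  calc Nat.card A * Nat.card A * q ^ 2 ≤ q ^ (2 * 2) := by rw [mul_assoc]; exact h4
    _ = q * q * q ^ 2 := by ring

lemma three_eq_zero (hq : q = 3) (K : UC F q) : (3 : F) = 0 := by
  have := Fintype.ofFinite F
  have h := FiniteField.cast_card_eq_zero (K := F)
  rw [← Nat.card_eq_fintype_card, K.card_eq, hq] at h
  push_cast at h
  exact (pow_eq_zero_iff (n := 2) (by norm_num)).1 (by linear_combination h)

/-- A fixed scalar whose square is not one. -/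
lemma exists_real_sq (hq : 4 ≤ q) : ∃ r : F, K.σ r = r ∧ r ≠ 0 ∧ r * r ≠ 1 := by
  classical
  by_contra h
  push Not at h
  have hle : Nat.card {x : F // K.σ x = x} ≤ Nat.card (({0, 1, -1} : Finset F) : Set F) :=
    Nat.card_le_card_of_injective (fun x => ⟨x.1, by
      by_cases h0 : x.1 = 0
      · simp [h0]
      · rcases mul_self_eq_one_iff.1 (h x.1 x.2 h0) with e | e <;> simp [e]⟩)
      fun x y e => Subtype.ext (by simpa using congrArg Subtype.val e)
  rw [K.card_fixed, Nat.card_coe_set_eq, Set.ncard_coe_finset] at hle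
  have := Finset.card_le_three (a := (0 : F)) (b := 1) (c := -1)
  omega

/-- The norm-one scalars. -/
lemma card_norm_one : Nat.card {a : F // a * K.σ a = 1} = q + 1 := by
  have h1 : Nat.card {x : Fˣ // x ^ (q + 1) = 1} = q + 1 := by
    rw [card_units_pow_eq_one K.card_eq, Nat.gcd_eq_right (Dvd.intro _ rfl)]
  refine Eq.trans (Nat.card_congr ?_) h1
  exact
    { toFun := fun a => ⟨Units.mk0 a.1 (left_ne_zero_of_mul_eq_one a.2), Units.ext (by
        rw [Units.val_pow_eq_pow_val, Units.val_mk0, ← K.norm_eq_pow, a.2, Units.val_one])⟩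
      invFun := fun x => ⟨(x.1 : F), by
        rw [K.norm_eq_pow, ← Units.val_pow_eq_pow_val, x.2, Units.val_one]⟩
      left_inv := fun a => Subtype.ext rfl
      right_inv := fun x => Subtype.ext (Units.ext rfl) }

end UC

/-- A scalar element on each of the two planes. -/
theorem Frame.exists_scal4 (fr : Frame K 2) {a : F} (ha : a * K.σ a = 1) :
    ∃ g : K.G 4, g ^ (q + 1) = 1 ∧ ap (g : GL (Fin 4) F) fr.u = a • fr.u ∧
      ap (g : GL (Fin 4) F) fr.u' = a • fr.u' ∧
      ∀ w, ap (g : GL (Fin 4) F) (inc w) = inc (a⁻¹ • w) := by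
  have ha0 : a ≠ 0 := left_ne_zero_of_mul_eq_one ha
  obtain ⟨g, hg, hpow⟩ := K.exists_diag (Fin.cons a (Fin.cons a fun _ : Fin 2 => a⁻¹))
    (fun i => by
      refine Fin.cases ?_ (fun j => ?_) i
      · simpa using ha
      · refine Fin.cases ?_ (fun l => ?_) j
        · simpa using ha
        · simp only [Fin.cons_succ, map_inv₀, ← mul_inv, ha, inv_one])
    (by simp [Fin.prod_univ_succ]; field_simp)
  refine ⟨g, hpow, ?_, ?_, fun w => ?_⟩
  · rw [hg]; exact cons_mul_tail a _ fr.tail_u
  · rw [hg]; exact cons_mul_tail a _ fr.tail_u'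
  · rw [hg]; exact cons_mul_inc a _ w

namespace Frame

variable (fr : Frame K 2) {Ω : Type*} [MulAction (K.G 4) Ω]

/-- The subgroups occurring at a given parameter group. -/
def vals (Ω : Type*) [MulAction (K.G 4) Ω] (C : AddSubgroup F) : Set (AddSubgroup (Fin 2 → F)) :=
  (fun y : Ω => fr.ab y) '' {y | fr.cz y = C}

/-- Conjugation of root elements. -/
lemma proj_conj4 {g : K.G 4} {a : F} (hg : ap (g : GL (Fin 4) F) fr.u = a • fr.u)
    {G : (Fin 2 → F) → Fin 2 → F} (hG : ∀ w, ap (g : GL (Fin 4) F) (inc w) = inc (G w))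
    {r : K.G 4} (hr : r ∈ fr.U) :
    g * r * g⁻¹ ∈ fr.U ∧ fr.proj (g * r * g⁻¹) = K.σ a • G (fr.proj r) := by
  obtain ⟨x, c, hx, hc, e⟩ := id hr
  have hf := K.skewForm (2 + 2)
  set x' := K.σ a • ap (g : GL (Fin 4) F) x with hx'
  have e' : ∀ t, ap ((g * r * g⁻¹ : K.G 4) : GL (Fin 4) F) t
      = t + K.fm _ t fr.u • x' + K.fm _ t x' • fr.u + ((a * K.σ a * c) * K.fm _ t fr.u) • fr.u := by
    intro t
    obtain ⟨t, rfl⟩ : ∃ t', ap (g : GL (Fin 4) F) t' = t := ⟨_, ap_ap_inv _ t⟩
    have h1 : K.fm _ t fr.u = K.σ a * K.fm _ (ap (g : GL (Fin 4) F) t) fr.u := by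
      rw [← K.fm_ap g t fr.u, hg, smul_right hf]
    have h2 : K.fm _ (ap (g : GL (Fin 4) F) t) (K.σ a • ap (g : GL (Fin 4) F) x)
        = a * K.fm _ t x := by
      rw [smul_right hf, K.invol, K.fm_ap]
    simp only [Subgroup.coe_mul, Subgroup.coe_inv, ap_mul, ap_inv_ap, e, ap_add, ap_smul, hg, h1,
      hx', h2]
    module
  have hxu : K.fm _ x' fr.u = 0 := by
    have h1 := K.fm_ap g x fr.u
    rw [hg, smul_right hf, hx] at h1
    rw [hx', hf.smul_left]
    exact h1
  have hcc : a * K.σ a * c - K.σ (a * K.σ a * c) = K.fm _ x' x' := by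
    rw [hx', hf.smul_left, smul_right hf, K.invol, K.fm_ap, ← hc, map_mul, map_mul, K.invol]
    ring
  refine ⟨⟨x', _, hxu, hcc, e'⟩, ?_⟩
  · rw [fr.proj_eq e', fr.proj_eq e, hx', tail2_smul]
    obtain ⟨b, hb⟩ := fr.perp_eq x hx
    conv_lhs => rw [hb]
    rw [ap_add, ap_smul, hg, hG, tail2_add, tail2_smul, tail2_smul, fr.tail_u, tail2_inc, smul_zero,
      smul_zero, zero_add]

/-- Transport of the invariant. -/
lemma mem_ab_smul {g : K.G 4} {a : F} (hg : ap (g : GL (Fin 4) F) fr.u = a • fr.u)
    {G : (Fin 2 → F) → Fin 2 → F} (hG : ∀ w, ap (g : GL (Fin 4) F) (inc w) = inc (G w))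
    {z : Ω} {w : Fin 2 → F} (hw : w ∈ fr.ab z) : K.σ a • G w ∈ fr.ab (g • z) := by
  obtain ⟨r, hr, rz, rfl⟩ := hw
  refine ⟨g * r * g⁻¹, (fr.proj_conj4 hg hG hr).1, ?_, (fr.proj_conj4 hg hG hr).2⟩
  rw [mul_smul, inv_smul_smul, mul_smul, rz]

/-- The scalar element scales the invariant. -/
lemma ab_scal {g : K.G 4} {a : F} (ha : a * K.σ a = 1)
    (hg : ap (g : GL (Fin 4) F) fr.u = a • fr.u)
    (hgi : ∀ w, ap (g : GL (Fin 4) F) (inc w) = inc (a⁻¹ • w)) (z : Ω) :
    fr.cz (g • z) = fr.cz z ∧ ∀ w, (a⁻¹ * a⁻¹) • w ∈ fr.ab (g • z) ↔ w ∈ fr.ab z := by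
  have ha0 : a ≠ 0 := left_ne_zero_of_mul_eq_one ha
  have hσ : K.σ a = a⁻¹ := eq_inv_of_mul_eq_one_right ha
  refine ⟨?_, fun w => ⟨fun h => ?_, fun h => ?_⟩⟩
  · rw [fr.cz_smul ha0 hg, ha]
    ext c; simp [AddSubgroup.mem_map]
  · have hg' : ap ((g⁻¹ : K.G 4) : GL (Fin 4) F) fr.u = a⁻¹ • fr.u := by
      rw [Subgroup.coe_inv, eq_inv_smul_iff₀ ha0, ← ap_smul, ← hg, ap_inv_ap]
    have hgi' : ∀ w, ap ((g⁻¹ : K.G 4) : GL (Fin 4) F) (inc w) = inc (a • w) := fun w => by
      apply ap_injective (g : GL (Fin 4) F)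
      rw [Subgroup.coe_inv, ap_ap_inv, hgi, inv_smul_smul₀ ha0]
    have h1 := fr.mem_ab_smul hg' hgi' h
    rw [inv_smul_smul, smul_smul, smul_smul, map_inv₀, hσ, inv_inv,
      show a * a * (a⁻¹ * a⁻¹) = 1 by field_simp, one_smul] at h1
    exact h1
  · have h1 := fr.mem_ab_smul hg hgi h
    rwa [hσ, smul_smul] at h1

lemma mem_vals_orb {z : Ω} {B : AddSubgroup (Fin 2 → F)} (hB : B ∈ K.orb (fr.ab z)) :
    B ∈ fr.vals Ω (fr.cz z) := by
  obtain ⟨g, rfl⟩ := hB
  exact ⟨K.embHom 2 g • z, (fr.emb_smul g z).2, (fr.emb_smul g z).1⟩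

variable [Finite Ω]

/-- The points with a given parameter group, through the occurring subgroups. -/
theorem vals_bound {C : AddSubgroup F} {ι : Type*} [Finite ι] (v : ι → AddSubgroup (Fin 2 → F))
    (hv : Function.Injective v) (hmem : ∀ i, v i ∈ fr.vals Ω C) {s : ℕ}
    (hs : ∀ i, Nat.card (v i) ≤ s) :
    Nat.card ι * q ^ 5 ≤ Nat.card {y : Ω // fr.cz y = C} * (s * Nat.card C) := by
  classical
  have := Fintype.ofFinite ι
  choose y hy hyv using hmem
  have h1 : ∀ i, q ^ 5 ≤ Nat.card (orbit fr.U (y i)) * (s * Nat.card C) := fun i => by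
    rw [← show 2 * 2 + 1 = 5 from rfl, ← fr.card_orbit (y i), show fr.cz (y i) = C from hy i,
      show fr.ab (y i) = v i from hyv i]
    exact Nat.mul_le_mul_left _ (Nat.mul_le_mul_right _ (hs i))
  have h2 : ∑ i, Nat.card (orbit fr.U (y i)) ≤ Nat.card {y : Ω // fr.cz y = C} := by
    rw [← Nat.card_sigma]
    refine Nat.card_le_card_of_injective (fun p => ⟨p.2.1, ?_⟩) fun p p' e => ?_
    · exact ((fr.inv_of_mem_orbit p.2.2).2).trans (hy p.1)
    · have e' : p.2.1 = p'.2.1 := congrArg Subtype.val e
      obtain ⟨i, w, hw⟩ := p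
      obtain ⟨j, w', hw'⟩ := p'
      simp only at e'
      subst e'
      have : i = j := hv (by
        have a1 := (fr.inv_of_mem_orbit hw).1
        have a2 := (fr.inv_of_mem_orbit hw').1
        exact (hyv i).symm.trans ((a1.symm.trans a2).trans (hyv j)))
      subst this
      rfl
  calc Nat.card ι * q ^ 5 = ∑ _i : ι, q ^ 5 := by
        rw [Finset.sum_const, Finset.card_univ, smul_eq_mul, Nat.card_eq_fintype_card]
    _ ≤ ∑ i, Nat.card (orbit fr.U (y i)) * (s * Nat.card C) := Finset.sum_le_sum fun i _ => h1 i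
    _ = (∑ i, Nat.card (orbit fr.U (y i))) * (s * Nat.card C) := (Finset.sum_mul _ _ _).symm
    _ ≤ _ := Nat.mul_le_mul_right _ h2

/-- A non-trivial parameter group has many images. -/
theorem card_classes {C : AddSubgroup F} (hC : C < K.fx) (hC0 : C ≠ ⊥) :
    (Nat.card C + 1) * Nat.card {y : Ω // fr.cz y = C} ≤ Nat.card Ω := by
  classical
  have : Finite (AddSubgroup F) := Finite.of_injective _ SetLike.coe_injective
  set T : Set (AddSubgroup F) :=
    (fun N : F => C.map (AddMonoidHom.mulLeft N)) '' {N | K.σ N = N ∧ N ≠ 0}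
  let k : AddSubgroup F :=
    { carrier := {N | K.σ N = N ∧ ∀ c ∈ C, N * c ∈ C}
      zero_mem' := ⟨map_zero _, fun c _ => by rw [zero_mul]; exact zero_mem _⟩
      add_mem' := fun {a b} ha hb =>
        ⟨by rw [map_add, ha.1, hb.1], fun c hc => by rw [add_mul]; exact add_mem (ha.2 c hc) (hb.2 c hc)⟩
      neg_mem' := fun {a} ha =>
        ⟨by rw [map_neg, ha.1], fun c hc => by rw [neg_mul]; exact neg_mem (ha.2 c hc)⟩ }
  obtain ⟨y0, hy0, hy0C⟩ := SetLike.exists_of_lt hC
  have hy00 : y0 ≠ 0 := fun e => hy0C (e ▸ zero_mem _)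
  have hCk : Nat.card C * Nat.card k ≤ q := by
    rw [← Nat.card_prod]
    refine le_of_le_of_eq ?_ K.card_fx
    refine Nat.card_le_card_of_injective
      (fun p : C × k => (⟨p.1.1 + p.2.1 * y0, add_mem (hC.le p.1.2) (show K.σ (p.2.1 * y0) = _ by
        rw [map_mul, p.2.2.1, show K.σ y0 = y0 from hy0])⟩ : K.fx)) fun p p' e => ?_
    have e' : p.1.1 + p.2.1 * y0 = p'.1.1 + p'.2.1 * y0 := congrArg Subtype.val e
    by_cases hN : p.2.1 - p'.2.1 = 0
    · have h2 := sub_eq_zero.1 hN
      rw [h2, add_left_inj] at e'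
      exact Prod.ext (Subtype.ext e') (Subtype.ext h2)
    · exfalso
      have hmem : (p.2.1 - p'.2.1) * y0 ∈ C := by
        rw [show (p.2.1 - p'.2.1) * y0 = p'.1.1 - p.1.1 by linear_combination e']
        exact sub_mem p'.1.2 p.1.2
      have hk := (sub_mem p.2.2 p'.2.2 : p.2.1 - p'.2.1 ∈ k)
      let μ : C → C := fun c => ⟨(p.2.1 - p'.2.1) * c.1, hk.2 c.1 c.2⟩
      have hμ : Function.Injective μ := fun c c' e =>
        Subtype.ext (mul_left_cancel₀ hN (congrArg Subtype.val e))
      obtain ⟨c, hc⟩ := (Finite.injective_iff_surjective.1 hμ) ⟨_, hmem⟩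
      exact hy0C (mul_left_cancel₀ hN (congrArg Subtype.val hc) ▸ c.2)
  -- the number of images
  let X := {N : F // K.σ N = N ∧ N ≠ 0}
  let φ : X → T := fun N => ⟨_, N.1, N.2, rfl⟩
  have hX : Nat.card X + 1 = q := by
    rw [← K.card_fx, ← Finite.card_option]
    exact Nat.card_congr
      { toFun := fun o => o.elim ⟨0, map_zero _⟩ fun N => ⟨N.1, N.2.1⟩
        invFun := fun c => if h : (c : F) = 0 then none else some ⟨c.1, c.2, h⟩
        left_inv := fun o => by cases o with
          | none => simp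
          | some N => simp [N.2.2]
        right_inv := fun c => by
          by_cases h : (c : F) = 0
          · simp [h]; exact Subtype.ext h.symm
          · simp [h] }
  have hfib : ∀ b : T, Nat.card {N : X // φ N = b} + 1 ≤ Nat.card k := by
    intro b
    rcases isEmpty_or_nonempty {N : X // φ N = b} with h | ⟨⟨N0, hN0⟩⟩
    · simp only [Nat.card_of_isEmpty, zero_add]
      exact Nat.card_pos
    rw [← Finite.card_option]
    refine Nat.card_le_card_of_injective (fun o => o.elim 0 fun N => ⟨N.1.1 / N0.1, ?_, ?_⟩) ?_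
    · rw [map_div₀, N.1.2.1, N0.2.1]
    · intro c hc
      obtain ⟨d, hd, e⟩ := (congrArg Subtype.val (N.2.trans hN0.symm)).le ⟨c, hc, rfl⟩
      have h2 : N0.1 * d = N.1.1 * c := e
      rw [div_mul_eq_mul_div, ← h2, mul_div_cancel_left₀ _ N0.2.2]
      exact hd
    · rintro (_ | N) (_ | N') e
      · rfl
      · exact absurd (congrArg Subtype.val e).symm (div_ne_zero N'.1.2.2 N0.2.2)
      · exact absurd (congrArg Subtype.val e) (div_ne_zero N.1.2.2 N0.2.2)
      · have e' : N.1.1 / N0.1 = N'.1.1 / N0.1 := congrArg Subtype.val e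
        rw [div_left_inj' N0.2.2] at e'
        exact congrArg some (Subtype.ext (Subtype.ext e'))
  have hk1 : 0 < Nat.card k := Nat.card_pos
  obtain ⟨k', hk'⟩ : ∃ k', Nat.card k = k' + 1 := ⟨Nat.card k - 1, by omega⟩
  have h1 : Nat.card X ≤ Nat.card T * k' := by
    have := Fintype.ofFinite T
    rw [← Nat.card_congr (Equiv.sigmaFiberEquiv φ), Nat.card_sigma]
    refine (Finset.sum_le_sum fun b _ => (show Nat.card {N : X // φ N = b} ≤ k' by
      have := hfib b; omega)).trans (le_of_eq ?_)
    rw [Finset.sum_const, Finset.card_univ, smul_eq_mul, Nat.card_eq_fintype_card]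
  have hc2 : 2 ≤ Nat.card C := AddSubgroup.one_lt_card_iff_ne_bot C |>.2 hC0
  have hT : Nat.card C < Nat.card T := by
    by_contra h
    push Not at h
    have := Nat.mul_le_mul_right k' h
    rw [hk', mul_add, mul_one] at hCk
    omega
  refine (Nat.mul_le_mul_right _ hT).trans ?_
  refine card_mul_le_of_fibres (fun y : Ω => fr.cz y) T _ ?_
  rintro _ ⟨N, ⟨hN, hN0⟩, rfl⟩
  obtain ⟨a, ha⟩ := Unitary.exists_norm (K.skewForm (2 + 2)) hN
  have ha0 : a ≠ 0 := fun h => hN0 (by rw [← ha, h, zero_mul])
  obtain ⟨g, hg⟩ := K.exists_move_iso (by omega) fr.hu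
    (isotropic_smul (K.skewForm _) fr.hu a) fr.u_ne (smul_ne_zero ha0 fr.u_ne)
  refine Nat.card_le_card_of_injective (fun y => ⟨g • y.1, ?_⟩) fun y y' e =>
    Subtype.ext (smul_left_cancel g (congrArg Subtype.val e))
  show fr.cz (g • y.1) = _
  rw [fr.cz_smul ha0 hg, y.2, ha]

/-- The two shapes. -/
def IsLine (A : AddSubgroup (Fin 2 → F)) : Prop :=
  ∃ x : Fin 2 → F, x ≠ 0 ∧ K.fm 2 x x = 0 ∧ ∀ w, w ∈ A ↔ ∃ c : F, w = c • x

/-- The real shape. -/
def IsReal (A : AddSubgroup (Fin 2 → F)) : Prop :=
  (2 : F) = 0 ∧ ∃ x y : Fin 2 → F, Hyp K x y ∧ A = K.rspan x y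

include fr in
/-- The structure of the points moved by the transvection group. -/
theorem moved_structure (hΩ : Nat.card Ω < (q + 1) * (q ^ 3 + 1)) {z : Ω} (hz : fr.cz z ≠ K.fx) :
    fr.cz z = ⊥ ∧ Nat.card (fr.ab z) = q ^ 2 ∧
      (IsLine (K := K) (fr.ab z) ∨ IsReal (K := K) (fr.ab z)) ∧
      (q + 1) * q ^ 3 ≤ Nat.card {y : Ω // fr.cz y = (⊥ : AddSubgroup F)} ∧
      q + 1 ≤ Nat.card (fr.vals Ω (⊥ : AddSubgroup F)) := by
  classical
  have : Finite (AddSubgroup (Fin 2 → F)) := Finite.of_injective _ SetLike.coe_injective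
  have hq := K.two_le
  have hf := K.skewForm 2
  set C := fr.cz z with hC
  set A := fr.ab z with hA
  set s := Nat.card A with hs
  have hClt : C < K.fx := lt_of_le_of_ne (fr.cz_le z) hz
  have hs2 : s ≤ q ^ 2 := fr.card_ab_le z hz
  have hdvd : s ∣ q ^ 4 := fr.card_ab_dvd z
  have hN : (q + 1) * (q ^ 3 + 1) ≤ (q + 2) * q ^ 3 := by
    have h1 : (q + 1) * (q ^ 3 + 1) = (q + 1) * q ^ 3 + (q + 1) := by ring
    have h2 : (q + 2) * q ^ 3 = (q + 1) * q ^ 3 + q ^ 3 := by ring
    have h3 : q + 1 ≤ q ^ 3 := by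
      calc q + 1 ≤ q * q := by nlinarith
        _ ≤ q ^ 3 := by rw [← pow_two]; exact Nat.pow_le_pow_right (by omega) (by omega)
    omega
  have h1s : 1 < s := by
    by_contra h
    push Not at h
    have hb := fr.moved_bound (by omega) hz (B := 1) fun z' _ _ =>
      @Finite.card_pos _ _ ⟨⟨_, K.mem_orb_self (fr.ab z')⟩⟩
    have h2 : Nat.card {y : Ω // fr.cz y ≠ K.fx} ≤ Nat.card Ω := Finite.card_subtype_le _
    have h3 := hb.trans (Nat.mul_le_mul h2 h)
    have h4 : (q + 2) * q ^ 3 ≤ q ^ (2 * 2 + 1) := by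
      calc (q + 2) * q ^ 3 ≤ q * q * q ^ 3 := Nat.mul_le_mul_right _ (by nlinarith)
        _ = _ := by ring
    omega
  have hom : ∀ v ∈ A, ∀ w ∈ A, K.om v w ∈ C := fun v hv w hw => fr.om_mem_cz hv hw
  -- the number of occurring subgroups
  set n := Nat.card (fr.vals Ω C) with hn
  have horb : Nat.card (K.orb A) ≤ n :=
    Nat.card_le_card_of_injective (fun B => ⟨B.1, fr.mem_vals_orb B.2⟩)
      fun B B' e => Subtype.ext (congrArg (fun t => t.1) e)
  have hbound : ∀ {ι : Type} [Finite ι] (v : ι → AddSubgroup (Fin 2 → F)), Function.Injective v →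
      (∀ i, v i ∈ fr.vals Ω C) → (∀ i, Nat.card (v i) = s) →
      Nat.card ι * q ^ 5 ≤ Nat.card {y : Ω // fr.cz y = C} * (s * Nat.card C) :=
    fun v hv hm hc => fr.vals_bound v hv hm fun i => (hc i).le
  have horb' : Nat.card (K.orb A) * q ^ 5 ≤ Nat.card {y : Ω // fr.cz y = C} * (s * Nat.card C) :=
    fr.vals_bound (fun B : K.orb A => B.1) Subtype.val_injective (fun B => fr.mem_vals_orb B.2)
      fun B => by
        obtain ⟨g, hg⟩ := B.2
        rw [← hg, K.card_mapSub]
  -- strong or weak
  suffices hsw : (∃ j, (q + 2) * s ≤ j * q ^ 2 ∧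
        j * q ^ 5 ≤ Nat.card {y : Ω // fr.cz y = C} * (s * Nat.card C)) ∨
      (s = q ^ 2 ∧ (∃ j, q ≤ j ∧
          j * q ^ 5 ≤ Nat.card {y : Ω // fr.cz y = C} * (s * Nat.card C) ∧
          (C = ⊥ → (IsLine (K := K) A ∨ IsReal (K := K) A) ∧ q + 1 ≤ j ∧ q + 1 ≤ n))) by
    have hWpos : q * s * q ^ 3 ≤ Nat.card {y : Ω // fr.cz y = C} * (s * Nat.card C) := by
      rcases hsw with ⟨j, hj, hb⟩ | ⟨hs', j, hj, hb, -⟩
      · calc q * s * q ^ 3 ≤ (q + 2) * s * q ^ 3 :=
              Nat.mul_le_mul_right _ (Nat.mul_le_mul_right _ (by omega))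
          _ ≤ j * q ^ 2 * q ^ 3 := Nat.mul_le_mul_right _ hj
          _ = j * q ^ 5 := by ring
          _ ≤ _ := hb
      · calc q * s * q ^ 3 = q * q ^ 5 := by rw [hs']; ring
          _ ≤ j * q ^ 5 := Nat.mul_le_mul_right _ hj
          _ ≤ _ := hb
    have hC0 : C = ⊥ := by
      by_contra hC0
      have h2 := fr.card_classes (Ω := Ω) hClt hC0
      have h3 : q ^ 4 ≤ Nat.card {y : Ω // fr.cz y = C} * Nat.card C := by
        refine Nat.le_of_mul_le_mul_right ?_ (show 0 < s by omega)
        calc q ^ 4 * s = q * s * q ^ 3 := by ring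
          _ ≤ Nat.card {y : Ω // fr.cz y = C} * (s * Nat.card C) := hWpos
          _ = _ := by ring
      have hd1 : Nat.card C ∣ q ^ 1 := by
        rw [pow_one]
        calc Nat.card C ∣ Nat.card K.fx := AddSubgroup.card_dvd_of_le (fr.cz_le z)
          _ = q := K.card_fx
      have hlt : Nat.card C < q ^ 1 := by
        rw [pow_one]
        exact lt_of_lt_of_eq (Set.Finite.card_lt_card (Set.toFinite _)
          (SetLike.coe_ssubset_coe.2 hClt)) K.card_fx
      have h4 := K.two_mul_le hd1 hlt
      rw [pow_one] at h4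
      have hpos : 0 < Nat.card C := Nat.card_pos
      have h6 : (q + 2) * q ^ 3 * Nat.card C ≤ (Nat.card C + 1) * q ^ 4 := by
        calc (q + 2) * q ^ 3 * Nat.card C = Nat.card C * q ^ 4 + 2 * Nat.card C * q ^ 3 := by ring
          _ ≤ Nat.card C * q ^ 4 + q * q ^ 3 := by
            gcongr
          _ = _ := by ring
      have h7 : (Nat.card C + 1) * q ^ 4 ≤ Nat.card Ω * Nat.card C :=
        calc (Nat.card C + 1) * q ^ 4
            ≤ (Nat.card C + 1) * (Nat.card {y : Ω // fr.cz y = C} * Nat.card C) :=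
              Nat.mul_le_mul_left _ h3
          _ = (Nat.card C + 1) * Nat.card {y : Ω // fr.cz y = C} * Nat.card C := by ring
          _ ≤ _ := Nat.mul_le_mul_right _ h2
      have h8 := Nat.le_of_mul_le_mul_right (h6.trans h7) hpos
      omega
    have hcard : Nat.card C = 1 := by rw [hC0]; exact AddSubgroup.card_bot
    have hle : Nat.card {y : Ω // fr.cz y = C} ≤ Nat.card Ω := Finite.card_subtype_le _
    rcases hsw with ⟨j, hj, hb⟩ | ⟨hs', j, -, hb, hshape⟩
    · exfalso
      rw [hcard, mul_one] at hb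
      have h5 : (q + 2) * q ^ 3 ≤ Nat.card {y : Ω // fr.cz y = C} := by
        refine Nat.le_of_mul_le_mul_right ?_ (show 0 < s by omega)
        calc (q + 2) * q ^ 3 * s = (q + 2) * s * q ^ 3 := by ring
          _ ≤ j * q ^ 2 * q ^ 3 := Nat.mul_le_mul_right _ hj
          _ = j * q ^ 5 := by ring
          _ ≤ _ := hb
      omega
    · obtain ⟨hsh, hj1, hn1⟩ := hshape hC0
      refine ⟨hC0, hs', hsh, ?_, by rw [← hC0]; exact hn1⟩
      rw [hcard, mul_one, hs'] at hb
      rw [← hC0]
      refine Nat.le_of_mul_le_mul_right ?_ (show 0 < q ^ 2 from Nat.pow_pos (by omega))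
      calc (q + 1) * q ^ 3 * q ^ 2 = (q + 1) * q ^ 5 := by ring
        _ ≤ j * q ^ 5 := Nat.mul_le_mul_right _ hj1
        _ ≤ _ := hb
  -- classification
  have half : s ≠ q ^ 2 → 2 * s ≤ q ^ 2 := fun h => K.two_mul_le hdvd (lt_of_le_of_ne hs2 h)
  by_cases hani : ∃ v ∈ A, K.fm 2 v v ≠ 0
  · -- an anisotropic vector
    obtain ⟨v, hv, hvv⟩ := hani
    obtain ⟨x, hx0, hxx⟩ := K.exists_iso_two
    obtain ⟨y, hxy, -⟩ := K.exists_hyp hxx hx0
    have hL := hxy.card_L
    have hLA := K.card_L_le A hv hvv
    have hna := K.nAni_lt A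
    by_cases hsq : s = q ^ 2
    · have hγ : q ≤ Nat.card (K.orb A) := by
        refine Nat.le_of_mul_le_mul_right ((hL.trans hLA).trans (Nat.mul_le_mul_left _ ?_))
          (show 0 < q ^ 2 - 1 by have : 4 ≤ q ^ 2 := (by nlinarith); omega)
        omega
      by_cases hC0 : C = ⊥
      · -- no such subgroup
        left
        have hA0 : ∀ v ∈ A, ∀ w ∈ A, K.om v w = 0 := fun v hv w hw => by
          have := hom v hv w hw
          rw [hC0] at this
          exact AddSubgroup.mem_bot.1 this
        by_cases htwo : ∃ v' ∈ A, K.fm 2 v' v' ≠ 0 ∧ K.fm 2 v v ≠ K.fm 2 v' v'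
        · obtain ⟨v', hv', hv'', hne⟩ := htwo
          refine ⟨Nat.card (K.orb A), ?_, horb'⟩
          have h2 := (Nat.mul_le_mul_left 2 hL).trans (K.two_card_L_le A hv hv' hvv hv'' hne)
          have h3 : 2 * q ≤ Nat.card (K.orb A) := by
            refine Nat.le_of_mul_le_mul_right (?_ : 2 * q * (q ^ 2 - 1) ≤ _ * (q ^ 2 - 1))
              (show 0 < q ^ 2 - 1 by have : 4 ≤ q ^ 2 := (by nlinarith); omega)
            rw [mul_assoc]
            exact h2.trans (Nat.mul_le_mul_left _ (by omega))
          rw [hsq]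
          exact Nat.mul_le_mul_right _ (by omega)
        push Not at htwo
        have hval : ∀ w ∈ A, K.fm 2 w w = 0 ∨ K.fm 2 w w = K.fm 2 v v := fun w hw => by
          by_cases h0 : K.fm 2 w w = 0
          · exact Or.inl h0
          · exact Or.inr (htwo w hw h0).symm
        have hsc : ∀ r, K.σ r = r → ∀ w ∈ A, r • w ∈ A := fun r hr w hw =>
          K.smul_mem_of_lagrangian (hs ▸ hsq) hA0 hr hw
        have hsym : ∀ w ∈ A, ∀ w' ∈ A, K.fm 2 w w' = K.fm 2 w' w := fun w hw w' hw' => by
          have := hA0 w hw w' hw'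
          rw [UC.om, sub_eq_zero] at this
          exact this.symm
        obtain h4 | h3 | h2 : 4 ≤ q ∨ q = 3 ∨ q = 2 := by omega
        · exfalso
          obtain ⟨r, hr, hr0, hr1⟩ := K.exists_real_sq h4
          have := hval _ (hsc r hr v hv)
          rw [hf.smul_left, smul_right hf, hr, ← mul_assoc] at this
          rcases this with e | e
          · exact mul_ne_zero (mul_ne_zero hr0 hr0) hvv e
          · exact hr1 (mul_right_cancel₀ hvv (e.trans (one_mul _).symm))
        · exfalso
          have h30 := UC.three_eq_zero h3 K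
          obtain ⟨y1, hy1, hyne⟩ : ∃ y1 ∈ A, ∀ r, K.σ r = r → y1 ≠ r • v := by
            by_contra h
            push Not at h
            have hle : Nat.card A ≤ q := by
              refine le_of_le_of_eq ?_ K.card_fixed
              refine Nat.card_le_card_of_injective (fun w : A => ⟨(h w.1 w.2).choose,
                (h w.1 w.2).choose_spec.1⟩) fun w w' e => Subtype.ext ?_
              rw [(h w.1 w.2).choose_spec.2, (h w'.1 w'.2).choose_spec.2,
                show (h w.1 w.2).choose = (h w'.1 w'.2).choose from congrArg Subtype.val e]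
            rw [← hs, hsq] at hle
            have : q < q ^ 2 := lt_self_pow₀ (by omega) (by omega)
            omega
          set c := K.fm 2 y1 v / K.fm 2 v v with hcdef
          have hc : K.σ c = c := by
            have h5 := hf.skew v y1
            rw [hsym v hv y1 hy1] at h5
            rw [hcdef, map_div₀, skew_self hf]
            rw [show K.σ (K.fm 2 y1 v) = -K.fm 2 y1 v by linear_combination h5]
            rw [neg_div_neg_eq]
          set y2 := y1 - c • v with hy2
          have hy2A : y2 ∈ A := sub_mem hy1 (hsc c hc v hv)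
          have hyv : K.fm 2 y2 v = 0 := by
            rw [hy2, sub_left hf, hf.smul_left, hcdef, div_mul_cancel₀ _ hvv, sub_self]
          have hvy : K.fm 2 v y2 = 0 := (eq_zero_comm hf).1 hyv
          have hy20 : y2 ≠ 0 := fun e => hyne c hc (sub_eq_zero.1 e)
          have hQ : K.fm 2 y2 y2 = 0 := by
            rcases hval y2 hy2A with e | e
            · exact e
            exfalso
            rcases hval _ (add_mem hv hy2A) with e' | e' <;>
              rw [hf.add_left, add_right hf, add_right hf, hyv, hvy, e] at e' <;> apply hvv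
            · linear_combination (-1 : F) * e' + K.fm 2 v v * h30
            · linear_combination e'
          obtain ⟨y', hy', -⟩ := K.exists_hyp hQ hy20
          apply hvv
          rw [hy'.coord v, hvy, zero_div, neg_zero, zero_smul, add_zero, hf.smul_left,
            smul_right hf, hQ, mul_zero, mul_zero]
        · -- the field with four elements
          have h20 := UC.two_eq_zero h2 K
          have hadd : ∀ w ∈ A, ∀ w' ∈ A,
              K.fm 2 (w + w') (w + w') = K.fm 2 w w + K.fm 2 w' w' := fun w hw w' hw' => by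
            rw [hf.add_left, add_right hf, add_right hf, hsym w hw w' hw']
            linear_combination K.fm 2 w' w * h20
          obtain ⟨p, hp, hp0, hpp⟩ : ∃ p ∈ A, p ≠ 0 ∧ K.fm 2 p p = 0 := by
            by_contra h
            push Not at h
            have h5 : ∀ w ∈ A, w ≠ 0 → w = v := fun w hw hw0 => by
              have e := (hval w hw).resolve_left (h w hw hw0)
              by_contra hne
              have h6 := h _ (sub_mem hw hv) (sub_ne_zero.2 hne)
              apply h6
              have h7 := hadd (w - v) (sub_mem hw hv) v hv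
              rw [sub_add_cancel, e] at h7
              linear_combination -h7
            have hle : Nat.card A ≤ Nat.card (({0, v} : Finset (Fin 2 → F)) : Set (Fin 2 → F)) :=
              Nat.card_le_card_of_injective (fun w => ⟨w.1, by
                by_cases h0 : w.1 = 0
                · simp [h0]
                · simp [h5 w.1 w.2 h0]⟩) fun a b e => Subtype.ext (by simpa using congrArg Subtype.val e)
            rw [Nat.card_coe_set_eq, Set.ncard_coe_finset, ← hs, hsq, h2] at hle
            have := Finset.card_le_two (a := (0 : Fin 2 → F)) (b := v)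
            omega
          obtain ⟨y', hy', -⟩ := K.exists_hyp hpp hp0
          have hD : dd v p ≠ 0 := by
            intro e
            have hpv : ∃ k : F, v = k • p := by
              unfold dd at e
              by_cases hp1 : p 0 = 0
              · have hp11 : p 1 ≠ 0 := fun h1 => hp0 (funext fun i => by fin_cases i <;> assumption)
                refine ⟨v 1 / p 1, funext fun i => ?_⟩
                fin_cases i <;> simp [hp1, hp11]
                rw [hp1, mul_zero, sub_zero] at e
                exact (mul_eq_zero.1 e).resolve_right hp11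
              · refine ⟨v 0 / p 0, funext fun i => ?_⟩
                fin_cases i <;> simp [hp1]
                field_simp
                linear_combination -e
            obtain ⟨k, rfl⟩ := hpv
            exact hvv (isotropic_smul hf hpp k)
          obtain ⟨a, ha, ha1⟩ := K.exists_norm_one {1} (by simp; omega)
          rw [Finset.mem_singleton] at ha1
          obtain ⟨g, -, hgu, -, hgi⟩ := fr.exists_scal4 ha
          obtain ⟨hcg, habg⟩ := fr.ab_scal ha hgu hgi z
          have ha0 : a ≠ 0 := left_ne_zero_of_mul_eq_one ha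
          have hk1 : a⁻¹ * a⁻¹ ≠ 1 := fun e => ha1 (by
            have e1 : a * a = 1 := by rw [← inv_inv (a * a), mul_inv, e, inv_one]
            rcases mul_self_eq_one_iff.1 e1 with h5 | h5
            · exact h5
            · rw [h5]; linear_combination -(1 : F) * h20)
          have hcardg : Nat.card (fr.ab (g • z)) = s := fr.card_ab_smul ha0 hgu z
          -- the scaled subgroup is outside the orbit
          have hnot : fr.ab (g • z) ∉ K.orb A := by
            rintro ⟨g', hg'⟩
            have hmv : ∀ w ∈ A, ∃ t ∈ A, ap (g' : GL (Fin 2) F) t = (a⁻¹ * a⁻¹) • w := fun w hw => by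
              have h5 := (habg w).2 hw
              rw [← hg'] at h5
              obtain ⟨t, ht, et⟩ := h5
              exact ⟨t, ht, et⟩
            obtain ⟨t, ht, et⟩ := hmv v hv
            obtain ⟨t', ht', et'⟩ := hmv p hp
            have hk0 : a⁻¹ * a⁻¹ ≠ 0 := mul_ne_zero (inv_ne_zero ha0) (inv_ne_zero ha0)
            have hdd : dd t t' = (a⁻¹ * a⁻¹) * (a⁻¹ * a⁻¹) * dd v p := by
              rw [← dd_ap g' t t', et, et']
              simp only [dd, Pi.smul_apply, smul_eq_mul]
              ring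
            have ht'0 : K.fm 2 t' t' = 0 := by
              rw [← K.fm_ap g' t' t', et', isotropic_smul hf hpp]
            have ht'ne : t' ≠ 0 := fun e => smul_ne_zero hk0 hp0 (by rw [← et', e, ap_zero])
            -- the isotropic vector is unique
            have htp : ∀ w ∈ A, w ≠ 0 → K.fm 2 w w = 0 → w = p := fun w hw hw0 hww => by
              by_contra hne
              have h5 : K.fm 2 (w - p) (w - p) = 0 := by
                have h6 := hadd (w - p) (sub_mem hw hp) p hp
                rw [sub_add_cancel, hww, hpp] at h6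
                linear_combination -h6
              have key : ∀ u1 ∈ A, ∀ u2 ∈ A, K.fm 2 u1 u1 = 0 → K.fm 2 u2 u2 = 0 →
                  K.fm 2 (u1 + u2) (u1 + u2) = 0 := fun u1 h1 u2 h2 e1 e2 => by
                rw [hadd u1 h1 u2 h2, e1, e2, add_zero]
              have hle : Nat.card (({0, w, p, w + p} : Finset (Fin 2 → F)) : Set (Fin 2 → F))
                  ≤ K.nIso A + 1 := by
                rw [UC.nIso, UC.inCls, ← Finite.card_option]
                refine Nat.card_le_card_of_injective (fun u => if h0 : u.1 = 0 then none else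
                  some ⟨u.1, ?_⟩) ?_
                · have hu := u.2
                  simp only [Finset.coe_insert, Finset.coe_singleton, Set.mem_insert_iff,
                    Set.mem_singleton_iff] at hu
                  rcases hu with e | e | e | e
                  · exact absurd e h0
                  · rw [e]; exact ⟨hw, hw0, hww⟩
                  · rw [e]; exact ⟨hp, hp0, hpp⟩
                  · rw [e]; exact ⟨add_mem hw hp, e ▸ h0, key w hw p hp hww hpp⟩
                · intro u u' e
                  by_cases h0 : u.1 = 0 <;> by_cases h0' : u'.1 = 0 <;> simp [h0, h0'] at e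
                  · exact Subtype.ext (h0.trans h0'.symm)
                  · exact e
              rw [Nat.card_coe_set_eq, Set.ncard_coe_finset] at hle
              have hwp : w + p ≠ 0 := fun e => hne (by
                rw [eq_neg_of_add_eq_zero_left e]
                funext i
                simp only [Pi.neg_apply]
                linear_combination -(p i) * h20)
              have h7 : ({0, w, p, w + p} : Finset (Fin 2 → F)).card = 4 := by
                rw [Finset.card_insert_of_notMem (by
                  simp only [Finset.mem_insert, Finset.mem_singleton, not_or]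
                  exact ⟨hw0.symm, hp0.symm, hwp.symm⟩),
                  Finset.card_insert_of_notMem (by
                  simp only [Finset.mem_insert, Finset.mem_singleton, not_or]
                  exact ⟨hne, fun e => hp0 (left_eq_add.1 e)⟩),
                  Finset.card_insert_of_notMem (by
                  simp only [Finset.mem_singleton]
                  exact fun e => hw0 (left_eq_add.1 (e.trans (add_comm w p)))), Finset.card_singleton]
              rw [h7] at hle
              have h8 := K.card_split A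
              have h9 : 0 < K.nAni A := @Finite.card_pos _ _ ⟨⟨v, hv, hvv⟩⟩
              rw [← hs, hsq] at h8
              have e4 : q ^ 2 = 4 := by rw [h2]; norm_num
              omega
            have e1 : t' = p := htp t' ht' ht'ne ht'0
            have htv : t = v ∨ t = v + p := by
              have htt : K.fm 2 t t = K.fm 2 v v := by
                refine (hval t ht).resolve_left fun e => ?_
                have h5 := K.fm_ap g' t t
                rw [et, e, hf.smul_left, smul_right hf, ← mul_assoc, mul_eq_zero] at h5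
                exact h5.elim (fun e => mul_ne_zero hk0 ((map_ne_zero_iff _ K.σ.injective).2 hk0) e) hvv
              by_cases e : t = v
              · exact Or.inl e
              refine Or.inr ?_
              have h6 : K.fm 2 (t - v) (t - v) = 0 := by
                have h7 := hadd (t - v) (sub_mem ht hv) v hv
                rw [sub_add_cancel, htt] at h7
                linear_combination -h7
              rw [← htp _ (sub_mem ht hv) (sub_ne_zero.2 e) h6, add_sub_cancel]
            have hdd' : dd t t' = dd v p := by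
              rcases htv with e | e <;> simp only [dd, e, e1, Pi.add_apply] <;> ring
            rw [hdd'] at hdd
            have h8 : (a⁻¹ * a⁻¹) * (a⁻¹ * a⁻¹) = 1 :=
              mul_right_cancel₀ hD (hdd.symm.trans (one_mul _).symm)
            rcases mul_self_eq_one_iff.1 h8 with e | e
            · exact hk1 e
            · exact hk1 (by rw [e]; linear_combination -(1 : F) * h20)
          refine ⟨Nat.card (K.orb A) + 1, ?_, ?_⟩
          · have h5 : 3 ≤ Nat.card (K.orb A) := by
              have h6 : 0 < K.nIso A := @Finite.card_pos _ _ ⟨⟨p, hp, hp0, hpp⟩⟩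
              have h7 := K.card_split A
              have h9 := hL.trans hLA
              rw [show q * (q ^ 2 - 1) = 6 by rw [h2]; norm_num] at h9
              rw [← hs, hsq] at h7
              have e4 : q ^ 2 = 4 := by rw [h2]; norm_num
              have h10 : Nat.card (K.orb A) * K.nAni A ≤ Nat.card (K.orb A) * 2 :=
                Nat.mul_le_mul_left _ (by omega)
              omega
            rw [hsq]
            exact Nat.mul_le_mul_right _ (by omega)
          · rw [← Finite.card_option]
            refine fr.vals_bound (fun o : Option (K.orb A) => o.elim (fr.ab (g • z)) fun B => B.1)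
              ?_ ?_ ?_
            · rintro (_ | B) (_ | B') e <;> simp only [Option.elim_none, Option.elim_some] at e
              · rfl
              · exact absurd (e ▸ B'.2) hnot
              · exact absurd (e ▸ B.2) hnot
              · exact congrArg some (Subtype.ext e)
            · rintro (_ | B)
              · exact ⟨g • z, hcg, rfl⟩
              · exact fr.mem_vals_orb B.2
            · rintro (_ | B)
              · exact hcardg.le
              · obtain ⟨g', hg'⟩ := B.2
                show Nat.card B.1 ≤ s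
                rw [← hg', K.card_mapSub]
      · exact Or.inr ⟨hsq, _, hγ, horb', fun e => absurd e hC0⟩
    · left
      refine ⟨Nat.card (K.orb A), ?_, horb'⟩
      have h2s := half hsq
      set γ := Nat.card (K.orb A)
      have h5 : q * (q ^ 2 - 1) ≤ γ * s := (hL.trans hLA).trans (Nat.mul_le_mul_left _ (by omega))
      refine Nat.le_of_mul_le_mul_right ?_ (show 0 < 4 * s by omega)
      have h6 : (2 * s) * (2 * s) ≤ q ^ 2 * q ^ 2 := Nat.mul_le_mul h2s h2s
      have h7 : (q + 2) * q ^ 2 ≤ 4 * (q * (q ^ 2 - 1)) := by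
        have h8 : q * (q ^ 2 - 1) + q = q * q ^ 2 := by
          rw [Nat.mul_sub_one, Nat.sub_add_cancel (Nat.le_mul_of_pos_right _ (Nat.pow_pos (by omega)))]
        have h9 : 2 * q ^ 2 ≤ q * q ^ 2 := Nat.mul_le_mul_right _ hq
        have h10 : 2 * (2 * q) ≤ q * (2 * q) := Nat.mul_le_mul_right _ hq
        have h11 : (q + 2) * q ^ 2 = q * q ^ 2 + 2 * q ^ 2 := by ring
        have h12 : q * (2 * q) = 2 * q ^ 2 := by ring
        omega
      calc (q + 2) * s * (4 * s) = (q + 2) * ((2 * s) * (2 * s)) := by ring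
        _ ≤ (q + 2) * (q ^ 2 * q ^ 2) := Nat.mul_le_mul_left _ h6
        _ = (q + 2) * q ^ 2 * q ^ 2 := by ring
        _ ≤ 4 * (q * (q ^ 2 - 1)) * q ^ 2 := Nat.mul_le_mul_right _ h7
        _ ≤ 4 * (γ * s) * q ^ 2 := Nat.mul_le_mul_right _ (Nat.mul_le_mul_left _ h5)
        _ = γ * q ^ 2 * (4 * s) := by ring
  push Not at hani
  obtain ⟨x, hxA, hx0⟩ := K.exists_ne_zero_mem h1s
  have hxx := hani x hxA
  obtain ⟨y0, hxy0, hxy1⟩ := K.exists_hyp hxx hx0
  by_cases hline : ∀ w ∈ A, ∃ c : F, w = c • x
  · -- inside a line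
    obtain ⟨v, hv, hvind⟩ := hxy0.exists_lines
    choose g a ha hg using fun i => hxy0.line_trans (hv i).2 (hv i).1
    have hmem : ∀ i, ∀ t ∈ K.mapSub (g i) A, ∃ c : F, t = c • v i := by
      rintro i _ ⟨t, ht, rfl⟩
      obtain ⟨c, rfl⟩ := hline t ht
      exact ⟨c * a i, by
        show ap (g i : GL (Fin 2) F) (c • x) = _
        rw [ap_smul, hg, smul_smul]⟩
    set φ : Option (Fin q) → AddSubgroup (Fin 2 → F) := fun o => K.mapSub (g (o.map
        ((Finite.equivFinOfCardEq K.card_fx).symm))) A with hφ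
    suffices hinj : Function.Injective φ by
      have hb := hbound φ hinj (fun o => fr.mem_vals_orb ⟨_, rfl⟩) (fun o => K.card_mapSub _ A)
      rw [Finite.card_option, Nat.card_fin] at hb
      have hn1 : q + 1 ≤ n := by
        rw [hn]
        refine le_of_eq_of_le (by rw [Finite.card_option, Nat.card_fin])
          (Nat.card_le_card_of_injective
            (fun o => (⟨φ o, fr.mem_vals_orb ⟨_, rfl⟩⟩ : fr.vals Ω C))
            fun o o' e => hinj (congrArg Subtype.val e))
      by_cases hsq : s = q ^ 2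
      · refine Or.inr ⟨hsq, q + 1, Nat.le_succ _, hb, fun _ => ⟨Or.inl ⟨x, hx0, hxx, fun w =>
          ⟨hline w, ?_⟩⟩, le_rfl, hn1⟩⟩
        rintro ⟨c, rfl⟩
        have hbij : Function.Bijective (fun w : A => (hline w.1 w.2).choose) := by
          rw [Nat.bijective_iff_injective_and_card]
          refine ⟨fun w w' e => Subtype.ext ?_, by rw [K.card_eq, ← hs, hsq]⟩
          rw [(hline w.1 w.2).choose_spec, (hline w'.1 w'.2).choose_spec]
          exact congrArg (· • x) e
        obtain ⟨w, hw⟩ := hbij.2 c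
        simp only at hw
        rw [← hw, ← (hline w.1 w.2).choose_spec]
        exact w.2
      · refine Or.inl ⟨q + 1, ?_, hb⟩
        calc (q + 2) * s ≤ (q + 1) * (2 * s) := by
              rw [← mul_assoc]; exact Nat.mul_le_mul_right _ (by omega)
          _ ≤ _ := Nat.mul_le_mul_left _ (half hsq)
    · intro o o' e
      obtain ⟨t, ht, ht0⟩ := K.exists_ne_zero_mem (A := K.mapSub (g (o.map
        ((Finite.equivFinOfCardEq K.card_fx).symm))) A) (by rw [K.card_mapSub]; exact h1s)
      obtain ⟨c, hc⟩ := hmem _ t ht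
      simp only [hφ] at e
      rw [e] at ht
      obtain ⟨c', hc'⟩ := hmem _ t ht
      have hc0 : c ≠ 0 := fun h => ht0 (by rw [hc, h, zero_smul])
      refine Option.map_injective (Finite.equivFinOfCardEq K.card_fx).symm.injective
        (hvind _ _ (c⁻¹ * c') ?_)
      rw [mul_smul, ← hc', hc, inv_smul_smul₀ hc0]
  push Not at hline
  obtain ⟨y, hyA, hy⟩ := hline
  have hyy := hani y hyA
  have hreal : Hyp K x y := by
    refine ⟨hxx, hyy, ?_, fun e => ?_⟩
    · have h5 := hani _ (add_mem hxA hyA)
      rw [hf.add_left, add_right hf, add_right hf, hxx, hyy] at h5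
      rw [hf.skew y x] at h5
      linear_combination -h5
    · refine hy (K.fm 2 y y0 / K.fm 2 x y0) ?_
      conv_lhs => rw [hxy0.coord y]
      rw [(eq_zero_comm hf).1 e, zero_div, neg_zero, zero_smul, add_zero]
  have hsub : A ≤ K.rspan x y := by
    intro w hw
    have hwr : ∀ t ∈ A, K.σ (K.fm 2 w t) = K.fm 2 w t := fun t ht => by
      have h5 := hani _ (add_mem hw ht)
      rw [hf.add_left, add_right hf, add_right hf, hani w hw, hani t ht, hf.skew t w] at h5
      linear_combination -h5
    refine ⟨_, ?_, _, ?_, hreal.coord w⟩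
    · show K.σ _ = _
      rw [map_div₀, hwr y hyA, hreal.hreal]
    · show K.σ _ = _
      rw [map_neg, map_div₀, hwr x hxA, hreal.hreal]
  by_cases h2 : (2 : F) = 0
  · -- real forms in characteristic two
    choose g _ hgu _ hgi using fun a : {a : F // a * K.σ a = 1} => fr.exists_scal4 a.2
    set φ : Fin (q + 1) → AddSubgroup (Fin 2 → F) := fun i => fr.ab
        (g ((Finite.equivFinOfCardEq K.card_norm_one).symm i) • z) with hφ
    have hmem : ∀ i, φ i ∈ fr.vals Ω C := fun i =>
      ⟨_, (fr.ab_scal ((Finite.equivFinOfCardEq K.card_norm_one).symm i).2 (hgu _)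
        (hgi _) z).1, rfl⟩
    suffices hinj : Function.Injective φ by
      have hb := hbound φ hinj hmem
        (fun i => fr.card_ab_smul (left_ne_zero_of_mul_eq_one
          ((Finite.equivFinOfCardEq K.card_norm_one).symm i).2) (hgu _) z)
      rw [Nat.card_fin] at hb
      have hn1 : q + 1 ≤ n := by
        rw [hn]
        exact le_of_eq_of_le (Nat.card_fin _).symm
          (Nat.card_le_card_of_injective (fun i => (⟨φ i, hmem i⟩ : fr.vals Ω C))
            fun i j e => hinj (congrArg Subtype.val e))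
      by_cases hsq : s = q ^ 2
      · exact Or.inr ⟨hsq, q + 1, Nat.le_succ _, hb, fun _ => ⟨Or.inr ⟨h2, x, y, hreal,
          AddSubgroup.eq_of_le_of_card_ge hsub (by rw [hreal.card_rspan, ← hs, hsq])⟩, le_rfl, hn1⟩⟩
      · refine Or.inl ⟨q + 1, ?_, hb⟩
        calc (q + 2) * s ≤ (q + 1) * (2 * s) := by
              rw [← mul_assoc]; exact Nat.mul_le_mul_right _ (by omega)
          _ ≤ _ := Nat.mul_le_mul_left _ (half hsq)
    · intro i j e
      simp only [hφ] at e
      generalize hi : (Finite.equivFinOfCardEq K.card_norm_one).symm i = a at e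
      generalize hj : (Finite.equivFinOfCardEq K.card_norm_one).symm j = b at e
      suffices hab : a = b by
        exact (Equiv.injective _) (hi.trans (hab.trans hj.symm))
      have h5 := ((fr.ab_scal a.2 (hgu a) (hgi a) z).2 x).2 hxA
      rw [e] at h5
      have ha0 : a.1 ≠ 0 := left_ne_zero_of_mul_eq_one a.2
      have hb0 : b.1 ≠ 0 := left_ne_zero_of_mul_eq_one b.2
      set k := (b.1 * b.1) * (a.1⁻¹ * a.1⁻¹) with hk
      have hkx : k • x ∈ A := by
        refine ((fr.ab_scal b.2 (hgu b) (hgi b) z).2 _).1 ?_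
        rw [smul_smul, hk, show b.1⁻¹ * b.1⁻¹ * ((b.1 * b.1) * (a.1⁻¹ * a.1⁻¹)) = a.1⁻¹ * a.1⁻¹ by
          field_simp]
        exact h5
      have hkr := hreal.real_of_smul_mem (hsub hxA) hx0 (hsub hkx)
      have hsa : K.σ a.1 = a.1⁻¹ := eq_inv_of_mul_eq_one_right a.2
      have hsb : K.σ b.1 = b.1⁻¹ := eq_inv_of_mul_eq_one_right b.2
      rw [hk, map_mul, map_mul, map_mul, map_inv₀, hsa, hsb, inv_inv] at hkr
      field_simp at hkr
      have h6 : (a.1 * a.1 - b.1 * b.1) * (a.1 * a.1 - b.1 * b.1) = 0 := by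
        have : (a.1 * a.1) * (a.1 * a.1) = (b.1 * b.1) * (b.1 * b.1) := by linear_combination hkr
        linear_combination this - ((a.1 * a.1) * (b.1 * b.1) - (b.1 * b.1) * (b.1 * b.1)) * h2
      have h7 : (a.1 - b.1) * (a.1 - b.1) = 0 := by
        have := mul_self_eq_zero.1 h6
        linear_combination this - (a.1 * b.1 - b.1 * b.1) * h2
      exact Subtype.ext (sub_eq_zero.1 (mul_self_eq_zero.1 h7))
  · -- real forms in odd characteristic
    left
    refine ⟨Nat.card (K.orb A), ?_, horb'⟩
    have hsq := K.card_real_odd h2 hreal hsub hClt hom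
    rw [← hs] at hsq
    have hγ : 2 ≤ Nat.card (K.orb A) := by
      by_contra hlt
      have hsing : Subsingleton (K.orb A) := Finite.card_le_one_iff_subsingleton.1 (by omega)
      have hall : ∀ g : K.G 2, K.mapSub g A = A := fun g =>
        congrArg Subtype.val (Subsingleton.elim (⟨_, g, rfl⟩ : K.orb A) ⟨A, K.mem_orb_self A⟩)
      have hR : K.rspan x y ≤ A := fun w hw => by
        by_cases h0 : w = 0
        · rw [h0]; exact zero_mem _
        obtain ⟨g, hg⟩ := hreal.trans hw h0
        rw [← hg, ← hall g]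
        exact K.mem_mapSub.2 hxA
      have := AddSubgroup.card_le_of_le hR
      rw [hreal.card_rspan, ← hs] at this
      have : q < q ^ 2 := lt_self_pow₀ (by omega) (by omega)
      omega
    calc (q + 2) * s ≤ (q + 2) * q := Nat.mul_le_mul_left _ hsq
      _ ≤ (2 * q) * q := Nat.mul_le_mul_right _ (by omega)
      _ = 2 * q ^ 2 := by ring
      _ ≤ _ := Nat.mul_le_mul_right _ hγ

end Frame

end CfsgLib.MinIndexUnit
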