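import Cfsg.Agent.Lib.MinIndex.Unit.FourCount
import Cfsg.Agent.Lib.MinIndex.Unit.Endgame

/-!
There is no small non-trivial transitive action of the four-dimensional special unitary group.
-/

set_option autoImplicit false
set_option linter.unusedSectionVars false

namespace CfsgLib.MinIndexUnit

open CfsgLib.Geometric CfsgLib.Geometric.Unitary CfsgLib.ClassicalForms MulAction

variable {F : Type*} [Field F] [Finite F] {q : ℕ} {K : UC F q}

namespace Hyp

variable {x y : Fin 2 → F} (h : Hyp K x y)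
include h

lemma dd_ne : dd x y ≠ 0 := by
  intro e
  have e0 := h.coord (Pi.single 0 1)
  have e1 := h.coord (Pi.single 1 1)
  generalize K.fm 2 (Pi.single 0 1) y / K.fm 2 x y = a at e0
  generalize -(K.fm 2 (Pi.single 0 1) x / K.fm 2 x y) = b at e0
  generalize K.fm 2 (Pi.single 1 1) y / K.fm 2 x y = a' at e1
  generalize -(K.fm 2 (Pi.single 1 1) x / K.fm 2 x y) = b' at e1
  have h0 : dd (Pi.single (0 : Fin 2) (1 : F)) (Pi.single 1 1) = (a * b' - b * a') * dd x y := by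
    rw [e0, e1]
    simp only [dd, Pi.add_apply, Pi.smul_apply, smul_eq_mul]
    ring
  rw [e, mul_zero] at h0
  simp [dd] at h0

/-- The real form through the determinant. -/
lemma mem_iff {w : Fin 2 → F} :
    w ∈ K.rspan x y ↔ ∀ z, K.fm 2 x y * dd z w = dd x y * K.fm 2 z w := by
  have hf := K.skewForm 2
  constructor
  · rintro ⟨a, ha, b, hb, rfl⟩ z
    have ha' : K.σ a = a := ha
    have hb' : K.σ b = b := hb
    have hz := h.coord z
    generalize K.fm 2 z y / K.fm 2 x y = α at hz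
    generalize -(K.fm 2 z x / K.fm 2 x y) = β at hz
    rw [hz]
    simp only [dd, Pi.add_apply, Pi.smul_apply, smul_eq_mul, hf.add_left, add_right hf,
      hf.smul_left, smul_right hf, h.hxx, h.hyy, h.fyx, ha', hb']
    ring
  · intro hw
    have hD := h.dd_ne
    have hc := h.coord w
    generalize K.fm 2 w y / K.fm 2 x y = a at hc
    generalize -(K.fm 2 w x / K.fm 2 x y) = b at hc
    have hx := hw x
    have hy := hw y
    rw [hc] at hx hy ⊢
    simp only [dd, Pi.add_apply, Pi.smul_apply, smul_eq_mul, add_right hf, smul_right hf, h.hxx,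
      h.hyy, h.fyx] at hx hy hD
    refine ⟨a, ?_, b, ?_, rfl⟩
    · exact (mul_left_cancel₀ (mul_ne_zero h.hne hD) (by linear_combination -hy)).symm
    · exact (mul_left_cancel₀ (mul_ne_zero h.hne hD) (by linear_combination hx)).symm

/-- The group keeps the real form. -/
lemma map_mem (g : K.G 2) {w : Fin 2 → F} (hw : w ∈ K.rspan x y) :
    ap (g : GL (Fin 2) F) w ∈ K.rspan x y := by
  refine h.mem_iff.2 fun z => ?_
  obtain ⟨z, rfl⟩ : ∃ z', ap (g : GL (Fin 2) F) z' = z := ⟨_, ap_ap_inv _ z⟩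
  rw [dd_ap, K.fm_ap]
  exact h.mem_iff.1 hw z

lemma mapSub_eq (g : K.G 2) : K.mapSub g (K.rspan x y) = K.rspan x y := by
  refine AddSubgroup.eq_of_le_of_card_ge ?_ (by rw [K.card_mapSub])
  rintro _ ⟨w, hw, rfl⟩
  exact h.map_mem g hw

end Hyp

namespace UC

variable (K)

lemma pts_four : K.pts 4 = (q ^ 2 + 1) * (q ^ 3 + 1) := by
  refine Nat.eq_of_mul_eq_mul_left K.sq_sub_one_pos ?_
  rw [K.pts_mul]
  zify [show 1 ≤ q ^ 2 from by have := K.sq_sub_one_pos; omega]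
  rw [K.iso_four]; ring

end UC

namespace Frame

variable (fr : Frame K 2) {Ω : Type*} [MulAction (K.G 4) Ω] [Finite Ω]
include fr

lemma bot_ne_fx : (⊥ : AddSubgroup F) ≠ K.fx := fun e => by
  have h := K.card_fx
  rw [← e, AddSubgroup.card_bot] at h
  have := K.two_le
  omega

/-- The long orbits. -/
lemma card_orb3 (hΩ : Nat.card Ω < (q + 1) * (q ^ 3 + 1)) {y : Ω} (hy : fr.cz y ≠ K.fx) :
    Nat.card (orbit fr.U y) = q ^ 3 := by
  obtain ⟨hC, hs, -⟩ := fr.moved_structure hΩ hy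
  have h := fr.card_orbit y
  rw [hC, AddSubgroup.card_bot, mul_one, hs] at h
  refine Nat.eq_of_mul_eq_mul_right (Nat.pow_pos (a := q) (n := 2) (by have := K.two_le; omega)) ?_
  rw [h]; ring

variable [IsPretransitive (K.G 4) Ω]

lemma exists_moved_pt4 (h1 : 1 < Nat.card Ω) : ∃ z : Ω, fr.cz z ≠ K.fx := by
  by_contra hall
  have hfix : ∀ (g : K.G 4) (z : Ω), g • z = z := fun g z =>
    K.smul_eq_of_tr (by omega) (by omega) (fun v hv c hc => by
      by_contra h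
      exact hall (K.exists_moved (by omega) fr hv hc h)) g
  have : Subsingleton Ω := ⟨fun a b => by
    obtain ⟨g, rfl⟩ := exists_smul_eq (K.G 4) a b
    rw [hfix]⟩
  have := Finite.card_le_one_iff_subsingleton.2 this
  omega

/-- All points are moved. -/
theorem card_and_bot (h1 : 1 < Nat.card Ω) (hΩ : Nat.card Ω < (q + 1) * (q ^ 3 + 1)) :
    Nat.card Ω = (q + 1) * q ^ 3 ∧ ∀ z : Ω, fr.cz z = ⊥ := by
  classical
  have hq := K.two_le
  obtain ⟨z0, hz0⟩ := fr.exists_moved_pt4 h1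
  obtain ⟨-, -, -, hM, -⟩ := fr.moved_structure hΩ hz0
  set M := Nat.card {y : Ω // fr.cz y = (⊥ : AddSubgroup F)} with hMdef
  have hMk : ∃ k, M = k * q ^ 3 := by
    let : MulAction fr.U {y : Ω // fr.cz y = (⊥ : AddSubgroup F)} :=
      { smul := fun r y => ⟨r • y.1, (fr.inv_of_mem_orbit ⟨r, rfl⟩).2.trans y.2⟩
        one_smul := fun y => Subtype.ext (one_smul fr.U y.1)
        mul_smul := fun r s y => Subtype.ext (mul_smul r s y.1) }
    refine ⟨Nat.card (orbitRel.Quotient fr.U {y : Ω // fr.cz y = (⊥ : AddSubgroup F)}), ?_⟩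
    have := Fintype.ofFinite (orbitRel.Quotient fr.U {y : Ω // fr.cz y = (⊥ : AddSubgroup F)})
    rw [hMdef, Nat.card_congr (selfEquivSigmaOrbits fr.U _), Nat.card_sigma,
      Finset.sum_const_nat (m := q ^ 3) fun o _ => ?_, Finset.card_univ, Nat.card_eq_fintype_card]
    rw [← fr.card_orb3 hΩ (y := (Quotient.out o).1)
      (by rw [(Quotient.out o).2]; exact fr.bot_ne_fx), Nat.card_coe_set_eq,
      ← MulAction.index_stabilizer, Nat.card_coe_set_eq, ← MulAction.index_stabilizer]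
    congr 1
    ext r
    rw [mem_stabilizer_iff, mem_stabilizer_iff, Subtype.ext_iff]
    exact Iff.rfl
  obtain ⟨k, hk⟩ := hMk
  set f := Nat.card {y : Ω // fr.cz y = K.fx} with hf
  have hMne : M = Nat.card {y : Ω // fr.cz y ≠ K.fx} :=
    Nat.card_congr (Equiv.subtypeEquivRight fun y =>
      ⟨fun h => h ▸ fr.bot_ne_fx, fun h => (fr.moved_structure hΩ h).1⟩)
  have hsplit : f + M = Nat.card Ω := by
    rw [hMne, hf, ← Nat.card_sum]; exact Nat.card_congr (Equiv.sumCompl _)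
  set d := Nat.card Ω with hd
  have hk1 : k = q + 1 := by
    have hlt : k < q + 2 := by
      refine Nat.lt_of_mul_lt_mul_right (a := q ^ 3) ?_
      have h2 : (q + 1) * (q ^ 3 + 1) = (q + 1) * q ^ 3 + (q + 1) := by ring
      have h3 : (q + 2) * q ^ 3 = (q + 1) * q ^ 3 + q ^ 3 := by ring
      have h4 : q + 1 ≤ q ^ 3 := by
        calc q + 1 ≤ q * q := by nlinarith
          _ ≤ q ^ 3 := by rw [← pow_two]; exact Nat.pow_le_pow_right (by omega) (by omega)
      omega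
    have hge : q + 1 ≤ k :=
      Nat.le_of_mul_le_mul_right (hk ▸ hM) (Nat.pow_pos (by omega))
    omega
  rw [hk1] at hk
  suffices hf0 : f = 0 by
    refine ⟨by omega, fun z => (fr.moved_structure hΩ fun h => ?_).1⟩
    have : 0 < f := @Finite.card_pos _ _ ⟨⟨z, h⟩⟩
    omega
  by_contra hf0
  have hfq : f ≤ q := by
    have h2 : (q + 1) * (q ^ 3 + 1) = (q + 1) * q ^ 3 + (q + 1) := by ring
    omega
  obtain ⟨⟨z, hz⟩⟩ := (Nat.card_pos_iff.1 (Nat.pos_of_ne_zero hf0)).1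
  -- double counting
  have := Fintype.ofFinite (K.cls (m := 4) 0)
  have := Fintype.ofFinite Ω
  have hcx : ∀ x : K.cls (m := 4) 0, Nat.card {y : Ω // K.Fixes x.1 y} = f := by
    intro x
    obtain ⟨g, hg⟩ := K.exists_move_iso (by omega) fr.hu x.2.2 fr.u_ne x.2.1
    refine (Nat.card_congr ((MulAction.toPerm g).subtypeEquiv fun y => ?_)).symm
    rw [MulAction.toPerm_apply, ← hg, K.fixes_conj_iff, fr.cz_fixes]
  set l := Nat.card {x : Fin 4 → F // x ∈ K.cls 0 ∧ K.Fixes x z} with hl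
  have hcz : ∀ y : Ω, Nat.card {x : Fin 4 → F // x ∈ K.cls 0 ∧ K.Fixes x y} = l := by
    intro y
    obtain ⟨g, hg⟩ := exists_smul_eq (K.G 4) z y
    refine (Nat.card_congr ((apEquiv (g : GL (Fin 4) F)).toEquiv.subtypeEquiv
      fun x => ?_)).symm
    show x ∈ K.cls 0 ∧ K.Fixes x z ↔
      ap (g : GL (Fin 4) F) x ∈ K.cls 0 ∧ K.Fixes (ap (g : GL (Fin 4) F) x) y
    rw [← hg, K.fixes_conj_iff]
    refine and_congr_left fun _ => and_congr ?_ (by rw [K.fm_ap])
    exact ⟨ap_ne_zero _, fun h h0 => h (by rw [h0, ap_zero])⟩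
  have hcount : K.isoCount 4 * f = d * l := by
    have e : (Σ x : K.cls (m := 4) 0, {y : Ω // K.Fixes x.1 y})
        ≃ Σ y : Ω, {x : Fin 4 → F // x ∈ K.cls 0 ∧ K.Fixes x y} :=
      { toFun := fun p => ⟨p.2.1, p.1.1, p.1.2, p.2.2⟩
        invFun := fun p => ⟨⟨p.2.1, p.2.2.1⟩, p.1, p.2.2.2⟩
        left_inv := fun p => rfl
        right_inv := fun p => rfl }
    have h2 := Nat.card_congr e
    rw [Nat.card_sigma, Nat.card_sigma, Finset.sum_congr rfl (fun x _ => hcx x),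
      Finset.sum_congr rfl (fun y _ => hcz y), Finset.sum_const, Finset.sum_const,
      Finset.card_univ, Finset.card_univ, smul_eq_mul, smul_eq_mul, ← Nat.card_eq_fintype_card,
      ← Nat.card_eq_fintype_card, K.card_cls_zero] at h2
    exact h2
  obtain ⟨l', hl'⟩ := K.dvd_cone (fun x : Fin 4 → F => x ∈ K.cls 0 ∧ K.Fixes x z)
    (fun x hx => hx.1.1)
    (fun c hc x hx => ⟨⟨smul_ne_zero hc hx.1.1, isotropic_smul (K.skewForm _) hx.1.2 c⟩,
      K.fixes_smul c hx.2⟩)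
  rw [← hl] at hl'
  rw [← K.pts_mul, hl', mul_assoc, ← mul_left_comm (q ^ 2 - 1) d l'] at hcount
  have h2 := Nat.eq_of_mul_eq_mul_left K.sq_sub_one_pos hcount
  rw [K.pts_four] at h2
  obtain ⟨e, he⟩ : ∃ e, q + 1 = f + e := ⟨q + 1 - f, by omega⟩
  have hde : d = (q + 1) * q ^ 3 + f := by omega
  have h3 : d * l' + q ^ 3 * ((q ^ 2 + 1) * e) = d * (q ^ 2 + 1) := by
    rw [← h2, hde, he]; ring
  have h4 : d ∣ q ^ 3 * ((q ^ 2 + 1) * e) :=
    (Nat.dvd_add_right (dvd_mul_right d l')).1 (h3 ▸ dvd_mul_right d _)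
  have h5 : d ∣ Nat.gcd d (q ^ 3) * ((q ^ 2 + 1) * e) := by
    rw [← Nat.gcd_mul_right]
    exact Nat.dvd_gcd (dvd_mul_right d _) h4
  have h6 : Nat.gcd d (q ^ 3) ∣ f := by
    have a1 : Nat.gcd d (q ^ 3) ∣ (q + 1) * q ^ 3 := (Nat.gcd_dvd_right _ _).mul_left _
    exact (Nat.dvd_add_right a1).1 (hde ▸ Nat.gcd_dvd_left _ _)
  have h7 := Nat.le_of_dvd (Nat.mul_pos (Nat.gcd_pos_of_pos_right _ (Nat.pow_pos (by omega)))
    (Nat.mul_pos (show 0 < q ^ 2 + 1 by omega) (show 0 < e by omega))) h5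
  have h8 : d ≤ f * e * (q ^ 2 + 1) := by
    refine h7.trans ((Nat.mul_le_mul_right _ (Nat.le_of_dvd (by omega) h6)).trans (le_of_eq ?_))
    ring
  have h9 : 4 * (f * e) ≤ (q + 1) * (q + 1) := by
    rw [he]; zify; nlinarith [sq_nonneg ((f : ℤ) - e)]
  have h10 : (q + 1) * (q + 1) * (q ^ 2 + 1) ≤ (q + 1) * (4 * q ^ 3) := by
    rw [mul_assoc]
    refine Nat.mul_le_mul_left _ ?_
    have a1 : q * q ^ 2 = q ^ 3 := by ring
    have a2 : 2 * q ^ 2 ≤ q * q ^ 2 := Nat.mul_le_mul_right _ hq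
    have a3 : q ≤ q ^ 2 := Nat.le_self_pow (by omega) _
    have a4 : (q + 1) * (q ^ 2 + 1) = q ^ 3 + q ^ 2 + q + 1 := by ring
    omega
  have h11 := Nat.mul_le_mul_right (q ^ 2 + 1) h9
  have h12 : 4 * d ≤ 4 * (f * e) * (q ^ 2 + 1) := by rw [mul_assoc]; omega
  have h13 : 4 * ((q + 1) * q ^ 3) = (q + 1) * (4 * q ^ 3) := by ring
  omega

/-- No transvection fixes a point. -/
theorem free (h1 : 1 < Nat.card Ω) (hΩ : Nat.card Ω < (q + 1) * (q ^ 3 + 1)) {v : Fin 4 → F}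
    (hv : K.fm 4 v v = 0) (hv0 : v ≠ 0) {c : F} (hc : K.σ c = c) (hc0 : c ≠ 0) (z : Ω) :
    K.tEl hv c hc • z ≠ z := by
  intro h
  obtain ⟨g, hg⟩ := K.exists_move_iso (by omega) fr.hu hv fr.u_ne hv0
  rw [← K.conj_tEl fr.hu hv c c hc hc g (a := 1) (by rw [hg, one_smul]) (by simp), mul_smul,
    mul_smul, smul_eq_iff_eq_inv_smul] at h
  exact hc0 (AddSubgroup.mem_bot.1 (((fr.card_and_bot h1 hΩ).2 (g⁻¹ • z)).le ⟨hc, h⟩))

/-- The invariant separates the orbits. -/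
theorem orbit_of_ab (h1 : 1 < Nat.card Ω) (hΩ : Nat.card Ω < (q + 1) * (q ^ 3 + 1)) {y y' : Ω}
    (h : fr.ab y' = fr.ab y) : y' ∈ orbit fr.U y := by
  classical
  have hq := K.two_le
  obtain ⟨hd, hbot⟩ := fr.card_and_bot h1 hΩ
  have hmoved : ∀ z : Ω, fr.cz z ≠ K.fx := fun z => by rw [hbot z]; exact fr.bot_ne_fx
  obtain ⟨-, -, -, -, hV⟩ := fr.moved_structure hΩ (hmoved y)
  have := Fintype.ofFinite (orbitRel.Quotient fr.U Ω)
  have hcard : Nat.card (orbitRel.Quotient fr.U Ω) = q + 1 := by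
    refine Nat.eq_of_mul_eq_mul_right (Nat.pow_pos (a := q) (n := 3) (by omega)) ?_
    rw [← hd, Nat.card_congr (selfEquivSigmaOrbits fr.U Ω), Nat.card_sigma,
      Finset.sum_const_nat (m := q ^ 3) fun o _ => fr.card_orb3 hΩ (hmoved _), Finset.card_univ,
      Nat.card_eq_fintype_card]
  let φ : orbitRel.Quotient fr.U Ω → fr.vals Ω (⊥ : AddSubgroup F) :=
    Quotient.lift (fun z => ⟨fr.ab z, z, hbot z, rfl⟩) fun a b hab =>
      Subtype.ext (fr.inv_of_mem_orbit hab).1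
  have hs : Function.Surjective φ := by
    rintro ⟨_, z, -, rfl⟩
    exact ⟨Quotient.mk'' z, rfl⟩
  have : Finite (fr.vals Ω (⊥ : AddSubgroup F)) := Finite.of_surjective φ hs
  have hb : Function.Bijective φ := (Nat.bijective_iff_surjective_and_card φ).2
    ⟨hs, le_antisymm (hcard ▸ hV) (Nat.card_le_card_of_surjective φ hs)⟩
  exact Quotient.eq''.1 (hb.1 (show φ (Quotient.mk'' y') = φ (Quotient.mk'' y) from Subtype.ext h))

end Frame

namespace Frame

variable (fr : Frame K 2)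
include fr

lemma proj_inv {r : K.G 4} (hr : r ∈ fr.U) : fr.proj r⁻¹ = -fr.proj r := by
  refine eq_neg_of_add_eq_zero_left ?_
  rw [← fr.proj_mul (inv_mem hr) hr, inv_mul_cancel, fr.proj_tr (one_mem _)]

/-- The root element at an isotropic vector of the plane. -/
def E0 (w : Fin 2 → F) (hw : K.fm 2 w w = 0) : K.G 4 :=
  K.eEl fr.hu (fr.inc_u w) 0 (by rw [map_zero, sub_zero, K.fm_inc, hw])

lemma ap_E0 {w : Fin 2 → F} (hw : K.fm 2 w w = 0) (z : Fin 4 → F) :
    ap (fr.E0 w hw : GL (Fin 4) F) z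
      = z + K.fm 4 z fr.u • inc w + K.fm 4 z (inc w) • fr.u := by
  rw [E0, K.ap_eEl, zero_mul, zero_smul, add_zero]

lemma E0_mem {w : Fin 2 → F} (hw : K.fm 2 w w = 0) : fr.E0 w hw ∈ fr.U :=
  K.isRoot_eEl _ _ _ _

lemma proj_E0 {w : Fin 2 → F} (hw : K.fm 2 w w = 0) : fr.proj (fr.E0 w hw) = w := by
  rw [E0, fr.proj_eq (K.ap_eEl fr.hu (fr.inc_u w) 0 _), tail2_inc]

lemma E0_congr {w w' : Fin 2 → F} (hw : K.fm 2 w w = 0) (hw' : K.fm 2 w' w' = 0) (e : w = w') :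
    fr.E0 w hw = fr.E0 w' hw' := by
  subst e; rfl

lemma E0_mul {w w' : Fin 2 → F} (hw : K.fm 2 w w = 0) (hw' : K.fm 2 w' w' = 0)
    (h : K.fm 2 w' w = 0) (h' : K.fm 2 (w + w') (w + w') = 0) :
    fr.E0 w hw * fr.E0 w' hw' = fr.E0 (w + w') h' := by
  refine K.g_ext fun z => ?_
  have hf := K.skewForm 4
  have hux : K.fm 4 fr.u (inc w) = 0 := (eq_zero_comm hf).1 (fr.inc_u w)
  rw [Subgroup.coe_mul, ap_mul, fr.ap_E0, fr.ap_E0, fr.ap_E0]
  simp only [hf.add_left, hf.smul_left, fr.hu, fr.inc_u, K.fm_inc, h, hux, inc_add, add_right hf]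
  module

lemma conj_E0 {s : K.G 4} {a : F} (ha : a * K.σ a = 1)
    (hs : ap (s : GL (Fin 4) F) fr.u = a • fr.u)
    (hi : ∀ w, ap (s : GL (Fin 4) F) (inc w) = inc (a⁻¹ • w))
    {w : Fin 2 → F} (hw : K.fm 2 w w = 0) :
    s * fr.E0 w hw * s⁻¹
      = fr.E0 ((a⁻¹ * a⁻¹) • w) (isotropic_smul (K.skewForm 2) hw _) := by
  refine K.g_ext fun z => ?_
  have hf := K.skewForm 4
  have hσ : K.σ a = a⁻¹ := eq_inv_of_mul_eq_one_right ha
  have ha0 : a ≠ 0 := left_ne_zero_of_mul_eq_one ha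
  obtain ⟨z, rfl⟩ : ∃ z', ap (s : GL (Fin 4) F) z' = z := ⟨_, ap_ap_inv _ z⟩
  have e1 : K.fm 4 z fr.u = a⁻¹ * K.fm 4 (ap (s : GL (Fin 4) F) z) fr.u := by
    rw [← K.fm_ap s z fr.u, hs, smul_right hf, hσ]
  have e2 : K.fm 4 z (inc w) = a * K.fm 4 (ap (s : GL (Fin 4) F) z) (inc w) := by
    rw [← K.fm_ap s z (inc w), hi, inc_smul, smul_right hf, map_inv₀, hσ, inv_inv]
  rw [Subgroup.coe_mul, Subgroup.coe_mul, Subgroup.coe_inv, ap_mul, ap_mul, ap_inv_ap, fr.ap_E0,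
    fr.ap_E0, ap_add, ap_add, ap_smul, ap_smul, hs, hi, inc_smul, inc_smul, smul_right hf,
    map_mul, map_inv₀, hσ, inv_inv, e1, e2]
  module

/-- An element scaling the frame commutes with suitable embedded ones. -/
lemma comm_emb {s : K.G 4} {a b : F} (hu : ap (s : GL (Fin 4) F) fr.u = a • fr.u)
    (hu' : ap (s : GL (Fin 4) F) fr.u' = b • fr.u') {G : (Fin 2 → F) → Fin 2 → F}
    (hi : ∀ w, ap (s : GL (Fin 4) F) (inc w) = inc (G w)) (k : K.G 2)
    (hk : ∀ w, G (ap (k : GL (Fin 2) F) w) = ap (k : GL (Fin 2) F) (G w)) :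
    K.embHom 2 k * s = s * K.embHom 2 k := by
  refine K.g_ext fun z => ?_
  obtain ⟨c, hz⟩ := fr.decomp z
  generalize K.fm 4 z fr.u = d at hz
  have eu : ap (K.embHom 2 k : GL (Fin 4) F) fr.u = fr.u := fr.emb_u _
  have eu' : ap (K.embHom 2 k : GL (Fin 4) F) fr.u' = fr.u' := fr.emb_u' _
  have ei : ∀ w, ap (K.embHom 2 k : GL (Fin 4) F) (inc w) = inc (ap (k : GL (Fin 2) F) w) :=
    ap_emb_inc (k : GL (Fin 2) F)
  rw [hz]
  simp only [Subgroup.coe_mul, ap_mul, ap_add, ap_smul, hu, hu', hi, eu, eu', ei, hk]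

variable {Ω : Type*} [MulAction (K.G 4) Ω] [Finite Ω] [IsPretransitive (K.G 4) Ω]

/-- A point in the orbit fixed up to a transvection. -/
theorem exists_pre_fix (h1 : 1 < Nat.card Ω) (hΩ : Nat.card Ω < (q + 1) * (q ^ 3 + 1)) {S : K.G 4}
    {a : F} (hS : ap (S : GL (Fin 4) F) fr.u = a • fr.u) {G : (Fin 2 → F) → Fin 2 → F}
    (hG : ∀ w, ap (S : GL (Fin 4) F) (inc w) = inc (G w))
    (hsurj : ∀ w, ∃ v, K.σ a • G v - v = w) {z : Ω} (hz : fr.ab (S • z) = fr.ab z) :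
    ∃ z1 : Ω, fr.ab z1 = fr.ab z ∧
      ∃ (c : F) (hc : K.σ c = c), (K.tEl fr.hu c hc * S) • z1 = z1 := by
  obtain ⟨⟨e, he⟩, hez⟩ := fr.orbit_of_ab h1 hΩ hz
  have hez' : e • z = S • z := hez
  obtain ⟨v, hv⟩ := hsurj (fr.proj e)
  obtain ⟨r, hr, hrp⟩ := fr.exists_proj v
  refine ⟨r⁻¹ • z, (fr.inv_of_mem_orbit ⟨⟨r⁻¹, inv_mem hr⟩, rfl⟩).1, ?_⟩
  have hc1 := fr.proj_conj4 hS hG hr
  have hmem : r⁻¹ * e⁻¹ * (S * r * S⁻¹) ∈ fr.U := mul_mem (mul_mem (inv_mem hr) (inv_mem he)) hc1.1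
  have hp : fr.proj (r⁻¹ * e⁻¹ * (S * r * S⁻¹)) = 0 := by
    rw [fr.proj_mul (mul_mem (inv_mem hr) (inv_mem he)) hc1.1,
      fr.proj_mul (inv_mem hr) (inv_mem he), fr.proj_inv hr, fr.proj_inv he, hc1.2, hrp, ← hv]
    abel
  obtain ⟨c, hc, hce⟩ := IsTr.eq_tEl (fr.mem_Z_of_proj hmem hp) fr.hu
  refine ⟨c, hc, ?_⟩
  rw [← hce, ← mul_smul,
    show r⁻¹ * e⁻¹ * (S * r * S⁻¹) * S * r⁻¹ = r⁻¹ * (e⁻¹ * S) by group, mul_smul, mul_smul, ← hez',
    inv_smul_smul]

/-- For an eigenvalue of norm one the element itself fixes the point. -/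
lemma fix_of_norm_one {S : K.G 4} {a : F} (ha : a * K.σ a = 1)
    (hS : ap (S : GL (Fin 4) F) fr.u = a • fr.u) (hpow : S ^ (q + 1) = 1) {z1 : Ω} {c : F}
    {hc : K.σ c = c} (h : (K.tEl fr.hu c hc * S) • z1 = z1) : S • z1 = z1 := by
  set d := K.tEl fr.hu c hc
  have hd1 : d ^ q = 1 := by
    have h2 := pow_card_eq_one' (G := fr.Z) (x := ⟨d, K.isTr_tEl _ _ _⟩)
    rw [fr.card_Z] at h2
    exact congrArg Subtype.val h2
  have hcom : Commute d S := (K.comm_tEl fr.hu hS ha c hc).symm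
  have hpow' : (d * S) ^ (q + 1) = d := by
    rw [hcom.mul_pow, hpow, mul_one, pow_succ, hd1, one_mul]
  have hdz : d • z1 = z1 :=
    hpow' ▸ mem_stabilizer_iff.1 (pow_mem (show d * S ∈ stabilizer _ z1 from h) (q + 1))
  rwa [hcom.eq, mul_smul, hdz] at h

/-- The elements normalising a fixing one fix the point up to a transvection. -/
theorem centr_fix (h1 : 1 < Nat.card Ω) (hΩ : Nat.card Ω < (q + 1) * (q ^ 3 + 1)) {S S' g : K.G 4}
    {a : F} (hS : ap (S : GL (Fin 4) F) fr.u = a • fr.u) {G : (Fin 2 → F) → Fin 2 → F}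
    (hG : ∀ w, ap (S : GL (Fin 4) F) (inc w) = inc (G w)) {z1 : Ω} (hSz : S • z1 = z1)
    (hSz' : S' • z1 = z1) (hcomm : g * S' = S * g) (hg : fr.ab (g • z1) = fr.ab z1)
    (hA : ∀ w, K.σ a • G w - w ∈ fr.ab z1 → w ∈ fr.ab z1) :
    ∃ (c : F) (hc : K.σ c = c), (K.tEl fr.hu c hc * g) • z1 = z1 := by
  obtain ⟨⟨e, he⟩, hez⟩ := fr.orbit_of_ab h1 hΩ hg.symm
  have hez' : (e * g) • z1 = z1 := by rw [mul_smul]; exact hez
  have hc1 := fr.proj_conj4 hS hG he
  have hfix : (S * e * S⁻¹ * e⁻¹) • z1 = z1 := by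
    have h2 : S * (e * g) * S'⁻¹ * (e * g)⁻¹ = S * e * S⁻¹ * e⁻¹ := by
      rw [show S * (e * g) * S'⁻¹ = S * e * S⁻¹ * (S * g * S'⁻¹) by group,
        ← (eq_mul_inv_of_mul_eq hcomm : g = S * g * S'⁻¹)]
      group
    rw [← h2, mul_smul, mul_smul, mul_smul, show (e * g)⁻¹ • z1 = z1 from inv_smul_eq_iff.2 hez'.symm,
      show S'⁻¹ • z1 = z1 from inv_smul_eq_iff.2 hSz'.symm, hez', hSz]
  have hin : fr.proj (S * e * S⁻¹ * e⁻¹) ∈ fr.ab z1 :=
    ⟨_, mul_mem hc1.1 (inv_mem he), hfix, rfl⟩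
  rw [fr.proj_mul hc1.1 (inv_mem he), hc1.2, fr.proj_inv he, ← sub_eq_add_neg] at hin
  obtain ⟨r, hr, rz, rp⟩ := hA _ hin
  obtain ⟨c, hc, hce⟩ := IsTr.eq_tEl (fr.mem_Z_of_proj (mul_mem (inv_mem hr) he) (by
    rw [fr.proj_mul (inv_mem hr) he, fr.proj_inv hr, rp, neg_add_cancel])) fr.hu
  refine ⟨c, hc, ?_⟩
  rw [← hce, mul_assoc, mul_smul, hez', inv_smul_eq_iff, rz]

/-- No invariant is a line. -/
theorem line_false (h1 : 1 < Nat.card Ω) (hΩ : Nat.card Ω < (q + 1) * (q ^ 3 + 1)) {z : Ω}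
    (hA : IsLine (K := K) (fr.ab z)) : False := by
  classical
  obtain ⟨x, hx0, hxx, hA⟩ := hA
  have hq := K.two_le
  have hf := K.skewForm 2
  obtain ⟨a, ha, ha1⟩ := K.exists_norm_one {1, -1}
    ((Finset.card_insert_le _ _).trans (by simp; omega))
  simp only [Finset.mem_insert, Finset.mem_singleton, not_or] at ha1
  have ha0 : a ≠ 0 := left_ne_zero_of_mul_eq_one ha
  have hσ : K.σ a = a⁻¹ := eq_inv_of_mul_eq_one_right ha
  set κ := a⁻¹ * a⁻¹ with hκ
  have hκ1 : κ - 1 ≠ 0 := sub_ne_zero.2 fun e => by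
    have e1 : a * a = 1 := by rw [← inv_inv (a * a), mul_inv, ← hκ, e, inv_one]
    exact (mul_self_eq_one_iff.1 e1).elim ha1.1 ha1.2
  have hκ0 : κ ≠ 0 := mul_ne_zero (inv_ne_zero ha0) (inv_ne_zero ha0)
  have hmulA : ∀ k : F, k ≠ 0 → ∀ w, k • w ∈ fr.ab z → w ∈ fr.ab z := fun k hk w hw => by
    obtain ⟨c, hc⟩ := (hA _).1 hw
    exact (hA _).2 ⟨k⁻¹ * c, by rw [mul_smul, ← hc, inv_smul_smul₀ hk]⟩
  obtain ⟨S, hpow, hSu, hSu', hSi⟩ := fr.exists_scal4 ha
  have habS : fr.ab (S • z) = fr.ab z := by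
    ext w
    have hw := (fr.ab_scal ha hSu hSi z).2 (κ⁻¹ • w)
    rw [← hκ, smul_inv_smul₀ hκ0] at hw
    exact ⟨fun h => hmulA _ (inv_ne_zero hκ0) _ (hw.1 h),
      fun h => hw.2 (hmulA κ hκ0 _ (by rwa [smul_inv_smul₀ hκ0]))⟩
  obtain ⟨z1, habz, c0, hc0, hpre⟩ := fr.exists_pre_fix h1 hΩ hSu hSi (fun w =>
    ⟨(κ - 1)⁻¹ • w, by
      rw [hσ, smul_smul, ← hκ]
      calc κ • ((κ - 1)⁻¹ • w) - (κ - 1)⁻¹ • w = (κ - 1) • ((κ - 1)⁻¹ • w) := by module
        _ = w := smul_inv_smul₀ hκ1 w⟩) habS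
  have hSz := fr.fix_of_norm_one ha hSu hpow hpre
  set g2 := K.tEl hxx 1 (map_one _)
  have hgA : fr.ab (K.embHom 2 g2 • z1) = fr.ab z1 := by
    rw [(fr.emb_smul g2 z1).1]
    refine AddSubgroup.eq_of_le_of_card_ge ?_ (by rw [K.card_mapSub])
    rintro _ ⟨w, hw, rfl⟩
    obtain ⟨c, rfl⟩ := (hA w).1 (habz ▸ hw)
    show ap (g2 : GL (Fin 2) F) (c • x) ∈ _
    rw [K.ap_tEl, hf.smul_left, hxx, mul_zero, mul_zero, zero_smul, add_zero, habz]
    exact (hA _).2 ⟨c, rfl⟩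
  obtain ⟨c, hc, hfix⟩ := fr.centr_fix h1 hΩ hSu hSi hSz hSz
    (fr.comm_emb hSu hSu' hSi g2 fun w => (ap_smul _ _ _).symm) hgA (fun w hw => by
      rw [habz] at hw ⊢
      rw [hσ, smul_smul, ← hκ, show κ • w - w = (κ - 1) • w by module] at hw
      exact hmulA _ hκ1 _ hw)
  obtain ⟨β, hβ⟩ := Unitary.exists_norm (K.skewForm 4) hc
  -- the root elements along the line fix the point
  have hw0 : ∀ k : F, K.fm 2 (k • x) (k • x) = 0 := fun k => isotropic_smul hf hxx k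
  have hE : fr.E0 (β • x) (hw0 β) • z1 = z1 := by
    have hmem : (β / (κ - 1)) • x ∈ fr.ab z1 := habz ▸ (hA _).2 ⟨_, rfl⟩
    obtain ⟨r, hr, rz, rp⟩ := hmem
    set E := fr.E0 _ (hw0 (β / (κ - 1))) with hE
    obtain ⟨γ, hγ, hγe⟩ := IsTr.eq_tEl (fr.mem_Z_of_proj (mul_mem (inv_mem (fr.E0_mem (hw0 (β / (κ - 1))))) hr)
      (by rw [fr.proj_mul (inv_mem (fr.E0_mem _)) hr, fr.proj_inv (fr.E0_mem _), fr.proj_E0, rp,
        neg_add_cancel])) fr.hu
    have hr' : r = E * K.tEl fr.hu γ hγ := by rw [← hγe, hE, mul_inv_cancel_left]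
    have hT : S * K.tEl fr.hu γ hγ * S⁻¹ = K.tEl fr.hu γ hγ :=
      mul_inv_eq_iff_eq_mul.2 (K.comm_tEl fr.hu hSu ha γ hγ)
    have h2 : S * r * S⁻¹ * r⁻¹ = S * E * S⁻¹ * E⁻¹ := by
      rw [hr', show S * (E * K.tEl fr.hu γ hγ) * S⁻¹ = S * E * S⁻¹ * (S * K.tEl fr.hu γ hγ * S⁻¹) by
        group, hT]
      group
    have h3 : S * E * S⁻¹ = fr.E0 (β • x) (hw0 β) * E := by
      rw [hE, fr.conj_E0 ha hSu hSi, fr.E0_mul _ _
        (by rw [hf.smul_left, smul_right hf, hxx, mul_zero, mul_zero])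
        (by rw [← add_smul]; exact hw0 _)]
      refine fr.E0_congr _ _ ?_
      rw [← hκ, smul_smul, ← add_smul]
      congr 1
      field_simp
      ring
    rw [h3, mul_inv_cancel_right] at h2
    rw [← h2, mul_smul, mul_smul, mul_smul, show r⁻¹ • z1 = z1 from inv_smul_eq_iff.2 rz.symm,
      show S⁻¹ • z1 = z1 from inv_smul_eq_iff.2 hSz.symm, rz, hSz]
  -- a transvection
  have hf4 := K.skewForm 4
  have hxi : K.fm 4 (inc x) (inc x) = 0 := by rw [K.fm_inc, hxx]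
  have hui : K.fm 4 fr.u (inc x) = 0 := (eq_zero_comm hf4).1 (fr.inc_u x)
  set v := inc x + K.σ β • fr.u with hv
  have hvv : K.fm 4 v v = 0 := by
    simp only [hv, hf4.add_left, add_right hf4, hf4.smul_left, smul_right hf4, hxi, hui, fr.inc_u,
      fr.hu, mul_zero, add_zero]
  refine fr.free h1 hΩ hvv (fun e => hx0 ?_) (map_one K.σ) one_ne_zero z1 ?_
  · have := congrArg tail2 e
    rwa [hv, tail2_add, tail2_inc, tail2_smul, fr.tail_u, smul_zero, add_zero] at this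
  · have e : K.tEl hvv 1 (map_one _)
        = fr.E0 (β • x) (hw0 β) * (K.tEl fr.hu c hc * K.embHom 2 g2) := by
      refine K.g_ext fun t => ?_
      rw [K.emb_tEl hxx 1 (map_one _), Subgroup.coe_mul, Subgroup.coe_mul, ap_mul, ap_mul,
        fr.ap_E0, K.ap_tEl, K.ap_tEl, K.ap_tEl]
      simp only [hv, inc_smul, hf4.add_left, add_right hf4, hf4.smul_left, smul_right hf4, hxi, hui,
        fr.inc_u, fr.hu, K.invol]
      rw [show c = β * K.σ β from hβ.symm]
      module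
    rw [e, mul_smul, hfix, hE]

/-- No invariant is real for a large field. -/
theorem real_false_large (h1 : 1 < Nat.card Ω) (hΩ : Nat.card Ω < (q + 1) * (q ^ 3 + 1))
    (hq4 : 4 ≤ q) {z : Ω} {x y : Fin 2 → F} (hxy : Hyp K x y) (hA : fr.ab z = K.rspan x y) :
    False := by
  obtain ⟨μ, hμ, hμ0, hμ1⟩ := K.exists_real_sq hq4
  obtain ⟨S, hSu, hSu', hSi'⟩ := fr.exists_tor (by omega) hμ0
  have hSi : ∀ w, ap (S : GL (Fin 4) F) (inc w) = inc w := fun w => by
    rw [hSi', hμ, div_self hμ0, sub_self, zero_mul, zero_smul, add_zero]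
  have hμμ : μ - 1 ≠ 0 := sub_ne_zero.2 fun e => hμ1 (by rw [e, mul_one])
  have hμr : K.σ (μ - 1)⁻¹ = (μ - 1)⁻¹ := by rw [map_inv₀, map_sub, map_one, hμ]
  have habS : fr.ab (S • z) = fr.ab z := by
    refine (AddSubgroup.eq_of_le_of_card_ge (fun w hw => ?_)
      (le_of_eq (fr.card_ab_smul hμ0 hSu z))).symm
    have h2 := fr.mem_ab_smul hSu (G := fun w => w) hSi (z := z) (w := μ⁻¹ • w) (hA ▸
      hxy.smul_mem (hA ▸ hw) (by rw [map_inv₀, hμ]))
    rwa [hμ, smul_inv_smul₀ hμ0] at h2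
  obtain ⟨z1, habz, c1, hc1, hpre⟩ := fr.exists_pre_fix h1 hΩ hSu (G := fun w => w) hSi (fun w =>
    ⟨(μ - 1)⁻¹ • w, by
      rw [hμ]
      calc μ • ((μ - 1)⁻¹ • w) - (μ - 1)⁻¹ • w = (μ - 1) • ((μ - 1)⁻¹ • w) := by module
        _ = w := smul_inv_smul₀ hμμ w⟩) habS
  have hμμ1 : μ * μ - 1 ≠ 0 := sub_ne_zero.2 hμ1
  set d := c1 / (μ * μ - 1) with hd
  have hdr : K.σ d = d := by rw [hd, map_div₀, map_sub, map_mul, map_one, hc1, hμ]
  have hconj : ∀ e (he : K.σ e = e), S * K.tEl fr.hu e he * S⁻¹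
      = K.tEl fr.hu (μ * μ * e) (by rw [map_mul, map_mul, hμ, he]) := fun e he =>
    K.conj_tEl fr.hu fr.hu e _ he _ S hSu (by rw [hμ])
  set z2 := K.tEl fr.hu d hdr • z1 with hz2
  have habz2 : fr.ab z2 = fr.ab z1 :=
    (fr.inv_of_mem_orbit (y := z2) (z := z1)
      ⟨⟨K.tEl fr.hu d hdr, K.tr_le_root fr.hu (K.isTr_tEl _ _ _)⟩, rfl⟩).1
  have hSz : S • z2 = z2 := by
    have h2 : S * K.tEl fr.hu d hdr = K.tEl fr.hu d hdr * (K.tEl fr.hu c1 hc1 * S) := by
      rw [mul_inv_eq_iff_eq_mul.1 (hconj d hdr), ← mul_assoc, K.tEl_mul]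
      congr 1
      refine K.tEl_congr _ _ _ ?_
      linear_combination div_mul_cancel₀ c1 hμμ1
    rw [hz2, ← mul_smul, h2, mul_smul, hpre]
  set g2 := K.tEl hxy.hxx 1 (map_one _)
  have hgA : fr.ab (K.embHom 2 g2 • z2) = fr.ab z2 := by
    rw [(fr.emb_smul g2 z2).1, habz2, habz, hA, hxy.mapSub_eq]
  obtain ⟨c, hc, hfix⟩ := fr.centr_fix h1 hΩ hSu (G := fun w => w) hSi hSz hSz
    (fr.comm_emb hSu hSu' (G := fun w => w) hSi g2 fun _ => rfl) hgA (fun w hw => by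
      rw [habz2, habz, hA] at hw ⊢
      have h2 := hxy.smul_mem hw hμr
      rwa [hμ, show μ • w - w = (μ - 1) • w by module, inv_smul_smul₀ hμμ] at h2)
  have hcomm : S * K.embHom 2 g2 = K.embHom 2 g2 * S :=
    (fr.comm_emb hSu hSu' (G := fun w => w) hSi g2 fun _ => rfl).symm
  have h2 : (K.tEl fr.hu (μ * μ * c) (by rw [map_mul, map_mul, hμ, hc]) * K.embHom 2 g2) • z2
      = z2 := by
    rw [← hconj c hc, show S * K.tEl fr.hu c hc * S⁻¹ * K.embHom 2 g2
      = S * (K.tEl fr.hu c hc * K.embHom 2 g2) * S⁻¹ by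
        rw [show S * (K.tEl fr.hu c hc * K.embHom 2 g2) * S⁻¹
          = S * K.tEl fr.hu c hc * S⁻¹ * (S * K.embHom 2 g2 * S⁻¹) by group,
          mul_inv_eq_iff_eq_mul.2 hcomm], mul_smul, mul_smul, show S⁻¹ • z2 = z2 from inv_smul_eq_iff.2 hSz.symm, hfix, hSz]
  have hc0 : c = 0 := by
    by_contra hc0
    have hr : K.σ (μ * μ * c - c) = μ * μ * c - c := by rw [map_sub, map_mul, map_mul, hμ, hc]
    refine fr.free h1 hΩ fr.hu fr.u_ne hr ?_ z2 ?_
    · rw [show μ * μ * c - c = (μ * μ - 1) * c by ring]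
      exact mul_ne_zero hμμ1 hc0
    · conv_rhs => rw [← h2]
      conv_lhs => rw [← hfix]
      rw [← mul_smul, ← mul_assoc, K.tEl_mul]
      congr 2
      exact K.tEl_congr _ _ _ (by ring)
  rw [K.tEl_congr fr.hu hc (map_zero _) hc0, K.tEl_zero, one_mul, K.emb_tEl] at hfix
  refine fr.free h1 hΩ _ (fun e => hxy.x_ne ?_) _ one_ne_zero z2 hfix
  have := congrArg tail2 e
  rwa [tail2_inc] at this

end Frame

namespace UC

variable (K)

lemma fm_four (x y : Fin 4 → F) : K.fm 4 x y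
    = K.ζ * (x 0 * K.σ (y 0) + x 1 * K.σ (y 1) + x 2 * K.σ (y 2) + x 3 * K.σ (y 3)) := by
  simp only [fm, K.conj.herm_apply, Fin.sum_univ_four, K.σ_eq]

lemma fm_two (x y : Fin 2 → F) :
    K.fm 2 x y = K.ζ * (x 0 * K.σ (y 0) + x 1 * K.σ (y 1)) := by
  simp only [fm, K.conj.herm_apply, Fin.sum_univ_two, K.σ_eq]

/-- A frame on two given vectors of the first two coordinates. -/
theorem exists_frame_of {a0 a1 b0 b1 : F} (ha : a0 * K.σ a0 + a1 * K.σ a1 = 0)
    (hb : b0 * K.σ b0 + b1 * K.σ b1 = 0) (hab : K.ζ * (b0 * K.σ a0 + b1 * K.σ a1) = 1) :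
    ∃ fr : Frame K 2, fr.u = ![a0, a1, 0, 0] ∧ fr.u' = ![b0, b1, 0, 0] := by
  have ha0 : a0 ≠ 0 := by
    intro h
    rw [h, zero_mul, zero_add, mul_eq_zero] at ha
    rcases ha with e | e
    · rw [h, e, map_zero, mul_zero, mul_zero, add_zero, mul_zero] at hab
      exact zero_ne_one hab
    · rw [h, e, map_zero, mul_zero, mul_zero, add_zero, mul_zero] at hab
      exact zero_ne_one hab
  have ha1 : a1 ≠ 0 := by
    intro h
    rw [h, zero_mul, add_zero, mul_eq_zero] at ha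
    exact ha.elim ha0 ((map_ne_zero_iff _ K.σ.injective).2 ha0)
  have hinc : ∀ (w : Fin 2 → F) c d, K.fm 4 (inc w) ![c, d, 0, 0] = 0 := fun w c d => by
    simp [K.fm_four, inc]
  have hemb : ∀ (g : GL (Fin 2) F) c d, ap (emb g) ![c, d, 0, 0] = ![c, d, 0, 0] := fun g c d => by
    rw [show (![c, d, 0, 0] : Fin 4 → F) = Fin.cons c (Fin.cons d 0) from by
      funext i; fin_cases i <;> rfl, ap_emb, ap_zero]
  refine ⟨{ u := ![a0, a1, 0, 0]
            u' := ![b0, b1, 0, 0]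
            hu := by simp [K.fm_four, ha]
            hu' := by simp [K.fm_four, hb]
            hpair := by simp [K.fm_four, hab]
            tail_u := by funext i; fin_cases i <;> simp [tail2]
            tail_u' := by funext i; fin_cases i <;> simp [tail2]
            inc_u := fun w => hinc w _ _
            inc_u' := fun w => hinc w _ _
            perp_eq := fun x hx => ⟨x 0 / a0, ?_⟩
            emb_u := fun g => hemb g _ _
            emb_u' := fun g => hemb g _ _ }, rfl, rfl⟩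
  have hx' : x 0 * K.σ a0 + x 1 * K.σ a1 = 0 := by simpa [K.fm_four, K.ζ_ne] using hx
  have h1 : x 1 * a0 - x 0 * a1 = 0 := by
    refine (mul_eq_zero.1 (show (x 1 * a0 - x 0 * a1) * K.σ a1 = 0 from ?_)).resolve_right
      ((map_ne_zero_iff _ K.σ.injective).2 ha1)
    linear_combination a0 * hx' - x 0 * ha
  funext i
  refine Fin.cases ?_ (fun j => ?_) i
  · simp [inc]
    field_simp
  · refine Fin.cases ?_ (fun l => ?_) j
    · simp [inc]
      field_simp
      linear_combination h1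
    · have : (![0, 0] : Fin 2 → F) l = 0 := by fin_cases l <;> rfl
      simp [inc, tail2, this]

lemma zeta_two (hq : q = 2) : K.ζ = 1 := by
  have h2 := UC.two_eq_zero hq K
  exact (K.fixed_two hq (c := K.ζ) (by linear_combination K.ζ_skew - K.ζ * h2) (map_one _)
    one_ne_zero).resolve_left K.ζ_ne

lemma exists_omega (hq : q = 2) :
    ∃ ω : F, ω * ω + ω + 1 = 0 ∧ K.σ ω = ω * ω ∧ ω * ω * ω = 1 ∧ ω ≠ 1 := by
  obtain ⟨b, hb, hb1⟩ := K.exists_norm_one {1} (by simp; omega)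
  rw [Finset.mem_singleton] at hb1
  have h3 : b * b * b = 1 := by
    have h := hb
    rw [K.norm_eq_pow, hq] at h
    rw [← h]; ring
  refine ⟨b, ?_, ?_, h3, hb1⟩
  · exact (mul_eq_zero.1 (show (b - 1) * (b * b + b + 1) = 0 by linear_combination h3)).resolve_left
      (sub_ne_zero.2 hb1)
  · refine mul_left_cancel₀ (left_ne_zero_of_mul_eq_one hb) ?_
    rw [hb, ← h3]; ring

end UC

namespace Frame

variable (fr : Frame K 2) {Ω : Type*} [MulAction (K.G 4) Ω] [Finite Ω]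
  [IsPretransitive (K.G 4) Ω]
include fr

/-- All invariants are real. -/
theorem real_of (h1 : 1 < Nat.card Ω) (hΩ : Nat.card Ω < (q + 1) * (q ^ 3 + 1)) (z : Ω) :
    (2 : F) = 0 ∧ ∃ x y, Hyp K x y ∧ fr.ab z = K.rspan x y := by
  have hz : fr.cz z ≠ K.fx := by rw [(fr.card_and_bot h1 hΩ).2 z]; exact fr.bot_ne_fx
  exact (fr.moved_structure hΩ hz).2.2.1.resolve_left fun h => fr.line_false h1 hΩ h

/-- Over the field with four elements the centraliser of a diagonal element gives a transvection. -/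
theorem two_centr (hq : q = 2) (h1 : 1 < Nat.card Ω) (hΩ : Nat.card Ω < (q + 1) * (q ^ 3 + 1))
    {t j : K.G 2} (ht : ∀ w, ap (t : GL (Fin 2) F) w = w → w = 0) (hjt : j * (t * t) = t * j)
    {v : Fin 2 → F} (hv : K.fm 2 v v = 0) (hv0 : v ≠ 0) (hj : j = K.tEl hv 1 (map_one _))
    {z1 : Ω} (hT : K.embHom 2 t • z1 = z1) :
    (K.tEl fr.hu 1 (map_one _) * K.embHom 2 j) • z1 = z1 := by
  obtain ⟨-, x, y, hxy, hA⟩ := fr.real_of h1 hΩ z1
  have hti : ∀ w, ap (K.embHom 2 t : GL (Fin 4) F) (inc w) = inc (ap (t : GL (Fin 2) F) w) :=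
    ap_emb_inc (t : GL (Fin 2) F)
  have htu : ap (K.embHom 2 t : GL (Fin 4) F) fr.u = (1 : F) • fr.u := by
    rw [one_smul]; exact fr.emb_u _
  obtain ⟨c, hc, hfix⟩ := fr.centr_fix h1 hΩ htu hti hT (S' := K.embHom 2 (t * t))
    (by rw [map_mul, mul_smul, hT, hT]) (g := K.embHom 2 j) (by rw [← map_mul, hjt, map_mul])
    (by rw [(fr.emb_smul j z1).1, hA, hxy.mapSub_eq]) (fun w hw => by
      rw [map_one, one_smul, hA] at hw
      rw [hA]
      -- the map is injective, hence onto on the real form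
      let ψ : K.rspan x y → K.rspan x y := fun w =>
        ⟨ap (t : GL (Fin 2) F) w.1 - w.1, sub_mem (hxy.map_mem t w.2) w.2⟩
      have hinj : ∀ w w' : Fin 2 → F, ap (t : GL (Fin 2) F) w - w = ap (t : GL (Fin 2) F) w' - w' →
          w = w' := fun w w' e => sub_eq_zero.1 (ht _ (by
        have hm : ap (t : GL (Fin 2) F) (w - w')
            = ap (t : GL (Fin 2) F) w - ap (t : GL (Fin 2) F) w' :=
          map_sub (apEquiv (t : GL (Fin 2) F)) w w'
        rw [hm]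
        linear_combination (norm := module) e))
      have hψ : Function.Injective ψ := fun w w' e =>
        Subtype.ext (hinj _ _ (congrArg Subtype.val e))
      obtain ⟨w', hw'⟩ := (Finite.injective_iff_surjective.1 hψ) ⟨_, hw⟩
      exact hinj _ _ (congrArg Subtype.val hw') ▸ w'.2)
  rcases K.fixed_two hq hc (map_one _) one_ne_zero with h0 | h0
  · exfalso
    rw [K.tEl_congr fr.hu hc (map_zero _) h0, K.tEl_zero, one_mul, hj, K.emb_tEl] at hfix
    exact fr.free h1 hΩ _ (fun e => hv0 (by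
      have := congrArg tail2 e
      rwa [tail2_inc] at this)) _ one_ne_zero z1 hfix
  · rwa [K.tEl_congr fr.hu hc (map_one _) h0] at hfix

end Frame

/-- No small action over the field with four elements. -/
theorem four_false_two (K : UC F q) {Ω : Type*} [MulAction (K.G 4) Ω] [Finite Ω]
    [IsPretransitive (K.G 4) Ω] (hq : q = 2) (h1 : 1 < Nat.card Ω)
    (hΩ : Nat.card Ω < (q + 1) * (q ^ 3 + 1)) : False := by
  classical
  have h2 := UC.two_eq_zero hq K
  have hζ := K.zeta_two hq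
  obtain ⟨ω, hω, hσω, hω3, hω1⟩ := K.exists_omega hq
  have hσω2 : K.σ (ω * ω) = ω := by rw [map_mul, hσω]; linear_combination ω * hω3
  obtain ⟨fr, hfu, hfu'⟩ := K.exists_frame_of (a0 := 1) (a1 := 1) (b0 := ω) (b1 := ω * ω)
    (by rw [map_one]; linear_combination h2)
    (by rw [hσω, hσω2]; linear_combination 2 * hω3 + h2)
    (by rw [hζ, map_one]; linear_combination hω - h2)
  obtain ⟨fr', hgu, hgu'⟩ := K.exists_frame_of (a0 := ω) (a1 := ω * ω) (b0 := 1) (b1 := 1)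
    (by rw [hσω, hσω2]; linear_combination 2 * hω3 + h2)
    (by rw [map_one]; linear_combination h2)
    (by rw [hζ, hσω, hσω2]; linear_combination hω - h2)
  obtain ⟨t, hta, htp⟩ := K.exists_diag ![ω, ω * ω] (fun i => by
    fin_cases i
    · simp [hσω]; linear_combination hω3
    · simp [hσω]; linear_combination (ω * ω * ω + 1) * hω3) (by
    rw [Fin.prod_univ_two]; simp; linear_combination hω3)
  have htapp : ∀ w : Fin 2 → F, ap (t : GL (Fin 2) F) w = ![ω * w 0, ω * ω * w 1] := fun w => by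
    rw [hta]; funext i; fin_cases i <;> simp
  have hω2 : ω * ω ≠ 1 := fun e => hω1 (by linear_combination hω3 - ω * e)
  have hv : K.fm 2 (![1, 1] : Fin 2 → F) ![1, 1] = 0 := by
    rw [K.fm_two, hζ]; simp; linear_combination h2
  have hv0 : (![1, 1] : Fin 2 → F) ≠ 0 := fun e => by simpa using congrFun e 0
  set j := K.tEl hv 1 (map_one _) with hj
  have hja : ∀ w : Fin 2 → F, ap (j : GL (Fin 2) F) w = ![w 1, w 0] := fun w => by
    rw [hj, K.ap_tEl, K.fm_two, hζ]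
    funext i; fin_cases i <;> simp
    · linear_combination w 0 * h2
    · linear_combination w 1 * h2
  have hjt : j * (t * t) = t * j := K.g_ext fun w => by
    simp only [Subgroup.coe_mul, ap_mul, hja, htapp]
    funext i; fin_cases i <;> simp
    · linear_combination ω * w 1 * hω3
    · ring
  have hjj : j * j = 1 := K.g_ext fun w => by
    simp only [Subgroup.coe_mul, Subgroup.coe_one, ap_mul, ap_one, hja]
    funext i; fin_cases i <;> simp
  have htfix : ∀ w, ap (t : GL (Fin 2) F) w = w → w = 0 := fun w hw => by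
    rw [htapp] at hw
    have e0 := congrFun hw 0
    have e1 := congrFun hw 1
    simp at e0 e1
    funext i; fin_cases i
    · exact (mul_eq_zero.1 (show (ω - 1) * w 0 = 0 by linear_combination e0)).resolve_left
        (sub_ne_zero.2 hω1)
    · exact (mul_eq_zero.1 (show (ω * ω - 1) * w 1 = 0 by linear_combination e1)).resolve_left
        (sub_ne_zero.2 hω2)
  -- a fixed point of the diagonal element
  have : Nonempty Ω := (Nat.card_pos_iff.1 (by omega : 0 < Nat.card Ω)).1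
  let z : Ω := Classical.arbitrary Ω
  obtain ⟨-, x, y, hxy, hA⟩ := fr.real_of h1 hΩ z
  have hTu : ap (K.embHom 2 t : GL (Fin 4) F) fr.u = (1 : F) • fr.u := by
    rw [one_smul]; exact fr.emb_u _
  obtain ⟨z1, -, c, hc, hpre⟩ := fr.exists_pre_fix h1 hΩ hTu
    (G := ap (t : GL (Fin 2) F)) (ap_emb_inc (t : GL (Fin 2) F))
    (fun w => ⟨![w 0 / (ω - 1), w 1 / (ω * ω - 1)], by
      have e0 : ω - 1 ≠ 0 := sub_ne_zero.2 hω1
      have e1 : ω * ω - 1 ≠ 0 := sub_ne_zero.2 hω2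
      rw [map_one, one_smul, htapp]
      funext i; fin_cases i <;> simp
      · linear_combination div_mul_cancel₀ (w 0) e0
      · linear_combination div_mul_cancel₀ (w 1) e1⟩)
    (show fr.ab (K.embHom 2 t • z) = fr.ab z by rw [(fr.emb_smul t z).1, hA, hxy.mapSub_eq])
  have hT : K.embHom 2 t • z1 = z1 :=
    fr.fix_of_norm_one (by rw [map_one, one_mul]) hTu (by rw [← map_pow, htp, map_one]) hpre
  have hfixA := fr.two_centr hq h1 hΩ htfix hjt hv hv0 hj hT
  have hfixB := fr'.two_centr hq h1 hΩ htfix hjt hv hv0 hj hT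
  set A := K.tEl fr.hu 1 (map_one _)
  set B := K.tEl fr'.hu 1 (map_one _) with hB
  set J := K.embHom 2 j with hJdef
  have hJB : J * B = B * J := fr'.emb_comm_Z j (K.isTr_tEl _ _ _)
  have hJJ : J * J = 1 := by rw [hJdef, ← map_mul, hjj, map_one]
  have hM : (A * B) • z1 = z1 := by
    have e : (A * J) * (B * J) = A * B := by
      rw [mul_assoc, ← mul_assoc J, hJB, mul_assoc B, hJJ, mul_one]
    rw [← e, mul_smul, hfixB, hfixA]
  -- interchanging two coordinates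
  have hw : K.fm 4 (![0, 1, 1, 0] : Fin 4 → F) ![0, 1, 1, 0] = 0 := by
    rw [K.fm_four]; simp; exact Or.inr (by linear_combination h2)
  set P := K.tEl hw 1 (map_one _) with hP
  have hPa : ∀ v : Fin 4 → F, ap (P : GL (Fin 4) F) v = ![v 0, v 2, v 1, v 3] := fun v => by
    rw [hP, K.ap_tEl, K.fm_four, hζ]
    funext i; fin_cases i <;> simp
    · linear_combination v 1 * h2
    · linear_combination v 2 * h2
  set D := A * B * K.embHom 2 t with hD
  have hDz : D • z1 = z1 := by rw [hD, mul_smul, hT, hM]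
  have hDa : ∀ v : Fin 4 → F, ap (D : GL (Fin 4) F) v
      = ![ω * v 0, ω * ω * v 1, ω * v 2, ω * ω * v 3] := fun v => by
    have e1 : ap (K.embHom 2 t : GL (Fin 4) F) v
        = ![v 0, v 1, ω * v 2, ω * ω * v 3] := by
      show ap (emb (t : GL (Fin 2) F)) v = _
      conv_lhs => rw [← cons_tail2 v]
      rw [ap_emb, htapp]
      funext i; fin_cases i <;> simp [tail2]
    have e2 : ∀ v : Fin 4 → F, ap ((A * B : K.G 4) : GL (Fin 4) F) v
        = ![ω * v 0, ω * ω * v 1, v 2, v 3] := fun v => by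
      simp only [A, hB, Subgroup.coe_mul, ap_mul, K.ap_tEl, hfu, hgu, K.fm_four, hζ]
      funext i; fin_cases i <;> simp [hσω, hσω2, Matrix.vecHead, Matrix.vecTail]
      · linear_combination (v 0 + v 0 * ω * ω * ω + v 1 * ω * ω + v 1) * h2
          + (v 0 * ω + v 1) * hω3
      · linear_combination (v 1 + (v 0 * (ω * ω) + v 1 * ω) * ω * ω + v 0) * h2 + v 0 * hω3
    rw [hD, Subgroup.coe_mul, ap_mul, e1, e2]
    simp
  set S := P * D * P with hS
  have hSa : ∀ v : Fin 4 → F, ap (S : GL (Fin 4) F) v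
      = ![ω * v 0, ω * v 1, ω * ω * v 2, ω * ω * v 3] := fun v => by
    rw [hS, Subgroup.coe_mul, Subgroup.coe_mul, ap_mul, ap_mul, hPa, hDa, hPa]
    simp
  have hPP : P * P = 1 := K.g_ext fun v => by
    rw [Subgroup.coe_mul, Subgroup.coe_one, ap_mul, ap_one, hPa, hPa]
    funext i; fin_cases i <;> simp
  have hSz : S • (P • z1) = P • z1 := by
    rw [hS, ← mul_smul, mul_assoc (P * D), hPP, mul_one, mul_smul, hDz]
  have hω0 : ω ≠ 0 := fun e => by simp [e] at hω3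
  have hωi : ω⁻¹ = ω * ω := inv_eq_of_mul_eq_one_right (by linear_combination hω3)
  have hSu : ap (S : GL (Fin 4) F) fr.u = ω • fr.u := by
    rw [hSa, hfu]; funext i; fin_cases i <;> simp
  have hSi : ∀ w, ap (S : GL (Fin 4) F) (inc w) = inc (ω⁻¹ • w) := fun w => by
    rw [hSa, hωi]; funext i; fin_cases i <;> simp [inc] <;> rfl
  obtain ⟨-, x', y', hxy', hA'⟩ := fr.real_of h1 hΩ (P • z1)
  have hx : x' ∈ fr.ab (P • z1) := hA' ▸ ⟨1, map_one _, 0, map_zero _, by simp⟩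
  have h5 := ((fr.ab_scal (by rw [hσω]; linear_combination hω3) hSu hSi (P • z1)).2 x').2 hx
  rw [hSz, hA'] at h5
  have h6 := hxy'.real_of_smul_mem ⟨1, map_one _, 0, map_zero _, by simp⟩ hxy'.x_ne h5
  rw [hωi, map_mul, hσω2] at h6
  exact hω1 (by linear_combination (ω * ω) * h6 + (ω * ω * ω + 1 - ω) * hω3)

/-- There is no small non-trivial transitive action in dimension four. -/
theorem no_small_four (K : UC F q) {Ω : Type*} [MulAction (K.G 4) Ω] [Finite Ω]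
    [IsPretransitive (K.G 4) Ω] (h1 : 1 < Nat.card Ω)
    (hΩ : Nat.card Ω < (q + 1) * (q ^ 3 + 1)) : False := by
  obtain ⟨fr⟩ := exists_frame K 2
  have : Nonempty Ω := (Nat.card_pos_iff.1 (by omega : 0 < Nat.card Ω)).1
  obtain ⟨h2, x, y, hxy, hA⟩ := fr.real_of h1 hΩ (Classical.arbitrary Ω)
  have := K.two_le
  obtain hq | hq | hq : q = 2 ∨ q = 3 ∨ 4 ≤ q := by omega
  · exact four_false_two K hq h1 hΩ
  · exact one_ne_zero (α := F) (by linear_combination UC.three_eq_zero hq K - h2)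
  · exact fr.real_false_large h1 hΩ hq hxy hA

end CfsgLib.MinIndexUnit
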