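import Cfsg.Agent.Lib.MinIndex.Unit.Endgame

/-!
The minimal index of a proper subgroup of a projective special unitary group of dimension at least
five.
-/

set_option autoImplicit false
set_option linter.unusedSectionVars false

namespace CfsgLib.MinIndexUnit

open CfsgLib.Geometric CfsgLib.Geometric.Unitary CfsgLib.ClassicalForms MulAction

variable {F : Type*} [Field F] [Finite F] {q : ℕ}

namespace UC

variable (K : UC F q)

/-- The lower bound. -/
theorem pts_le_index {m : ℕ} (hm : 3 ≤ m) (hqm : 3 ≤ q ∨ Odd m) (H : Subgroup (K.G (m + 2)))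
    (hH : H ≠ ⊤) : K.pts (m + 2) ≤ H.index := by
  by_contra h
  push Not at h
  rw [Subgroup.index] at h
  obtain ⟨fr⟩ := exists_frame K m
  refine fr.no_small_action (Ω := K.G (m + 2) ⧸ H) hm hqm ?_ h
  rw [← Subgroup.index]
  exact Subgroup.one_lt_index_of_ne_top hH

/-- The isotropic vectors as a set with action. -/
@[reducible] def clsAction (n : ℕ) : MulAction (K.G n) (K.cls (m := n) 0) where
  smul g x := ⟨ap (g : GL (Fin n) F) x.1, ap_ne_zero _ x.2.1, by rw [K.fm_ap]; exact x.2.2⟩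
  one_smul x := Subtype.ext (ap_one x.1)
  mul_smul g h x := Subtype.ext (ap_mul _ _ x.1)

end UC

namespace Frame

variable {K : UC F q} {m : ℕ} (fr : Frame K m)
include fr

/-- The stabiliser of the line. -/
def line : Subgroup (K.G (m + 2)) where
  carrier := {g | ∃ a : F, ap (g : GL (Fin (m + 2)) F) fr.u = a • fr.u}
  one_mem' := ⟨1, by rw [one_smul, Subgroup.coe_one, ap_one]⟩
  mul_mem' := by
    rintro g h ⟨a, ha⟩ ⟨b, hb⟩
    exact ⟨b * a, by rw [Subgroup.coe_mul, ap_mul, hb, ap_smul, ha, smul_smul]⟩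
  inv_mem' := by
    rintro g ⟨a, ha⟩
    have ha0 : a ≠ 0 := fun h => ap_ne_zero (g : GL (Fin (m + 2)) F) fr.u_ne (by
      rw [ha, h, zero_smul])
    exact ⟨a⁻¹, by rw [Subgroup.coe_inv, eq_inv_smul_iff₀ ha0, ← ap_smul, ← ha, ap_inv_ap]⟩

lemma center_le_line : Subgroup.center (K.G (m + 2)) ≤ fr.line := fun z hz => by
  refine ⟨K.fm _ (ap (z : GL (Fin (m + 2)) F) fr.u') fr.u, ?_⟩
  have h := congrArg (fun g : K.G (m + 2) => ap (g : GL (Fin (m + 2)) F) fr.u')
    (Subgroup.mem_center_iff.1 hz (K.tEl fr.hu 1 (map_one _)))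
  simp only [Subgroup.coe_mul, ap_mul, K.ap_tEl, one_mul, fr.hpair, one_smul, ap_add,
    add_right_inj] at h
  exact h.symm

/-- The index of the stabiliser of a line. -/
theorem index_line (hm : 1 ≤ m) : fr.line.index = K.pts (m + 2) := by
  letI := K.clsAction (m + 2)
  have : IsPretransitive (K.G (m + 2)) (K.cls (m := m + 2) 0) := ⟨fun x y => by
    obtain ⟨g, hg⟩ := K.exists_move_iso (by omega) x.2.2 y.2.2 x.2.1 y.2.1
    exact ⟨g, Subtype.ext hg⟩⟩
  set u0 : K.cls (m := m + 2) 0 := ⟨fr.u, fr.u_ne, fr.hu⟩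
  set S := stabilizer (K.G (m + 2)) u0 with hS
  have h1 : S.index = K.isoCount (m + 2) := by
    rw [hS, MulAction.index_stabilizer_of_transitive]
    exact K.card_cls_zero
  let α : K.G (m + 2) → F := fun g => -K.fm _ (ap (g : GL (Fin (m + 2)) F) fr.u) fr.u'
  have hα : ∀ g ∈ fr.line, ap (g : GL (Fin (m + 2)) F) fr.u = α g • fr.u ∧ α g ≠ 0 := by
    rintro g ⟨a, ha⟩
    have e : α g = a := by
      simp only [α, ha, (K.skewForm _).smul_left, fr.pair']; ring
    exact ⟨e.symm ▸ ha, fun h => ap_ne_zero (g : GL (Fin (m + 2)) F) fr.u_ne (by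
      rw [ha, ← e, h, zero_smul])⟩
  let φ : fr.line →* Fˣ :=
    { toFun := fun g => Units.mk0 (α g.1) (hα g.1 g.2).2
      map_one' := Units.ext (by simp [α, fr.pair', ap_one])
      map_mul' := fun g h => Units.ext (smul_left_injective F fr.u_ne (by
        show α (g.1 * h.1) • fr.u = (α g.1 * α h.1) • fr.u
        rw [← (hα (g.1 * h.1) (mul_mem g.2 h.2)).1, Subgroup.coe_mul, ap_mul, (hα _ h.2).1, ap_smul, (hα _ g.2).1,
          smul_smul, mul_comm])) }
  have hsurj : Function.Surjective φ := fun c => by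
    obtain ⟨t, htu, -, -⟩ := fr.exists_tor hm c.ne_zero
    refine ⟨⟨t, c, htu⟩, Units.ext (smul_left_injective F fr.u_ne ?_)⟩
    show α t • fr.u = (c : F) • fr.u
    rw [← (hα t ⟨c, htu⟩).1, htu]
  have hSle : S ≤ fr.line := fun g hg => ⟨1, by
    rw [one_smul]; exact congrArg Subtype.val hg⟩
  have hker : φ.ker = S.subgroupOf fr.line := by
    ext g
    rw [MonoidHom.mem_ker, Subgroup.mem_subgroupOf, hS, mem_stabilizer_iff]
    constructor
    · intro h
      refine Subtype.ext ?_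
      show ap (g.1 : GL (Fin (m + 2)) F) fr.u = fr.u
      rw [(hα _ g.2).1, show α g.1 = 1 from congrArg Units.val h, one_smul]
    · intro h
      refine Units.ext (smul_left_injective F fr.u_ne ?_)
      show α g.1 • fr.u = (1 : F) • fr.u
      rw [← (hα _ g.2).1, one_smul]
      exact congrArg Subtype.val h
  have h2 : S.relIndex fr.line = q ^ 2 - 1 := by
    rw [Subgroup.relIndex, ← hker, Subgroup.index_ker, MonoidHom.range_eq_top.2 hsurj,
      Nat.card_congr Subgroup.topEquiv.toEquiv, Nat.card_units, K.card_eq]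
  have h3 := Subgroup.relIndex_mul_index hSle
  rw [h1, h2, ← K.pts_mul] at h3
  exact Nat.eq_of_mul_eq_mul_left K.sq_sub_one_pos h3

end Frame

namespace UC

variable (K : UC F q)

/-- The minimal index, and a subgroup attaining it. -/
theorem min_index_psu {n : ℕ} (hn : 5 ≤ n) (hqn : 3 ≤ q ∨ Odd n) :
    (∀ H : Subgroup (Cfsg.PSU n F q), H ≠ ⊤ → K.pts n ≤ H.index) ∧
      ∃ H : Subgroup (Cfsg.PSU n F q), H.index = K.pts n := by
  obtain ⟨m, rfl⟩ : ∃ m, n = m + 2 := ⟨n - 2, by omega⟩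
  have hqm : 3 ≤ q ∨ Odd m := hqn.imp id fun h => by
    rcases h with ⟨r, hr⟩; exact ⟨r - 1, by omega⟩
  let e : Cfsg.SU (m + 2) F q ≃* K.G (m + 2) := suEquivIsomSL (n := m + 2) K.ζ_ne
  let π : K.G (m + 2) →* Cfsg.PSU (m + 2) F q :=
    (QuotientGroup.mk' (Subgroup.center (Cfsg.SU (m + 2) F q))).comp e.symm.toMonoidHom
  have hπ : Function.Surjective π := (QuotientGroup.mk'_surjective _).comp e.symm.surjective
  refine ⟨fun H hH => ?_, ?_⟩
  · rw [← Subgroup.index_comap_of_surjective H hπ]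
    refine K.pts_le_index (by omega) hqm _ fun h => hH ?_
    rw [eq_top_iff]
    intro x _
    obtain ⟨g, rfl⟩ := hπ x
    exact (h.ge trivial : g ∈ H.comap π)
  · obtain ⟨fr⟩ := exists_frame K m
    refine ⟨fr.line.map π, ?_⟩
    rw [← Subgroup.index_comap_of_surjective _ hπ, Subgroup.comap_map_eq, sup_eq_left.2,
      fr.index_line (by omega)]
    intro g hg
    refine fr.center_le_line (Subgroup.mem_center_iff.2 fun h => ?_)
    have h1 : e.symm g ∈ Subgroup.center (Cfsg.SU (m + 2) F q) :=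
      (QuotientGroup.eq_one_iff _).1 hg
    apply e.symm.injective
    rw [map_mul, map_mul]
    exact Subgroup.mem_center_iff.1 h1 _

lemma pts_odd {n : ℕ} (hn : Odd n) :
    (q ^ n + 1) * (q ^ (n - 1) - 1) / (q ^ 2 - 1) = K.pts n := by
  obtain ⟨k, rfl⟩ : ∃ k, n = k + 1 := ⟨n - 1, by rcases hn with ⟨r, hr⟩; omega⟩
  rw [pts]
  congr 1
  have := K.two_le
  zify [show 1 ≤ q ^ (k + 1 - 1) from Nat.one_le_pow _ _ (by omega)]
  rw [K.iso_succ k, hn.neg_one_pow, Nat.add_sub_cancel]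
  ring

lemma pts_even {n : ℕ} (hn : Even n) (h0 : 0 < n) :
    (q ^ n - 1) * (q ^ (n - 1) + 1) / (q ^ 2 - 1) = K.pts n := by
  obtain ⟨k, rfl⟩ : ∃ k, n = k + 1 := ⟨n - 1, by omega⟩
  rw [pts]
  congr 1
  have := K.two_le
  zify [show 1 ≤ q ^ (k + 1) from Nat.one_le_pow _ _ (by omega)]
  rw [K.iso_succ k, hn.neg_one_pow, Nat.add_sub_cancel]
  ring

end UC

end CfsgLib.MinIndexUnit
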