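import Cfsg.Agent.Lib.MinIndex.Unit.FourEnd
import Cfsg.Agent.Lib.MinIndex.Unit.Main

/-!
The minimal index of a proper subgroup of the four-dimensional projective special unitary group.
-/

set_option autoImplicit false
set_option linter.unusedSectionVars false

namespace CfsgLib.MinIndexUnit

open CfsgLib.Geometric CfsgLib.Geometric.Unitary CfsgLib.ClassicalForms MulAction

variable {F : Type*} [Field F] [Finite F] {q : ℕ}

/-- The vectors spanned by two vectors. -/
def plane {n : ℕ} (v w : Fin n → F) : Set (Fin n → F) :=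
  Set.range fun p : F × F => p.1 • v + p.2 • w

lemma image_plane {n : ℕ} (g : GL (Fin n) F) (v w : Fin n → F) :
    ap g '' plane v w = plane (ap g v) (ap g w) := by
  rw [plane, plane, ← Set.range_comp]
  congr 1
  funext p
  simp [ap_add, ap_smul]

lemma plane_smul {n : ℕ} {a b : F} (ha : a ≠ 0) (hb : b ≠ 0) (v w : Fin n → F) :
    plane (a • v) (b • w) = plane v w := by
  ext t
  constructor
  · rintro ⟨⟨c, d⟩, rfl⟩
    exact ⟨(c * a, d * b), by simp only [smul_smul]⟩
  · rintro ⟨⟨c, d⟩, rfl⟩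
    exact ⟨(c * a⁻¹, d * b⁻¹), by
      simp only [smul_smul, mul_assoc, inv_mul_cancel₀ ha, inv_mul_cancel₀ hb, mul_one]⟩

namespace UC

variable (K : UC F q)

/-- A central element scales the isotropic vectors. -/
lemma center_scales {n : ℕ} {z : K.G n} (hz : z ∈ Subgroup.center (K.G n)) {v : Fin n → F}
    (hv : K.fm n v v = 0) (hv0 : v ≠ 0) :
    ∃ a : F, a ≠ 0 ∧ ap (z : GL (Fin n) F) v = a • v := by
  obtain ⟨w, hw⟩ := ((K.skewForm n).nondegenerate v hv0).2
  have hwv : K.fm n w v ≠ 0 := fun h => hw ((eq_zero_comm (K.skewForm n)).1 h)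
  have h := congrArg (fun g : K.G n => ap (g : GL (Fin n) F) w)
    (Subgroup.mem_center_iff.1 hz (K.tEl hv 1 (map_one _)))
  simp only [Subgroup.coe_mul, ap_mul, K.ap_tEl, one_mul, ap_add, ap_smul, add_right_inj] at h
  have e : ap (z : GL (Fin n) F) v
      = ((K.fm n w v)⁻¹ * K.fm n (ap (z : GL (Fin n) F) w) v) • v := by
    rw [mul_smul, h, inv_smul_smul₀ hwv]
  exact ⟨_, fun h0 => ap_ne_zero _ hv0 (by rw [e, h0, zero_smul]), e⟩

/-- The lower bound. -/
theorem four_le_index (H : Subgroup (K.G 4)) (hH : H ≠ ⊤) :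
    (q + 1) * (q ^ 3 + 1) ≤ H.index := by
  by_contra h
  push Not at h
  rw [Subgroup.index] at h
  refine no_small_four K (Ω := K.G 4 ⧸ H) ?_ h
  rw [← Subgroup.index]
  exact Subgroup.one_lt_index_of_ne_top hH

end UC

namespace Frame

variable {K : UC F q} (fr : Frame K 2) {p : Fin 2 → F}

/-- The images of a totally isotropic plane. -/
def planes (p : Fin 2 → F) : Set (Set (Fin 4 → F)) :=
  {S | ∃ g : K.G 4,
    S = plane (ap (g : GL (Fin 4) F) fr.u) (ap (g : GL (Fin 4) F) (inc p))}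

/-- The action on the planes. -/
@[reducible] def planeAction (p : Fin 2 → F) : MulAction (K.G 4) (fr.planes p) where
  smul g S := ⟨ap (g : GL (Fin 4) F) '' S.1, by
    obtain ⟨h, hh⟩ := S.2
    exact ⟨g * h, by rw [hh, image_plane, Subgroup.coe_mul, ap_mul, ap_mul]⟩⟩
  one_smul S := Subtype.ext (by
    show ap ((1 : K.G 4) : GL (Fin 4) F) '' S.1 = S.1
    simp [ap_one])
  mul_smul g h S := Subtype.ext (by
    show ap ((g * h : K.G 4) : GL (Fin 4) F) '' S.1
      = ap (g : GL (Fin 4) F) '' (ap (h : GL (Fin 4) F) '' S.1)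
    rw [Set.image_image]
    simp [ap_mul])

include fr in
lemma card_plane (hp0 : p ≠ 0) (g : K.G 4) :
    (plane (ap (g : GL (Fin 4) F) fr.u) (ap (g : GL (Fin 4) F) (inc p))).ncard = q ^ 4 := by
  rw [plane, Set.ncard_range_of_injective, Nat.card_prod, K.card_eq]
  · ring
  rintro ⟨a, b⟩ ⟨a', b'⟩ e
  simp only [← ap_smul, ← ap_add] at e
  have e1 := ap_injective _ e
  have e2 := congrArg tail2 e1
  simp only [tail2_add, tail2_smul, fr.tail_u, tail2_inc, smul_zero, zero_add] at e2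
  have hb : b = b' := smul_left_injective F hp0 e2
  rw [hb, add_left_inj] at e1
  exact Prod.ext (smul_left_injective F fr.u_ne e1) hb

include fr in
lemma iso_plane (hpp : K.fm 2 p p = 0) (g : K.G 4) {v w : Fin 4 → F}
    (hv : v ∈ plane (ap (g : GL (Fin 4) F) fr.u) (ap (g : GL (Fin 4) F) (inc p)))
    (hw : w ∈ plane (ap (g : GL (Fin 4) F) fr.u) (ap (g : GL (Fin 4) F) (inc p))) :
    K.fm 4 v w = 0 := by
  obtain ⟨⟨a, b⟩, rfl⟩ := hv
  obtain ⟨⟨c, d⟩, rfl⟩ := hw
  have hf := K.skewForm 4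
  simp only [← ap_smul, ← ap_add, K.fm_ap, hf.add_left, add_right hf, hf.smul_left, smul_right hf,
    fr.hu, fr.inc_u, (eq_zero_comm hf).1 (fr.inc_u p), K.fm_inc, hpp, mul_zero, add_zero]

include fr in
/-- The planes through the first vector. -/
lemma card_thru_u (hp0 : p ≠ 0) (hpp : K.fm 2 p p = 0) :
    Nat.card {S : fr.planes p // fr.u ∈ S.1} = q + 1 := by
  classical
  obtain ⟨y, hxy, -⟩ := K.exists_hyp hpp hp0
  have hl : ∀ l : Fin 2 → F, l ≠ 0 → K.fm 2 l l = 0 → plane fr.u (inc l) ∈ fr.planes p :=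
    fun l hl0 hll => by
      obtain ⟨k, a, ha, hk⟩ := hxy.line_trans hll hl0
      refine ⟨K.embHom 2 k, ?_⟩
      have e1 : ap (K.embHom 2 k : GL (Fin 4) F) fr.u = fr.u := fr.emb_u _
      have e2 : ap (K.embHom 2 k : GL (Fin 4) F) (inc p) = inc (ap (k : GL (Fin 2) F) p) :=
        ap_emb_inc _ _
      rw [e1, e2, hk, inc_smul]
      conv_rhs => rw [← one_smul F fr.u, plane_smul one_ne_zero ha]
  let v : Option K.fx → Fin 2 → F := fun o => o.elim p fun c => (c : F) • p + y
  have hv : ∀ i, v i ≠ 0 ∧ K.fm 2 (v i) (v i) = 0 := by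
    have hf := K.skewForm 2
    rintro (_ | c)
    · exact ⟨hp0, hpp⟩
    · refine ⟨fun e => ?_, ?_⟩
      · have h2 : (c : F) • p + (1 : F) • y = (0 : F) • p + (0 : F) • y := by simpa [v] using e
        exact one_ne_zero (hxy.coord_unique h2).2
      · simp only [v, Option.elim_some, hf.add_left, add_right hf, hf.smul_left, smul_right hf,
          hxy.hxx, hxy.hyy, hxy.fyx, show K.σ (c : F) = c from c.2]
        ring
  let φ : Option K.fx → {S : fr.planes p // fr.u ∈ S.1} := fun i =>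
    ⟨⟨_, hl (v i) (hv i).1 (hv i).2⟩, (1, 0), by simp⟩
  have hinj : Function.Injective φ := by
    intro i j e
    have e1 : plane fr.u (inc (v i)) = plane fr.u (inc (v j)) :=
      congrArg (fun t : {S : fr.planes p // fr.u ∈ S.1} => t.1.1) e
    have h2 : inc (v i) ∈ plane fr.u (inc (v j)) := e1 ▸ ⟨(0, 1), by simp⟩
    obtain ⟨⟨a, b⟩, hab⟩ := h2
    have h3 := congrArg tail2 hab
    simp only [tail2_add, tail2_smul, fr.tail_u, tail2_inc, smul_zero, zero_add] at h3
    rcases i with _ | c <;> rcases j with _ | d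
    · rfl
    · have h4 : (1 : F) • p + (0 : F) • y = (b * d) • p + b • y := by
        rw [mul_smul, ← smul_add]; simpa [v] using h3.symm
      obtain ⟨e1, e2⟩ := hxy.coord_unique h4
      rw [← e2, zero_mul] at e1
      exact absurd e1 one_ne_zero
    · have h4 : (c : F) • p + (1 : F) • y = b • p + (0 : F) • y := by simpa [v] using h3.symm
      exact absurd (hxy.coord_unique h4).2 one_ne_zero
    · have h4 : (c : F) • p + (1 : F) • y = (b * d) • p + b • y := by
        rw [mul_smul, ← smul_add]; simpa [v] using h3.symm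
      obtain ⟨e1, e2⟩ := hxy.coord_unique h4
      rw [← e2, one_mul] at e1
      exact congrArg some (Subtype.ext e1)
  have hsurj : Function.Surjective φ := by
    rintro ⟨⟨_, g, rfl⟩, hu⟩
    set S := plane (ap (g : GL (Fin 4) F) fr.u) (ap (g : GL (Fin 4) F) (inc p)) with hS
    obtain ⟨z, hz, hzu⟩ : ∃ z ∈ S, ∀ a : F, z ≠ a • fr.u := by
      by_contra h
      push Not at h
      obtain ⟨a, ha⟩ := h (ap (g : GL (Fin 4) F) fr.u) ⟨(1, 0), by simp⟩
      obtain ⟨b, hb⟩ := h (ap (g : GL (Fin 4) F) (inc p)) ⟨(0, 1), by simp⟩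
      have e : b • fr.u = a • inc p := by
        apply ap_injective (g : GL (Fin 4) F)
        rw [ap_smul, ap_smul, ha, hb, smul_smul, smul_smul, mul_comm]
      have e2 := congrArg tail2 e
      rw [tail2_smul, tail2_smul, fr.tail_u, tail2_inc, smul_zero] at e2
      rcases smul_eq_zero.1 e2.symm with h0 | h0
      · exact ap_ne_zero (g : GL (Fin 4) F) fr.u_ne (by rw [ha, h0, zero_smul])
      · exact hp0 h0
    obtain ⟨a, ha⟩ := fr.perp_eq z (fr.iso_plane hpp g hz hu)
    set l := tail2 z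
    have hl0 : l ≠ 0 := fun h0 => hzu a (by
      rw [ha, h0]
      conv_rhs => rw [← add_zero (a • fr.u)]
      congr 1
      funext i
      refine Fin.cases ?_ (fun j => Fin.cases ?_ (fun k => ?_) j) i <;> simp [inc])
    have hll : K.fm 2 l l = 0 := by
      have h2 := fr.iso_plane hpp g hz hz
      have hf := K.skewForm 4
      rw [ha] at h2
      simp only [hf.add_left, add_right hf, hf.smul_left, smul_right hf, fr.hu, fr.inc_u,
        (eq_zero_comm hf).1 (fr.inc_u l), K.fm_inc, mul_zero, zero_add] at h2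
      exact h2
    have heq : plane fr.u (inc l) = S := by
      refine Set.eq_of_subset_of_ncard_le ?_ ?_ (Set.toFinite _)
      · rintro _ ⟨⟨c, d⟩, rfl⟩
        obtain ⟨⟨a1, b1⟩, e1⟩ := hu
        obtain ⟨⟨a2, b2⟩, e2⟩ := hz
        have e2' : inc l = (a2 - a * a1) • ap (g : GL (Fin 4) F) fr.u
            + (b2 - a * b1) • ap (g : GL (Fin 4) F) (inc p) := by
          have e3 : inc l = z - a • fr.u := by rw [ha]; abel
          linear_combination (norm := module) e3 - e2 + a • e1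
        refine ⟨(c * a1 + d * (a2 - a * a1), c * b1 + d * (b2 - a * b1)), ?_⟩
        show _ = c • fr.u + d • inc l
        linear_combination (norm := module) c • e1 - d • e2'
      · have e1 : plane fr.u (inc l) = plane (ap ((1 : K.G 4) : GL (Fin 4) F) fr.u)
            (ap ((1 : K.G 4) : GL (Fin 4) F) (inc l)) := by rw [Subgroup.coe_one, ap_one, ap_one]
        rw [hS, fr.card_plane hp0 g, e1, fr.card_plane hl0 1]
    suffices h : ∃ i, ∃ c : F, c ≠ 0 ∧ l = c • v i by
      obtain ⟨i, c, hc, e⟩ := h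
      refine ⟨i, Subtype.ext (Subtype.ext ?_)⟩
      show plane fr.u (inc (v i)) = S
      rw [← heq, e, inc_smul]
      conv_rhs => rw [← one_smul F fr.u, plane_smul one_ne_zero hc]
    rcases hxy.line_cases hll with ⟨c, e⟩ | ⟨c, d, hd, e⟩
    · exact ⟨none, c, fun h0 => hl0 (by rw [e, h0, zero_smul]), e⟩
    · exact ⟨some ⟨d, hd⟩, c, fun h0 => hl0 (by rw [e, h0, zero_smul]), e⟩
  rw [← Nat.card_congr (Equiv.ofBijective φ ⟨hinj, hsurj⟩), Finite.card_option, K.card_fx]

include fr in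
/-- The number of planes. -/
theorem card_planes (hp0 : p ≠ 0) (hpp : K.fm 2 p p = 0) :
    Nat.card (fr.planes p) = (q + 1) * (q ^ 3 + 1) := by
  classical
  letI := fr.planeAction p
  have := Fintype.ofFinite (K.cls (m := 4) 0)
  have := Fintype.ofFinite (fr.planes p)
  have hv : ∀ v : K.cls (m := 4) 0, Nat.card {S : fr.planes p // v.1 ∈ S.1} = q + 1 := by
    intro v
    obtain ⟨g, hg⟩ := K.exists_move_iso (by omega) fr.hu v.2.2 fr.u_ne v.2.1
    rw [← fr.card_thru_u hp0 hpp]
    refine (Nat.card_congr ((MulAction.toPerm g).subtypeEquiv fun S => ?_)).symm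
    show fr.u ∈ S.1 ↔ v.1 ∈ ap (g : GL (Fin 4) F) '' S.1
    rw [← hg, (ap_injective _).mem_set_image]
  have hS : ∀ S : fr.planes p, Nat.card {v : Fin 4 → F // v ∈ S.1 ∧ v ≠ 0} = q ^ 4 - 1 := by
    rintro ⟨_, g, rfl⟩
    set S := plane (ap (g : GL (Fin 4) F) fr.u) (ap (g : GL (Fin 4) F) (inc p)) with hS
    show Nat.card {v : Fin 4 → F // v ∈ S ∧ v ≠ 0} = _
    rw [← fr.card_plane hp0 g, ← hS, ← Set.ncard_diff_singleton_of_mem
      (show (0 : Fin 4 → F) ∈ S from ⟨(0, 0), by simp⟩)]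
    exact Nat.card_coe_set_eq _
  have hcount : Nat.card (fr.planes p) * (q ^ 4 - 1) = K.isoCount 4 * (q + 1) := by
    have e : (Σ v : K.cls (m := 4) 0, {S : fr.planes p // v.1 ∈ S.1})
        ≃ Σ S : fr.planes p, {v : Fin 4 → F // v ∈ S.1 ∧ v ≠ 0} :=
      { toFun := fun a => ⟨a.2.1, a.1.1, a.2.2, a.1.2.1⟩
        invFun := fun a => ⟨⟨a.2.1, a.2.2.2, by
          obtain ⟨g, hg⟩ := a.1.2
          exact fr.iso_plane hpp g (hg ▸ a.2.2.1) (hg ▸ a.2.2.1)⟩, a.1, a.2.2.1⟩
        left_inv := fun a => rfl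
        right_inv := fun a => rfl }
    have h2 := Nat.card_congr e
    rw [Nat.card_sigma, Nat.card_sigma, Finset.sum_congr rfl (fun x _ => hv x),
      Finset.sum_congr rfl (fun y _ => hS y), Finset.sum_const, Finset.sum_const,
      Finset.card_univ, Finset.card_univ, smul_eq_mul, smul_eq_mul, ← Nat.card_eq_fintype_card,
      ← Nat.card_eq_fintype_card, K.card_cls_zero] at h2
    exact h2.symm
  have hq4 : 1 ≤ q ^ 4 := Nat.one_le_pow _ _ (by have := K.two_le; omega)
  have h4 : 0 < q ^ 4 - 1 := by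
    have : 2 ^ 4 ≤ q ^ 4 := Nat.pow_le_pow_left K.two_le 4
    omega
  refine Nat.eq_of_mul_eq_mul_right h4 ?_
  rw [hcount]
  zify [hq4]
  rw [K.iso_four]
  ring

end Frame

namespace UC

/-- The minimal index, and a subgroup attaining it. -/
theorem min_index_psu_four (K : UC F q) :
    (∀ H : Subgroup (Cfsg.PSU 4 F q), H ≠ ⊤ → (q + 1) * (q ^ 3 + 1) ≤ H.index) ∧
      ∃ H : Subgroup (Cfsg.PSU 4 F q), H.index = (q + 1) * (q ^ 3 + 1) := by
  let e : Cfsg.SU 4 F q ≃* K.G 4 := suEquivIsomSL (n := 4) K.ζ_ne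
  let π : K.G 4 →* Cfsg.PSU 4 F q :=
    (QuotientGroup.mk' (Subgroup.center (Cfsg.SU 4 F q))).comp e.symm.toMonoidHom
  have hπ : Function.Surjective π := (QuotientGroup.mk'_surjective _).comp e.symm.surjective
  refine ⟨fun H hH => ?_, ?_⟩
  · rw [← Subgroup.index_comap_of_surjective H hπ]
    refine K.four_le_index _ fun h => hH ?_
    rw [eq_top_iff]
    intro x _
    obtain ⟨g, rfl⟩ := hπ x
    exact (h.ge trivial : g ∈ H.comap π)
  · obtain ⟨fr⟩ := exists_frame K 2
    obtain ⟨p, hp0, hpp⟩ := K.exists_iso_two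
    letI := fr.planeAction p
    let S0 : fr.planes p := ⟨plane fr.u (inc p), 1, by rw [Subgroup.coe_one, ap_one, ap_one]⟩
    have : IsPretransitive (K.G 4) (fr.planes p) := by
      refine ⟨fun S T => ?_⟩
      obtain ⟨g, hg⟩ := S.2
      obtain ⟨h, hh⟩ := T.2
      refine ⟨h * g⁻¹, Subtype.ext ?_⟩
      show ap ((h * g⁻¹ : K.G 4) : GL (Fin 4) F) '' S.1 = T.1
      rw [hg, hh, image_plane, Subgroup.coe_mul, Subgroup.coe_inv, ap_mul, ap_mul, ap_inv_ap,
        ap_inv_ap]
    refine ⟨(stabilizer (K.G 4) S0).map π, ?_⟩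
    rw [← Subgroup.index_comap_of_surjective _ hπ, Subgroup.comap_map_eq, sup_eq_left.2,
      MulAction.index_stabilizer_of_transitive, fr.card_planes hp0 hpp]
    intro g hg
    have hgc : g ∈ Subgroup.center (K.G 4) := by
      refine Subgroup.mem_center_iff.2 fun h => ?_
      have h1 : e.symm g ∈ Subgroup.center (Cfsg.SU 4 F q) :=
        (QuotientGroup.eq_one_iff _).1 hg
      apply e.symm.injective
      rw [map_mul, map_mul]
      exact Subgroup.mem_center_iff.1 h1 _
    obtain ⟨a, ha, hau⟩ := K.center_scales hgc fr.hu fr.u_ne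
    obtain ⟨b, hb, hbp⟩ := K.center_scales hgc (v := inc p) (by rw [K.fm_inc, hpp]) fun h0 => hp0 (by
      have := congrArg tail2 h0
      rwa [tail2_inc] at this)
    refine mem_stabilizer_iff.2 (Subtype.ext ?_)
    show ap (g : GL (Fin 4) F) '' plane fr.u (inc p) = plane fr.u (inc p)
    rw [image_plane, hau, hbp, plane_smul ha hb]

end UC

end CfsgLib.MinIndexUnit
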