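import Cfsg.Agent.Lib.MinIndex.Unit.Action

/-!
Incidence of an orbit of subgroups of vectors with the classes of vectors of given norm.
-/

set_option autoImplicit false
set_option linter.unusedSectionVars false

namespace CfsgLib.MinIndexUnit

open CfsgLib.Geometric CfsgLib.Geometric.Unitary CfsgLib.ClassicalForms

variable {F : Type*} [Field F] [Finite F] {q : ℕ} (K : UC F q) {m : ℕ}

namespace UC

/-- The non-zero vectors with a given value. -/
def cls (a : F) : Set (Fin m → F) := {x | x ≠ 0 ∧ K.fm m x x = a}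

/-- The members of an orbit through a vector. -/
noncomputable def thru (A : AddSubgroup (Fin m → F)) (x : Fin m → F) : ℕ :=
  Nat.card {Ab : K.orb A // x ∈ Ab.1}

/-- The vectors of a subgroup in a class. -/
noncomputable def inCls (A : AddSubgroup (Fin m → F)) (a : F) : ℕ :=
  Nat.card {x : Fin m → F // x ∈ A ∧ x ∈ K.cls a}

lemma orb_mapSub (g : K.G m) {A B : AddSubgroup (Fin m → F)} (hB : B ∈ K.orb A) :
    K.mapSub g B ∈ K.orb A := by
  obtain ⟨h, rfl⟩ := hB
  exact ⟨g * h, K.mapSub_mul g h A⟩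

lemma thru_eq (hm : 3 ≤ m) (A : AddSubgroup (Fin m → F)) {a : F} {x y : Fin m → F}
    (hx : x ∈ K.cls a) (hy : y ∈ K.cls a) : K.thru A x = K.thru A y := by
  have : Finite (AddSubgroup (Fin m → F)) := Finite.of_injective _ SetLike.coe_injective
  have key : ∀ x y, x ∈ K.cls (m := m) a → y ∈ K.cls (m := m) a → K.thru A x ≤ K.thru A y := by
    intro x y hx hy
    obtain ⟨g, hg⟩ := K.exists_move hm (hx.2.trans hy.2.symm) hx.1 hy.1
    refine Nat.card_le_card_of_injective (fun p => ⟨⟨K.mapSub g p.1.1, K.orb_mapSub g p.1.2⟩,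
      by show y ∈ K.mapSub g p.1.1; rw [← hg, K.mem_mapSub]; exact p.2⟩) fun p p' h => ?_
    have h1 := congrArg (fun t => K.mapSub g⁻¹ t.1.1) h
    simp only [← K.mapSub_mul, inv_mul_cancel, K.mapSub_one] at h1
    exact Subtype.ext (Subtype.ext h1)
  exact le_antisymm (key x y hx hy) (key y x hy hx)

lemma inCls_orb (A : AddSubgroup (Fin m → F)) (a : F) {B : AddSubgroup (Fin m → F)}
    (hB : B ∈ K.orb A) : K.inCls B a = K.inCls A a := by
  obtain ⟨g, rfl⟩ := hB
  refine (Nat.card_congr ((apEquiv (g : GL (Fin m) F)).toEquiv.subtypeEquiv fun x => ?_)).symm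
  show x ∈ A ∧ x ∈ K.cls a ↔
    ap (g : GL (Fin m) F) x ∈ K.mapSub g A ∧ ap (g : GL (Fin m) F) x ∈ K.cls a
  rw [K.mem_mapSub]
  refine and_congr_right fun _ => and_congr ?_ (by rw [K.fm_ap])
  exact ⟨ap_ne_zero _, fun h h0 => h (by rw [h0, ap_zero])⟩

/-- The double count. -/
theorem incidence (hm : 3 ≤ m) (A : AddSubgroup (Fin m → F)) (a : F) {x : Fin m → F}
    (hx : x ∈ K.cls a) :
    Nat.card (K.orb A) * K.inCls A a = K.thru A x * Nat.card (K.cls (m := m) a) := by
  classical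
  have : Finite (AddSubgroup (Fin m → F)) := Finite.of_injective _ SetLike.coe_injective
  have := Fintype.ofFinite (K.orb A)
  have := Fintype.ofFinite (K.cls (m := m) a)
  have h1 : Nat.card (Σ B : K.orb A, {y : Fin m → F // y ∈ B.1 ∧ y ∈ K.cls a})
      = Nat.card (K.orb A) * K.inCls A a := by
    rw [Nat.card_sigma, Finset.sum_congr rfl (fun (B : K.orb A) (_ : B ∈ Finset.univ) =>
      show Nat.card {y : Fin m → F // y ∈ B.1 ∧ y ∈ K.cls a} = K.inCls A a from
      K.inCls_orb A a B.2), Finset.sum_const, Finset.card_univ, smul_eq_mul,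
      Nat.card_eq_fintype_card]
  have h2 : Nat.card (Σ y : K.cls (m := m) a, {B : K.orb A // y.1 ∈ B.1})
      = Nat.card (K.cls (m := m) a) * K.thru A x := by
    rw [Nat.card_sigma, Finset.sum_congr rfl (fun (y : K.cls (m := m) a) (_ : y ∈ Finset.univ) =>
      show Nat.card {B : K.orb A // y.1 ∈ B.1} = K.thru A x from K.thru_eq hm A y.2 hx), Finset.sum_const, Finset.card_univ, smul_eq_mul,
      Nat.card_eq_fintype_card]
  rw [← h1, mul_comm, ← h2]
  exact Nat.card_congr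
    { toFun := fun p => ⟨⟨p.2.1, p.2.2.2⟩, ⟨p.1, p.2.2.1⟩⟩
      invFun := fun p => ⟨p.2.1, ⟨p.1.1, p.2.2, p.1.2⟩⟩
      left_inv := fun p => rfl
      right_inv := fun p => rfl }

/-- The number of vectors of a given anisotropic value. -/
noncomputable def normCount (_K : UC F q) (n : ℕ) : ℕ :=
  Nat.card {v : Fin n → F // Cfsg.hermForm n F q v v = 1}

lemma normCount_cast (n : ℕ) :
    (q : ℤ) * K.normCount n = (q : ℤ) ^ (2 * n) - (-1) ^ n * (q : ℤ) ^ n :=
  card_herm_one K.card_eq n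

lemma card_cls_zero : Nat.card (K.cls (m := m) 0) = K.isoCount m :=
  Nat.card_congr (Equiv.subtypeEquivRight fun x => and_congr_right fun _ => K.fm_eq_zero_iff x x)

lemma card_cls {a : F} (hs : K.σ a = -a) (h0 : a ≠ 0) :
    Nat.card (K.cls (m := m) a) = K.normCount m := by
  have h1 := K.card_norm_cast m hs h0
  rw [← K.normCount_cast] at h1
  have hq : (q : ℤ) ≠ 0 := by have := K.two_le; omega
  rw [← Nat.cast_inj.1 (mul_left_cancel₀ hq h1)]
  refine Nat.card_congr (Equiv.subtypeEquivRight fun x => ⟨fun h => h.2, fun h => ⟨?_, h⟩⟩)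
  rintro rfl
  exact h0 (h ▸ zero_left (K.skewForm m) 0)

lemma normCount_pos (hm : 1 ≤ m) : 0 < K.normCount m := by
  refine @Finite.card_pos _ _ ⟨⟨Pi.single ⟨0, hm⟩ 1, ?_⟩⟩
  rw [K.conj.single_right, Pi.single_eq_same]

/-- The isotropic vectors of a subgroup. -/
noncomputable def nIso (A : AddSubgroup (Fin m → F)) : ℕ := K.inCls A 0

/-- The anisotropic vectors of a subgroup. -/
noncomputable def nAni (A : AddSubgroup (Fin m → F)) : ℕ :=
  Nat.card {x : Fin m → F // x ∈ A ∧ K.fm m x x ≠ 0}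

lemma card_split (A : AddSubgroup (Fin m → F)) : Nat.card A = K.nIso A + K.nAni A + 1 := by
  classical
  let e : Option ({x : Fin m → F // x ∈ A ∧ x ∈ K.cls 0} ⊕ {x : Fin m → F // x ∈ A ∧ K.fm m x x ≠ 0})
      ≃ A :=
    { toFun := fun o => o.elim 0 fun p => p.elim (fun x => ⟨x.1, x.2.1⟩) fun x => ⟨x.1, x.2.1⟩
      invFun := fun x => if h : (x : Fin m → F) = 0 then none else
        if h' : K.fm m (x : Fin m → F) x = 0 then some (.inl ⟨x, x.2, h, h'⟩)
        else some (.inr ⟨x, x.2, h'⟩)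
      left_inv := fun o => by
        rcases o with _ | ⟨x⟩ | ⟨x⟩
        · simp
        · simp [x.2.2.1, x.2.2.2]
        · have hx : x.1 ≠ 0 := fun h => x.2.2 (by rw [h]; exact zero_left (K.skewForm m) 0)
          simp [hx, x.2.2]
      right_inv := fun x => by
        by_cases h : (x : Fin m → F) = 0
        · simp [h]; exact Subtype.ext h.symm
        · by_cases h' : K.fm m (x : Fin m → F) x = 0 <;> simp [h, h'] }
  rw [← Nat.card_congr e, Finite.card_option, Nat.card_sum]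
  rfl

/-- The sum of the multiplicities of the anisotropic classes. -/
noncomputable def sAni (hm : 1 ≤ m) (A : AddSubgroup (Fin m → F)) : ℕ :=
  Nat.card (Σ a : {a : F // K.σ a = -a ∧ a ≠ 0},
    {B : K.orb A // (Classical.epsilon fun x : Fin m → F => x ∈ K.cls a.1) ∈ B.1})

lemma cls_nonempty (hm : 1 ≤ m) {a : F} (hs : K.σ a = -a) (h0 : a ≠ 0) :
    ∃ x : Fin m → F, x ∈ K.cls a := by
  have h1 := K.card_cls (m := m) hs h0
  have h2 := K.normCount_pos hm
  rw [← h1, Nat.card_pos_iff] at h2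
  obtain ⟨⟨x, hx⟩⟩ := h2.1
  exact ⟨x, hx⟩

lemma iso_eq (hm : 3 ≤ m) (A : AddSubgroup (Fin m → F)) {x : Fin m → F} (hx : x ∈ K.cls 0) :
    Nat.card (K.orb A) * K.nIso A = K.thru A x * K.isoCount m := by
  rw [nIso, K.incidence hm A 0 hx, K.card_cls_zero]

lemma ani_eq (hm : 3 ≤ m) (A : AddSubgroup (Fin m → F)) :
    Nat.card (K.orb A) * K.nAni A = K.sAni (by omega) A * K.normCount m := by
  classical
  have : Finite (AddSubgroup (Fin m → F)) := Finite.of_injective _ SetLike.coe_injective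
  have := Fintype.ofFinite {a : F // K.σ a = -a ∧ a ≠ 0}
  have e : (Σ a : {a : F // K.σ a = -a ∧ a ≠ 0}, {x : Fin m → F // x ∈ A ∧ x ∈ K.cls a.1})
      ≃ {x : Fin m → F // x ∈ A ∧ K.fm m x x ≠ 0} :=
    { toFun := fun p => ⟨p.2.1, p.2.2.1, by rw [p.2.2.2.2]; exact p.1.2.2⟩
      invFun := fun x => ⟨⟨_, skew_self (K.skewForm m) x.1, x.2.2⟩, x.1, x.2.1,
        fun h => x.2.2 (by rw [h]; exact zero_left (K.skewForm m) 0), rfl⟩
      left_inv := fun p => Sigma.subtype_ext (Subtype.ext p.2.2.2.2) rfl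
      right_inv := fun x => rfl }
  rw [nAni, ← Nat.card_congr e, Nat.card_sigma, sAni, Nat.card_sigma, Finset.mul_sum, Finset.sum_mul]
  refine Finset.sum_congr rfl fun a _ => ?_
  have hx : (Classical.epsilon fun x : Fin m → F => x ∈ K.cls a.1) ∈ K.cls (m := m) a.1 :=
    Classical.epsilon_spec (K.cls_nonempty (by omega) a.2.1 a.2.2)
  have h := K.incidence hm A a.1 hx
  rw [K.card_cls a.2.1 a.2.2] at h
  exact h

lemma thru_pos {A : AddSubgroup (Fin m → F)} {x : Fin m → F} (hx : x ∈ A) : 0 < K.thru A x := by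
  have : Finite (AddSubgroup (Fin m → F)) := Finite.of_injective _ SetLike.coe_injective
  exact @Finite.card_pos _ _ ⟨⟨⟨A, K.mem_orb_self A⟩, hx⟩⟩

lemma exists_thru (hm : 3 ≤ m) {A : AddSubgroup (Fin m → F)} {a : F} {x y : Fin m → F}
    (hx : x ∈ K.cls a) (hy : y ∈ K.cls a) (hyA : y ∈ A) : 0 < K.thru A x := by
  rw [K.thru_eq hm A hx hy]; exact K.thru_pos hyA

/-- An anisotropic vector contributes. -/
lemma one_le_sAni (hm : 3 ≤ m) {A : AddSubgroup (Fin m → F)} {x : Fin m → F} (hxA : x ∈ A)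
    (hx : K.fm m x x ≠ 0) : 1 ≤ K.sAni (by omega) A := by
  have : Finite (AddSubgroup (Fin m → F)) := Finite.of_injective _ SetLike.coe_injective
  have hs : K.σ (K.fm m x x) = -K.fm m x x := skew_self (K.skewForm m) x
  have hx0 : x ≠ 0 := fun h => hx (by rw [h]; exact zero_left (K.skewForm m) 0)
  have hp := K.exists_thru hm (A := A) (Classical.epsilon_spec (p := fun z => z ∈ K.cls (K.fm m x x))
    ⟨x, hx0, rfl⟩) ⟨hx0, rfl⟩ hxA
  obtain ⟨b⟩ := (Nat.card_pos_iff.1 hp).1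
  exact @Finite.card_pos _ _ ⟨⟨⟨_, hs, hx⟩, b⟩⟩

/-- Two different values contribute twice. -/
lemma two_le_sAni (hm : 3 ≤ m) {A : AddSubgroup (Fin m → F)} {x y : Fin m → F} (hxA : x ∈ A)
    (hyA : y ∈ A) (hx : K.fm m x x ≠ 0) (hy : K.fm m y y ≠ 0)
    (hne : K.fm m x x ≠ K.fm m y y) : 2 ≤ K.sAni (by omega) A := by
  have : Finite (AddSubgroup (Fin m → F)) := Finite.of_injective _ SetLike.coe_injective
  have get : ∀ x, x ∈ A → K.fm m x x ≠ 0 → ∃ p : Σ a : {a : F // K.σ a = -a ∧ a ≠ 0},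
      {B : K.orb A // (Classical.epsilon fun x : Fin m → F => x ∈ K.cls a.1) ∈ B.1},
      p.1.1 = K.fm m x x := by
    intro x hxA hx
    have hx0 : x ≠ 0 := fun h => hx (by rw [h]; exact zero_left (K.skewForm m) 0)
    have hp := K.exists_thru hm (A := A) (Classical.epsilon_spec (p := fun z => z ∈ K.cls (K.fm m x x))
      ⟨x, hx0, rfl⟩) ⟨hx0, rfl⟩ hxA
    obtain ⟨b⟩ := (Nat.card_pos_iff.1 hp).1
    exact ⟨⟨⟨_, skew_self (K.skewForm m) x, hx⟩, b⟩, rfl⟩
  obtain ⟨p, hp⟩ := get x hxA hx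
  obtain ⟨p', hp'⟩ := get y hyA hy
  have : Nontrivial (Σ a : {a : F // K.σ a = -a ∧ a ≠ 0},
      {B : K.orb A // (Classical.epsilon fun x : Fin m → F => x ∈ K.cls a.1) ∈ B.1}) :=
    ⟨p, p', fun h => hne (by rw [← hp, ← hp', h])⟩
  exact Finite.one_lt_card

end UC

end CfsgLib.MinIndexUnit
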