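import Cfsg.Agent.Lib.MinIndex.Unit.Action
import Cfsg.Agent.Lib.MinIndex.Orth.Duality

/-!
The commutator pairing on the vectors of the frame complement, and annihilators.
-/

set_option autoImplicit false
set_option linter.unusedSectionVars false

namespace CfsgLib.MinIndexUnit

open CfsgLib.Geometric CfsgLib.Geometric.Unitary CfsgLib.ClassicalForms MulAction
open CfsgLib.MinIndexOrth (chi perpG mem_perpG card_mul_perpG exists_char chi_one_ne eq_zero_of_chi)

variable {F : Type*} [Field F] {q : ℕ} (K : UC F q)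

namespace UC

/-- The commutator form. -/
def om {m : ℕ} (x y : Fin m → F) : F := K.fm m y x - K.fm m x y

lemma om_mem_fx {m : ℕ} (x y : Fin m → F) : K.om x y ∈ K.fx := by
  show K.σ _ = _
  have h1 := (K.skewForm m).skew x y
  have h2 := (K.skewForm m).skew y x
  rw [om, map_sub]
  linear_combination h1 - h2

/-- The pairing attached to a scalar. -/
def pr {m : ℕ} (lam : F) : (Fin m → F) →+ (Fin m → F) →+ F :=
  AddMonoidHom.mk' (fun x => AddMonoidHom.mk' (fun y => lam * K.om x y) fun y z => by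
      simp only [om, add_right (K.skewForm m), (K.skewForm m).add_left]; ring) fun x z => by
    refine AddMonoidHom.ext fun y => ?_
    simp only [AddMonoidHom.mk'_apply, AddMonoidHom.add_apply, om, add_right (K.skewForm m),
      (K.skewForm m).add_left]
    ring

lemma pr_apply {m : ℕ} (lam : F) (x y : Fin m → F) : K.pr lam x y = lam * K.om x y := rfl

variable [Finite F]

lemma pr_nondeg {m : ℕ} {lam : F} (hl : ∃ t ∈ K.fx, chi F (lam * t) ≠ 1) :
    ∀ x : Fin m → F, (∀ a, chi F (K.pr lam x a) = 1) → x = 0 := by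
  intro x hx
  by_contra h0
  obtain ⟨t, ht, hne⟩ := hl
  have hf := K.skewForm m
  obtain ⟨y, hy⟩ := (hf.nondegenerate x h0).1
  obtain ⟨θ, hθ⟩ := exists_trace hf
  apply hne
  have e : K.om x ((t * θ / K.fm m y x) • y) = t := by
    rw [om, hf.smul_left, smul_right hf, hf.skew x y, map_div₀, map_mul, show K.σ t = t from ht,
      div_mul_cancel₀ _ hy, mul_neg, sub_neg_eq_add,
      div_mul_cancel₀ _ ((map_ne_zero_iff _ K.σ.injective).2 hy)]
    linear_combination t * hθ
  simpa [pr_apply, e] using hx ((t * θ / K.fm m y x) • y)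

lemma exists_lam {C : AddSubgroup F} (hC : C < K.fx) :
    ∃ lam : F, (∀ c ∈ C, chi F (lam * c) = 1) ∧ ∃ t ∈ K.fx, chi F (lam * t) ≠ 1 := by
  have hnd : ∀ x : F, (∀ a, chi F (AddMonoidHom.mul x a) = 1) → x = 0 :=
    fun x hx => eq_zero_of_chi hx
  have h1 := card_mul_perpG hnd C
  have h2 := card_mul_perpG hnd K.fx
  by_contra h
  push Not at h
  have hle : perpG AddMonoidHom.mul C ≤ perpG AddMonoidHom.mul K.fx := fun x hx t ht =>
    h x hx t ht
  have hlt : Nat.card C < Nat.card K.fx := by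
    refine Set.Finite.card_lt_card (Set.toFinite _) ?_
    exact SetLike.coe_ssubset_coe.2 hC
  have h3 : Nat.card (perpG AddMonoidHom.mul C) ≤ Nat.card (perpG AddMonoidHom.mul K.fx) :=
    Nat.card_le_card_of_injective _ (AddSubgroup.inclusion_injective hle)
  have h4 : 0 < Nat.card (perpG AddMonoidHom.mul K.fx) := Nat.card_pos
  nlinarith

lemma exists_lam_top : ∃ lam : F, ∃ t ∈ K.fx, chi F (lam * t) ≠ 1 :=
  ⟨1, 1, map_one K.σ, by simpa using chi_one_ne F⟩

lemma mapSub_perp {m : ℕ} (lam : F) (g : K.G m) (A : AddSubgroup (Fin m → F)) :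
    K.mapSub g (perpG (K.pr lam) A) = perpG (K.pr lam) (K.mapSub g A) := by
  ext x
  obtain ⟨y, rfl⟩ : ∃ y, ap (g : GL (Fin m) F) y = x := ⟨_, ap_ap_inv _ x⟩
  rw [K.mem_mapSub, mem_perpG, mem_perpG]
  constructor
  · rintro h _ ⟨a, ha, rfl⟩
    show chi F (lam * K.om _ (ap (g : GL (Fin m) F) a)) = 1
    rw [om, K.fm_ap, K.fm_ap]
    exact h a ha
  · intro h a ha
    have := h _ (K.mem_mapSub.2 ha)
    rwa [pr_apply, om, K.fm_ap, K.fm_ap] at this

lemma card_orb_perp_le {m : ℕ} (lam : F) (A : AddSubgroup (Fin m → F)) :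
    Nat.card (K.orb (perpG (K.pr lam) A)) ≤ Nat.card (K.orb A) := by
  have : Finite (AddSubgroup (Fin m → F)) := Finite.of_injective _ SetLike.coe_injective
  refine Nat.card_le_card_of_surjective
    (fun Ab : K.orb A => (⟨perpG (K.pr lam) Ab.1, by
      obtain ⟨g, hg⟩ := Ab.2
      exact ⟨g, by rw [← hg]; exact K.mapSub_perp lam g A⟩⟩ : K.orb (perpG (K.pr lam) A))) ?_
  rintro ⟨_, g, rfl⟩
  exact ⟨⟨_, g, rfl⟩, Subtype.ext (K.mapSub_perp lam g A).symm⟩

end UC

namespace Frame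

variable {K} [Finite F] {m : ℕ} (fr : Frame K m) {Ω : Type*} [MulAction (K.G (m + 2)) Ω]

/-- Commutators of root elements fixing a point. -/
lemma om_mem_cz {z : Ω} {v w : Fin m → F} (hv : v ∈ fr.ab z) (hw : w ∈ fr.ab z) :
    K.om v w ∈ fr.cz z := by
  obtain ⟨g, hg, gz, rfl⟩ := hv
  obtain ⟨h, hh, hz, rfl⟩ := hw
  obtain ⟨x, c, hx, hc, eg⟩ := id hg
  obtain ⟨y, d, hy, hd, eh⟩ := id hh
  have hf := K.skewForm (m + 2)
  refine ⟨K.om_mem_fx _ _, ?_⟩
  obtain ⟨a, hax⟩ := fr.perp_eq x hx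
  obtain ⟨b, hby⟩ := fr.perp_eq y hy
  have huu : ∀ w, K.fm _ fr.u (inc w) = 0 := fun w => (eq_zero_comm hf).1 (fr.inc_u w)
  have e1 : K.fm _ y x - K.fm _ x y = K.om (fr.proj g) (fr.proj h) := by
    rw [fr.proj_eq eg, fr.proj_eq eh, UC.om]
    conv_lhs => rw [hax, hby]
    simp only [hf.add_left, add_right hf, hf.smul_left, smul_right hf, fr.hu, fr.inc_u, huu,
      K.fm_inc]
    ring
  have hux : K.fm _ fr.u x = 0 := (eq_zero_comm hf).1 hx
  have huy : K.fm _ fr.u y = 0 := (eq_zero_comm hf).1 hy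
  have key : g * h = h * g * K.tEl fr.hu _ (K.om_mem_fx (fr.proj g) (fr.proj h)) := by
    refine K.g_ext fun z' => ?_
    simp only [Subgroup.coe_mul, ap_mul, K.ap_tEl, eg, eh]
    simp only [ap_add, ap_smul, hf.add_left, hf.smul_left, add_right hf, smul_right hf, fr.hu, hx,
      hy, hux, huy, eg, eh, K.ap_tEl, ← e1]
    module
  have h1 : (g * h) • z = z := by rw [mul_smul, hz, gz]
  rw [key, mul_smul] at h1
  refine smul_left_cancel (h * g) (h1.trans ?_)
  rw [mul_smul, gz, hz]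


/-- The square of the projection of a stabiliser is at most the number of vectors. -/
lemma sq_card_ab_le {z : Ω} (hz : fr.cz z ≠ K.fx) :
    Nat.card (fr.ab z) * Nat.card (fr.ab z) ≤ q ^ (2 * m) := by
  obtain ⟨lam, h1, h2⟩ := K.exists_lam (lt_of_le_of_ne (fr.cz_le z) hz)
  have h3 := card_mul_perpG (K.pr_nondeg h2) (fr.ab z)
  rw [card_fun_fin K.card_eq] at h3
  rw [← h3]
  refine Nat.mul_le_mul_left _ (Nat.card_le_card_of_injective _ (AddSubgroup.inclusion_injective
    (show fr.ab z ≤ perpG (K.pr lam) (fr.ab z) from fun x hx a ha => ?_)))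
  exact h1 _ (fr.om_mem_cz hx ha)

end Frame

end CfsgLib.MinIndexUnit
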