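import Cfsg.Agent.Lib.MinIndex.Unit.Basic

/-!
Root groups and transvection groups of the special unitary group at an isotropic vector.
-/

set_option autoImplicit false
set_option linter.unusedSectionVars false

namespace CfsgLib.MinIndexUnit

open CfsgLib.Geometric CfsgLib.Geometric.Unitary CfsgLib.ClassicalForms

variable {F : Type*} [Field F] {q : ℕ} (K : UC F q)

/-- Membership in the root group at `u`. -/
def IsRoot (n : ℕ) (u : Fin n → F) (g : K.G n) : Prop :=
  ∃ (x : Fin n → F) (c : F), K.fm n x u = 0 ∧ c - K.σ c = K.fm n x x ∧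
    ∀ z, ap (g : GL (Fin n) F) z
      = z + K.fm n z u • x + K.fm n z x • u + (c * K.fm n z u) • u

/-- Membership in the transvection group at `u`. -/
def IsTr (n : ℕ) (u : Fin n → F) (g : K.G n) : Prop :=
  ∃ c : F, K.σ c = c ∧ ∀ z, ap (g : GL (Fin n) F) z = z + (c * K.fm n z u) • u

variable {n : ℕ}

namespace UC

/-- The transvection as a group element. -/
def tEl {u : Fin n → F} (hu : K.fm n u u = 0) (c : F) (hc : K.σ c = c) : K.G n :=
  ⟨T (K.skewForm n) u c hu, T_mem (K.skewForm n) hu hc⟩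

lemma ap_tEl {u : Fin n → F} (hu : K.fm n u u = 0) (c : F) (hc : K.σ c = c) (z : Fin n → F) :
    ap (K.tEl hu c hc : GL (Fin n) F) z = z + (c * K.fm n z u) • u :=
  ap_T (K.skewForm n) hu z

/-- The Eichler element as a group element. -/
def eEl {u x : Fin n → F} (hu : K.fm n u u = 0) (hxu : K.fm n x u = 0) (c : F)
    (hc : c - K.σ c = K.fm n x x) : K.G n :=
  ⟨E (K.skewForm n) u x c hu hxu, E_mem (K.skewForm n) hc⟩

lemma ap_eEl {u x : Fin n → F} (hu : K.fm n u u = 0) (hxu : K.fm n x u = 0) (c : F)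
    (hc : c - K.σ c = K.fm n x x) (z : Fin n → F) :
    ap (K.eEl hu hxu c hc : GL (Fin n) F) z
      = z + K.fm n z u • x + K.fm n z x • u + (c * K.fm n z u) • u :=
  ap_E (K.skewForm n) (hu := hu) (hvu := hxu) z

lemma g_ext {g h : K.G n} (e : ∀ z, ap (g : GL (Fin n) F) z = ap (h : GL (Fin n) F) z) : g = h :=
  Subtype.ext (gl_ext e)

lemma fm_ap (g : K.G n) (x y : Fin n → F) :
    K.fm n (ap (g : GL (Fin n) F) x) (ap (g : GL (Fin n) F) y) = K.fm n x y :=
  mem_isom_iff.1 g.2.1 x y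

lemma isTr_tEl {u : Fin n → F} (hu : K.fm n u u = 0) (c : F) (hc : K.σ c = c) :
    IsTr K n u (K.tEl hu c hc) := ⟨c, hc, K.ap_tEl hu c hc⟩

lemma isRoot_eEl {u x : Fin n → F} (hu : K.fm n u u = 0) (hxu : K.fm n x u = 0) (c : F)
    (hc : c - K.σ c = K.fm n x x) : IsRoot K n u (K.eEl hu hxu c hc) :=
  ⟨x, c, hxu, hc, K.ap_eEl hu hxu c hc⟩

variable {K}

lemma _root_.CfsgLib.MinIndexUnit.IsTr.eq_tEl {u : Fin n → F} {g : K.G n} (h : IsTr K n u g)
    (hu : K.fm n u u = 0) : ∃ c hc, g = K.tEl hu c hc := by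
  obtain ⟨c, hc, e⟩ := h
  exact ⟨c, hc, K.g_ext fun z => (e z).trans (K.ap_tEl hu c hc z).symm⟩

lemma _root_.CfsgLib.MinIndexUnit.IsTr.isRoot {u : Fin n → F} {g : K.G n} (h : IsTr K n u g) :
    IsRoot K n u g := by
  obtain ⟨c, hc, e⟩ := h
  have hf := K.skewForm n
  refine ⟨0, c, zero_left hf u, by rw [zero_left hf, hc, sub_self], fun z => ?_⟩
  rw [e, zero_right hf, smul_zero, zero_smul, add_zero, add_zero]

variable (K)

/-- The root group. -/
def root (u : Fin n → F) (hu : K.fm n u u = 0) : Subgroup (K.G n) where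
  carrier := {g | IsRoot K n u g}
  one_mem' := ⟨0, 0, zero_left (K.skewForm n) u, by rw [zero_left (K.skewForm n)]; simp,
    fun z => by simp [zero_right (K.skewForm n)]⟩
  mul_mem' {g h} hg hh := by
    obtain ⟨x, c, hx, hc, eg⟩ := hg
    obtain ⟨y, d, hy, hd, eh⟩ := hh
    have hf := K.skewForm n
    refine ⟨x + y, c + d + K.fm n y x, by rw [hf.add_left, hx, hy, add_zero], ?_, fun z => ?_⟩
    · rw [map_add, map_add, hf.add_left, add_right hf, add_right hf, hf.skew x y]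
      linear_combination hc + hd
    · have hux : K.fm n u x = 0 := (eq_zero_comm hf).1 hx
      rw [Subgroup.coe_mul, ap_mul, eh, eg]
      simp only [hf.add_left, hf.smul_left, add_right hf, hu, hy, hux]
      module
  inv_mem' {g} hg := by
    obtain ⟨x, c, hx, hc, eg⟩ := hg
    have hf := K.skewForm n
    refine ⟨-x, -c + K.fm n x x, by rw [neg_left hf, hx, neg_zero], ?_, fun z => ?_⟩
    · rw [map_add, map_neg, skew_self hf, neg_left hf, neg_right hf]
      linear_combination -hc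
    · apply (ap_injective (g : GL (Fin n) F))
      have hux : K.fm n u x = 0 := (eq_zero_comm hf).1 hx
      rw [Subgroup.coe_inv, ap_ap_inv, eg]
      simp only [hf.add_left, hf.smul_left, add_right hf, neg_right hf, neg_left hf, hu, hx, hux]
      module

lemma mem_root {u : Fin n → F} {hu : K.fm n u u = 0} {g : K.G n} :
    g ∈ K.root u hu ↔ IsRoot K n u g := Iff.rfl

/-- The transvection group. -/
def tr (u : Fin n → F) (hu : K.fm n u u = 0) : Subgroup (K.G n) where
  carrier := {g | IsTr K n u g}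
  one_mem' := ⟨0, map_zero _, fun z => by simp⟩
  mul_mem' {g h} hg hh := by
    obtain ⟨c, hc, eg⟩ := hg
    obtain ⟨d, hd, eh⟩ := hh
    have hf := K.skewForm n
    refine ⟨c + d, by rw [map_add, hc, hd], fun z => ?_⟩
    rw [Subgroup.coe_mul, ap_mul, eh, eg]
    simp only [hf.add_left, hf.smul_left, hu]
    module
  inv_mem' {g} hg := by
    obtain ⟨c, hc, eg⟩ := hg
    have hf := K.skewForm n
    refine ⟨-c, by rw [map_neg, hc], fun z => ?_⟩
    apply (ap_injective (g : GL (Fin n) F))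
    rw [Subgroup.coe_inv, ap_ap_inv, eg]
    simp only [hf.add_left, hf.smul_left, hu]
    module

lemma mem_tr {u : Fin n → F} {hu : K.fm n u u = 0} {g : K.G n} :
    g ∈ K.tr u hu ↔ IsTr K n u g := Iff.rfl

lemma tr_le_root {u : Fin n → F} (hu : K.fm n u u = 0) : K.tr u hu ≤ K.root u hu :=
  fun _ hg => IsTr.isRoot hg

variable {K}

lemma _root_.CfsgLib.MinIndexUnit.IsRoot.conj {u : Fin n → F} {r : K.G n} (h : IsRoot K n u r)
    (g : K.G n) : IsRoot K n (ap (g : GL (Fin n) F) u) (g * r * g⁻¹) := by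
  obtain ⟨x, c, hx, hc, e⟩ := h
  refine ⟨ap (g : GL (Fin n) F) x, c, by rw [K.fm_ap, hx], by rw [K.fm_ap, hc], fun z => ?_⟩
  obtain ⟨z, rfl⟩ : ∃ z', ap (g : GL (Fin n) F) z' = z := ⟨_, ap_ap_inv _ z⟩
  simp only [Subgroup.coe_mul, Subgroup.coe_inv, ap_mul, ap_inv_ap, e, ap_add, ap_smul, K.fm_ap]

lemma _root_.CfsgLib.MinIndexUnit.IsTr.conj {u : Fin n → F} {r : K.G n} (h : IsTr K n u r)
    (g : K.G n) : IsTr K n (ap (g : GL (Fin n) F) u) (g * r * g⁻¹) := by
  obtain ⟨c, hc, e⟩ := h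
  refine ⟨c, hc, fun z => ?_⟩
  obtain ⟨z, rfl⟩ : ∃ z', ap (g : GL (Fin n) F) z' = z := ⟨_, ap_ap_inv _ z⟩
  simp only [Subgroup.coe_mul, Subgroup.coe_inv, ap_mul, ap_inv_ap, e, ap_add, ap_smul, K.fm_ap]

lemma _root_.CfsgLib.MinIndexUnit.IsRoot.of_smul {u : Fin n → F} {a : F} {r : K.G n}
    (h : IsRoot K n (a • u) r) (ha : a ≠ 0) : IsRoot K n u r := by
  obtain ⟨x, c, hx, hc, e⟩ := h
  have hf := K.skewForm n
  rw [smul_right hf, mul_eq_zero, map_eq_zero_iff _ K.σ.injective, or_iff_right ha] at hx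
  refine ⟨K.σ a • x, a * K.σ a * c, by rw [hf.smul_left, hx, mul_zero], ?_, fun z => ?_⟩
  · rw [map_mul, map_mul, K.invol, hf.smul_left, smul_right hf, K.invol, ← hc]; ring
  · rw [e, smul_right hf, smul_right hf, K.invol]
    module

lemma _root_.CfsgLib.MinIndexUnit.IsTr.of_smul {u : Fin n → F} {a : F} {r : K.G n}
    (h : IsTr K n (a • u) r) : IsTr K n u r := by
  obtain ⟨c, hc, e⟩ := h
  refine ⟨a * K.σ a * c, by rw [map_mul, map_mul, K.invol, hc]; ring, fun z => ?_⟩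
  rw [e, smul_right (K.skewForm n)]
  module

variable (K)

end UC

/-- A frame: a hyperbolic pair in the first two coordinates. -/
structure Frame (K : UC F q) (m : ℕ) where
  /-- first vector -/
  u : Fin (m + 2) → F
  /-- second vector -/
  u' : Fin (m + 2) → F
  hu : K.fm (m + 2) u u = 0
  hu' : K.fm (m + 2) u' u' = 0
  hpair : K.fm (m + 2) u' u = 1
  tail_u : tail2 u = 0
  tail_u' : tail2 u' = 0
  inc_u : ∀ w, K.fm (m + 2) (inc w) u = 0
  inc_u' : ∀ w, K.fm (m + 2) (inc w) u' = 0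
  perp_eq : ∀ x, K.fm (m + 2) x u = 0 → ∃ a : F, x = a • u + inc (tail2 x)
  emb_u : ∀ g : GL (Fin m) F, ap (emb g) u = u
  emb_u' : ∀ g : GL (Fin m) F, ap (emb g) u' = u'

theorem exists_frame [Finite F] (m : ℕ) : Nonempty (Frame K m) := by
  set c := K.conj
  obtain ⟨l, hl, hl1, -⟩ := exists_norm_one_ne K.card_eq c
  obtain ⟨μ, hμ⟩ := c.exists_norm (show c.σ (-1 : F) = -1 by rw [map_neg, map_one])
  have hμ0 : c.σ μ ≠ 0 := fun h => by
    rw [h, mul_zero] at hμ; exact one_ne_zero (neg_eq_zero.1 hμ.symm)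
  set z : Fin m → F := 0
  have h00 : K.fm m z z = 0 := zero_left (K.skewForm m) _
  have hform : ∀ a b a' b' : F, K.fm (m + 2) (Fin.cons a (Fin.cons b z))
      (Fin.cons a' (Fin.cons b' z)) = K.ζ * (a * c.σ a' + b * c.σ b') := fun a b a' b' => by
    rw [K.fm_cons, K.fm_cons, h00, add_zero, K.σ_eq, K.σ_eq]; ring
  set d := (K.ζ * (1 + l * μ * c.σ μ))⁻¹ with hd
  have hd0 : K.ζ * (1 + l * μ * c.σ μ) ≠ 0 := by
    rw [mul_assoc l, hμ, mul_neg, mul_one, ← sub_eq_add_neg]
    exact mul_ne_zero K.ζ_ne (sub_ne_zero.2 (Ne.symm hl1))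
  have hemb : ∀ (g : GL (Fin m) F) (a b : F),
      ap (emb g) (Fin.cons a (Fin.cons b z)) = Fin.cons a (Fin.cons b z) := fun g a b => by
    rw [ap_emb, ap_zero]
  have hinc : ∀ w a b, K.fm (m + 2) (inc w) (Fin.cons a (Fin.cons b z)) = 0 := fun w a b => by
    simp [inc, z, K.fm_cons, zero_right (K.skewForm m)]
  have htail : ∀ a b, tail2 (Fin.cons a (Fin.cons b z) : Fin (m + 2) → F) = 0 := fun a b => by
    funext i; simp [tail2, z]
  refine ⟨{ u := Fin.cons 1 (Fin.cons μ z)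
            u' := Fin.cons d (Fin.cons (d * (l * μ)) z)
            hu := ?_, hu' := ?_, hpair := ?_
            tail_u := htail _ _, tail_u' := htail _ _
            inc_u := fun w => hinc _ _ _, inc_u' := fun w => hinc _ _ _
            perp_eq := fun x hx => ⟨x 0, ?_⟩
            emb_u := fun g => hemb _ _ _, emb_u' := fun g => hemb _ _ _ }⟩
  · rw [hform, map_one, one_mul, hμ, add_neg_cancel, mul_zero]
  · rw [hform, map_mul, map_mul]
    linear_combination (K.ζ * d * c.σ d * μ * c.σ μ) * hl + (K.ζ * d * c.σ d) * hμ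
  · rw [hform, map_one,
      show K.ζ * (d * 1 + d * (l * μ) * c.σ μ) = d * (K.ζ * (1 + l * μ * c.σ μ)) by ring, hd,
      inv_mul_cancel₀ hd0]
  · rw [← cons_tail2 x, K.fm_cons, K.fm_cons, zero_right (K.skewForm m), add_zero, map_one,
      mul_one, K.σ_eq μ, ← mul_add, mul_eq_zero, or_iff_right K.ζ_ne] at hx
    have h1 : x 1 = x 0 * μ := by
      have : x 0 * μ + x 1 * (μ * c.σ μ) = 0 := by linear_combination μ * hx
      rw [hμ] at this
      linear_combination -this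
    conv_lhs => rw [← cons_tail2 x]
    funext i
    refine Fin.cases ?_ (fun j => ?_) i
    · simp [inc]
    · refine Fin.cases ?_ (fun k => ?_) j
      · simp [inc, h1]
      · simp [inc, z]

namespace Frame

variable {K} {m : ℕ} (fr : Frame K m)
include fr

lemma u_ne : fr.u ≠ 0 := fun h => by
  have := fr.hpair
  rw [h, zero_right (K.skewForm _)] at this
  exact zero_ne_one this

/-- The root group of the frame. -/
abbrev U : Subgroup (K.G (m + 2)) := K.root fr.u fr.hu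

/-- The transvection group of the frame. -/
abbrev Z : Subgroup (K.G (m + 2)) := K.tr fr.u fr.hu

/-- The projection of a root element. -/
def proj (g : K.G (m + 2)) : Fin m → F := tail2 (ap (g : GL (Fin (m + 2)) F) fr.u')

lemma proj_eq {g : K.G (m + 2)} {x : Fin (m + 2) → F} {c : F}
    (e : ∀ z, ap (g : GL (Fin (m + 2)) F) z
      = z + K.fm _ z fr.u • x + K.fm _ z x • fr.u + (c * K.fm _ z fr.u) • fr.u) :
    fr.proj g = tail2 x := by
  rw [proj, e, tail2_add, tail2_add, tail2_add, tail2_smul, tail2_smul, tail2_smul, fr.hpair,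
    fr.tail_u, fr.tail_u']
  simp

lemma proj_mul {g h : K.G (m + 2)} (hg : g ∈ fr.U) (hh : h ∈ fr.U) :
    fr.proj (g * h) = fr.proj g + fr.proj h := by
  obtain ⟨x, c, hx, hc, eg⟩ := hg
  obtain ⟨y, d, hy, hd, eh⟩ := hh
  have hf := K.skewForm (m + 2)
  have hux : K.fm _ fr.u x = 0 := (eq_zero_comm hf).1 hx
  rw [fr.proj_eq eg, fr.proj_eq eh, ← tail2_add]
  refine fr.proj_eq (c := c + d + K.fm _ y x) fun z => ?_
  rw [Subgroup.coe_mul, ap_mul, eh, eg]
  simp only [hf.add_left, hf.smul_left, add_right hf, fr.hu, hy, hux]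
  module

lemma proj_tr {g : K.G (m + 2)} (hg : g ∈ fr.Z) : fr.proj g = 0 := by
  obtain ⟨c, -, e⟩ := hg
  rw [proj, e, tail2_add, tail2_smul, fr.tail_u, fr.tail_u', smul_zero, add_zero]

lemma mem_Z_of_proj {g : K.G (m + 2)} (hg : g ∈ fr.U) (h0 : fr.proj g = 0) : g ∈ fr.Z := by
  obtain ⟨x, c, hx, hc, eg⟩ := hg
  have hf := K.skewForm (m + 2)
  obtain ⟨a, ha⟩ := fr.perp_eq x hx
  rw [← fr.proj_eq eg, h0] at ha
  have hxa : x = a • fr.u := by
    rw [ha]; simp [show inc (0 : Fin m → F) = 0 from by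
      funext i; refine Fin.cases ?_ (fun j => ?_) i <;> [simp [inc]; skip]
      refine Fin.cases ?_ (fun k => ?_) j <;> simp [inc]]
  subst hxa
  rw [hf.smul_left, smul_right hf, fr.hu, mul_zero, mul_zero, sub_eq_zero] at hc
  refine ⟨a + K.σ a + c, by rw [map_add, map_add, K.invol, ← hc]; ring, fun z => ?_⟩
  rw [eg, smul_right hf]
  module

variable [Finite F]

lemma exists_proj (w : Fin m → F) : ∃ g ∈ fr.U, fr.proj g = w := by
  obtain ⟨a, ha⟩ := exists_sub_eq (K.skewForm (m + 2)) (s := K.fm _ (inc w) (inc w))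
    (skew_self (K.skewForm _) _)
  refine ⟨K.eEl fr.hu (fr.inc_u w) a ha, K.isRoot_eEl _ _ _ _, ?_⟩
  rw [fr.proj_eq (K.ap_eEl fr.hu (fr.inc_u w) a ha), tail2_inc]

/-- The projection as a homomorphism. -/
def projHom : fr.U →* Multiplicative (Fin m → F) where
  toFun g := Multiplicative.ofAdd (fr.proj g)
  map_one' := by
    show Multiplicative.ofAdd (fr.proj 1) = 1
    rw [fr.proj_tr (one_mem _)]; rfl
  map_mul' g h := by
    show Multiplicative.ofAdd (fr.proj (g.1 * h.1)) = _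
    rw [fr.proj_mul g.2 h.2]; rfl

lemma card_Z : Nat.card fr.Z = q := by
  refine Eq.trans ?_ K.card_fixed
  refine (Nat.card_congr (Equiv.ofBijective
    (fun c : {x : F // K.σ x = x} => (⟨K.tEl fr.hu c.1 c.2, K.isTr_tEl _ _ _⟩ : fr.Z))
    ⟨fun c d h => Subtype.ext ?_, fun g => ?_⟩)).symm
  · have h1 := congrArg (fun g : fr.Z => ap (g.1 : GL (Fin (m + 2)) F) fr.u') h
    simp only [K.ap_tEl, fr.hpair, mul_one, add_right_inj] at h1
    exact smul_left_injective F fr.u_ne h1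
  · obtain ⟨c, hc, e⟩ := IsTr.eq_tEl g.2 fr.hu
    exact ⟨⟨c, hc⟩, Subtype.ext e.symm⟩

lemma card_U : Nat.card fr.U = q ^ (2 * m + 1) := by
  have hs : Function.Surjective fr.projHom := fun w => by
    obtain ⟨g, hg, e⟩ := fr.exists_proj (Multiplicative.toAdd w)
    exact ⟨⟨g, hg⟩, congrArg Multiplicative.ofAdd e⟩
  have hk : fr.projHom.ker = fr.Z.subgroupOf fr.U := by
    ext g
    refine ⟨fun h => fr.mem_Z_of_proj g.2 h, fun h => ?_⟩
    exact congrArg Multiplicative.ofAdd (fr.proj_tr h)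
  rw [← fr.projHom.ker.card_mul_index, Subgroup.index_ker, MonoidHom.range_eq_top.2 hs,
    Nat.card_congr Subgroup.topEquiv.toEquiv, hk,
    Nat.card_congr (Subgroup.subgroupOfEquivOfLe (K.tr_le_root fr.hu)).toEquiv, fr.card_Z,
    Nat.card_congr Multiplicative.toAdd, card_fun_fin K.card_eq]
  ring

/-- Conjugation by the embedded group. -/
lemma proj_conj (g : K.G m) {r : K.G (m + 2)} (hr : r ∈ fr.U) :
    K.embHom m g * r * (K.embHom m g)⁻¹ ∈ fr.U ∧
      fr.proj (K.embHom m g * r * (K.embHom m g)⁻¹) = ap (g : GL (Fin m) F) (fr.proj r) := by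
  obtain ⟨x, c, hx, hc, e⟩ := hr
  set h := K.embHom m g
  have hu : ap (h : GL (Fin (m + 2)) F) fr.u = fr.u := fr.emb_u _
  refine ⟨by simpa [hu, K.mem_root] using IsRoot.conj ⟨x, c, hx, hc, e⟩ h, ?_⟩
  have e' : ∀ z, ap ((h * r * h⁻¹ : K.G (m + 2)) : GL (Fin (m + 2)) F) z
      = z + K.fm _ z fr.u • ap (h : GL (Fin (m + 2)) F) x
        + K.fm _ z (ap (h : GL (Fin (m + 2)) F) x) • fr.u + (c * K.fm _ z fr.u) • fr.u := by
    intro z
    obtain ⟨z, rfl⟩ : ∃ z', ap (h : GL (Fin (m + 2)) F) z' = z := ⟨_, ap_ap_inv _ z⟩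
    have e2 : K.fm _ (ap (h : GL (Fin (m + 2)) F) z) fr.u = K.fm _ z fr.u := by
      conv_lhs => rw [← hu]
      exact K.fm_ap h z fr.u
    simp only [Subgroup.coe_mul, Subgroup.coe_inv, ap_mul, ap_inv_ap, e, ap_add, ap_smul, K.fm_ap,
      hu, e2]
  rw [fr.proj_eq e', fr.proj_eq e]
  conv_lhs => rw [← cons_tail2 x]
  show tail2 (ap (emb (g : GL (Fin m) F)) _) = _
  rw [ap_emb]
  funext i
  simp [tail2]

/-- The embedded group centralises the transvections of the frame. -/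
lemma emb_comm_Z (g : K.G m) {r : K.G (m + 2)} (hr : r ∈ fr.Z) :
    K.embHom m g * r = r * K.embHom m g := by
  obtain ⟨c, -, e⟩ := hr
  set h := K.embHom m g
  have hu : ap (h : GL (Fin (m + 2)) F) fr.u = fr.u := fr.emb_u _
  refine K.g_ext fun z => ?_
  have e2 : K.fm _ (ap (h : GL (Fin (m + 2)) F) z) fr.u = K.fm _ z fr.u := by
    conv_lhs => rw [← hu]
    exact K.fm_ap h z fr.u
  simp only [Subgroup.coe_mul, ap_mul, e, ap_add, ap_smul, hu, e2]

end Frame

end CfsgLib.MinIndexUnit
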