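import Cfsg.Agent.Lib.MinIndex.Unit.ThreeCount

/-!
The possible parameters of a transitive small action without regular orbits.
-/

set_option autoImplicit false
set_option linter.unusedSectionVars false

namespace CfsgLib.MinIndexUnit

open CfsgLib.Geometric CfsgLib.Geometric.Unitary CfsgLib.ClassicalForms MulAction

variable {F : Type*} [Field F] [Finite F] {q : ℕ} {K : UC F q}

namespace UC

variable (K)

lemma chi_ker_card (J : Subgroup Fˣ) : Nat.card J = Nat.card (J.map K.chiHom) ∨
    Nat.card J = 3 * Nat.card (J.map K.chiHom) := by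
  classical
  set k := (K.chiHom.comp J.subtype).ker
  have e : Nat.card J = Nat.card k * Nat.card (J.map K.chiHom) := by
    rw [← k.card_mul_index, Subgroup.index_ker, MonoidHom.range_comp, Subgroup.range_subtype]
  by_cases h : ∀ x : k, x = 1
  · left
    have : Subsingleton k := ⟨fun a b => (h a).trans (h b).symm⟩
    rw [e, le_antisymm (Finite.card_le_one_iff_subsingleton.2 this) Nat.card_pos, one_mul]
  · right
    push Not at h
    obtain ⟨x, hx⟩ := h
    have hx3 : orderOf x = 3 := by
      have := Fact.mk Nat.prime_three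
      refine orderOf_eq_prime ?_ hx
      exact Subtype.ext (Subtype.ext (Units.ext (by simpa using (K.chiHom_ker x.2).1)))
    have h3 : 3 ∣ Nat.card k := hx3 ▸ orderOf_dvd_natCard x
    have hle : Nat.card k ≤ 3 := by
      have := Fintype.ofFinite F
      let P : Polynomial F := Polynomial.X ^ 3 - Polynomial.C 1
      have hP : P ≠ 0 := Polynomial.X_pow_sub_C_ne_zero (by norm_num) 1
      refine (Nat.card_le_card_of_injective (fun c : k =>
        (⟨((c.1.1 : Fˣ) : F), Multiset.mem_toFinset.2 ((Polynomial.mem_roots hP).2 (by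
          simp [P]
          rw [sub_eq_zero]
          exact (K.chiHom_ker c.2).1))⟩ : P.roots.toFinset)) fun a b e => ?_).trans ?_
      · exact Subtype.ext (Subtype.ext (Units.ext (congrArg Subtype.val e)))
      · rw [Nat.card_eq_fintype_card, Fintype.card_coe]
        exact (Multiset.toFinset_card_le _).trans ((Polynomial.card_roots' P).trans
          (le_of_eq (Polynomial.natDegree_X_pow_sub_C)))
    have := Nat.le_of_dvd Nat.card_pos h3
    rw [e, show Nat.card k = 3 by omega]

lemma normHom_eq_sq {c : Fˣ} (h : K.σ (K.chiHom c : F) = K.chiHom c) :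
    K.normHom c = K.chiHom c * K.chiHom c := by
  apply Units.ext
  rw [Units.val_mul, K.normHom_val]
  conv_rhs => arg 2; rw [← h]
  rw [K.chiHom_val, map_mul, map_div₀, K.invol]
  have hc : (c : F) ≠ 0 := c.ne_zero
  have hσ : K.σ (c : F) ≠ 0 := (map_ne_zero_iff _ K.σ.injective).2 hc
  field_simp

lemma sigma_eq_of_pow {x : Fˣ} (h : x ^ (q - 1) = 1) : K.σ (x : F) = x := by
  rw [K.σ_eq, K.conj.apply, ← Units.val_pow_eq_pow_val,
    show q = q - 1 + 1 by have := K.two_le; omega, pow_succ, h, one_mul]

end UC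

/-- Squaring loses at most half. -/
lemma card_le_sq (M : Subgroup Fˣ) : Nat.card M ≤ 2 * Nat.card (M.map (powMonoidHom 2)) ∧
    ((2 : F) = 0 → Nat.card M = Nat.card (M.map (powMonoidHom 2))) := by
  classical
  set k := ((powMonoidHom 2 : Fˣ →* Fˣ).comp M.subtype).ker
  have e : Nat.card M = Nat.card k * Nat.card (M.map (powMonoidHom 2)) := by
    rw [← k.card_mul_index, Subgroup.index_ker, MonoidHom.range_comp, Subgroup.range_subtype]
  have hk : ∀ x : k, ((x.1.1 : Fˣ) : F) = 1 ∨ ((x.1.1 : Fˣ) : F) = -1 := fun x => by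
    have h : (x.1.1 : Fˣ) ^ 2 = 1 := x.2
    exact mul_self_eq_one_iff.1 (by rw [← Units.val_mul, ← pow_two, h, Units.val_one])
  constructor
  · rw [e]
    refine Nat.mul_le_mul_right _ ?_
    refine (Nat.card_le_card_of_injective (fun x : k =>
      decide (((x.1.1 : Fˣ) : F) = 1)) fun x y h => ?_).trans (le_of_eq (by simp))
    refine Subtype.ext (Subtype.ext (Units.ext ?_))
    simp only [decide_eq_decide] at h
    rcases hk x with hx | hx <;> rcases hk y with hy | hy
    · rw [hx, hy]
    · rw [hx, h.1 hx]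
    · rw [hy, h.2 hy]
    · rw [hx, hy]
  · intro h2
    have : Subsingleton k := ⟨fun x y => Subtype.ext (Subtype.ext (Units.ext (by
      have hm : (-1 : F) = 1 := by linear_combination -h2
      rw [(hk x).elim id fun h => h.trans hm, (hk y).elim id fun h => h.trans hm])))⟩
    rw [e, le_antisymm (Finite.card_le_one_iff_subsingleton.2 this) Nat.card_pos, one_mul]

namespace Frame

variable (fr : Frame K 1) {Ω : Type*} [MulAction (K.G 3) Ω]
include fr

/-- In characteristic two a root element squares to a transvection. -/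
lemma ab_eq_bot_of_two (h2 : (2 : F) = 0) {z : Ω} (hC : fr.cz z = ⊥) : fr.ab z = ⊥ := by
  refine (AddSubgroup.eq_bot_iff_forall _).2 ?_
  rintro w ⟨r, hr, rz, rfl⟩
  obtain ⟨x, c, hx, hc, e⟩ := id hr
  have hf := K.skewForm 3
  obtain ⟨a, hxe⟩ := fr.perp_eq x hx
  set δ := K.fm 3 x x with hδ
  have hux : K.fm 3 fr.u x = 0 := (eq_zero_comm hf).1 hx
  have hδr : K.σ δ = δ := by
    have h := skew_self hf x
    rw [h]; linear_combination -δ * h2
  have e2 : r * r = K.tEl fr.hu δ hδr := by
    refine K.g_ext fun y => ?_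
    rw [Subgroup.coe_mul, ap_mul, e, e, K.ap_tEl]
    simp only [hf.add_left, hf.smul_left, fr.hu, hx, hux, ← hδ]
    funext i
    simp only [Pi.add_apply, Pi.smul_apply, smul_eq_mul]
    linear_combination (K.fm 3 y fr.u * x i + K.fm 3 y x * fr.u i
      + c * K.fm 3 y fr.u * fr.u i) * h2
  have hδ0 : δ = 0 := AddSubgroup.mem_bot.1 (hC.le ⟨hδr, by rw [← e2, mul_smul, rz, rz]⟩)
  rw [fr.proj_eq e]
  rw [hδ, hxe] at hδ0
  have hui : K.fm 3 fr.u (inc (tail2 x)) = 0 := (eq_zero_comm hf).1 (fr.inc_u _)
  simp only [hf.add_left, add_right hf, hf.smul_left, smul_right hf, fr.hu, fr.inc_u, hui,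
    K.fm_inc, mul_zero, zero_add] at hδ0
  rw [Frame.smul_one_fn (tail2 x)] at hδ0 ⊢
  rw [(K.skewForm 1).smul_left, smul_right (K.skewForm 1), ← mul_assoc, mul_eq_zero,
    or_iff_left fr.fm_inc_one_ne, mul_eq_zero, map_eq_zero, or_self] at hδ0
  rw [hδ0, zero_smul]

variable [Finite Ω] [IsPretransitive (K.G 3) Ω]

/-- The possible parameters. -/
theorem param_cases (hq : 3 ≤ q) (h5 : q ≠ 5) (h1 : 1 < Nat.card Ω)
    (hΩ : Nat.card Ω < q ^ 3 + 1) (hN : ∀ y : Ω, ¬(fr.ab y = ⊥ ∧ fr.cz y = ⊥)) (z : Ω) :
    (fr.cz z = ⊥ ∧ Nat.card (fr.ab z) = q ∧ 11 ≤ q ∧ (2 : F) ≠ 0 ∧ (3 : F) ≠ 0 ∧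
        (∀ c ∈ fr.Jgrp z, K.σ (K.chiHom c : F) = K.chiHom c) ∧
        (Nat.card (fr.Jgrp z) = 3 * (q - 1) ∨ 2 * Nat.card (fr.Jgrp z) = 3 * (q - 1))) ∨
      (q = 8 ∧ Nat.card (stabilizer (K.G 3) z) = 36936) := by
  classical
  obtain ⟨p, f, hp, hf0, hqp⟩ := K.exists_prime_pow
  have hcount := fr.count3 hN z
  have hmem := fun c => fr.Jgrp_inv (z := z) (c := c)
  set J := fr.Jgrp z with hJ
  set j := Nat.card J with hj
  set A := Nat.card (fr.ab z) with hA
  set C := Nat.card (fr.cz z) with hC
  set d := Nat.card Ω with hd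
  set M := J.map K.chiHom with hM
  set m := Nat.card M with hm
  set L := J.map K.normHom with hL
  set l := Nat.card L with hl
  have hApos : 0 < A := Nat.card_pos
  have hCpos : 0 < C := Nat.card_pos
  have hq2 : q ^ 2 = q * q := pow_two q
  have hlow : q ^ 2 - 1 ≤ A * C * j := by
    refine Nat.le_of_mul_le_mul_left ?_ (show 0 < q ^ 3 from Nat.pow_pos (by omega))
    rw [← hcount]
    exact Nat.mul_le_mul_right _ (by omega)
  have hClt : C < q := by
    have h := fr.no_fixed3 hq h1 hΩ z
    exact lt_of_lt_of_eq (Set.Finite.card_lt_card (Set.toFinite _)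
      (SetLike.coe_ssubset_coe.2 (lt_of_le_of_ne (fr.cz_le z) h))) K.card_fx
  have hCq : C ∣ q := by
    calc C ∣ Nat.card K.fx := AddSubgroup.card_dvd_of_le (fr.cz_le z)
      _ = q := K.card_fx
  have hAq : A ≤ q := by
    have := fr.card_ab_le z (fr.no_fixed3 hq h1 hΩ z)
    rwa [pow_one] at this
  have hAq2 : A ∣ q ^ 2 := fr.card_ab_dvd z
  have hjF : j ∣ q ^ 2 - 1 := by
    rw [hj, ← K.card_eq, ← Nat.card_units]
    exact Subgroup.card_subgroup_dvd_card _
  have hmF : m ∣ q ^ 2 - 1 := by
    rw [hm, ← K.card_eq, ← Nat.card_units]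
    exact Subgroup.card_subgroup_dvd_card _
  have hmA : m ∣ A - 1 := card_dvd_of_smul M (fr.ab z) fun c hc x hx => by
    obtain ⟨c, hc', rfl⟩ := hc
    exact (hmem c hc').1 x hx
  have hlC : l ∣ C - 1 := card_dvd_of_smul L (fr.cz z) fun c hc x hx => by
    obtain ⟨c, hc', rfl⟩ := hc
    exact (hmem c hc').2 x hx
  have hlq : l ∣ q - 1 := by
    rw [← K.card_fx]
    refine card_dvd_of_smul L K.fx fun c hc x hx => ?_
    obtain ⟨c, hc', rfl⟩ := hc
    show K.σ ((K.normHom c : F) • x) = _
    rw [smul_eq_mul, map_mul, show K.σ x = x from hx, K.normHom_val, map_mul, K.invol]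
    ring
  have hjm := K.card_le_chi J
  have hjl := K.card_le_norm J
  rw [← hM, ← hm] at hjm
  rw [← hL, ← hl] at hjl
  obtain ⟨b, hb, hCb⟩ := (Nat.dvd_prime_pow hp).1 (hqp ▸ hCq)
  have hbf : b < f := (Nat.pow_lt_pow_iff_right hp.one_lt).1 (hCb ▸ hqp ▸ hClt)
  have hlCq : (l + 1) * C ≤ q := by
    have hpb : 1 ≤ p ^ b := Nat.one_le_pow _ _ hp.pos
    have hpfb : 1 < p ^ (f - b) := Nat.one_lt_pow (by omega) hp.one_lt
    have hsplit : p ^ b * (p ^ (f - b) - 1) + (p ^ b - 1) = q - 1 := by
      have e : p ^ b * p ^ (f - b) = q := by rw [← pow_add, Nat.add_sub_cancel' hbf.le, hqp]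
      rw [Nat.mul_sub, mul_one, e]
      have : p ^ b ≤ q := e ▸ Nat.le_mul_of_pos_right _ (by omega)
      omega
    have h1' : l ∣ p ^ b * (p ^ (f - b) - 1) :=
      (Nat.dvd_add_left (hCb ▸ hlC)).1 (hsplit.symm ▸ hlq)
    have hco : Nat.Coprime l (p ^ b) := by
      refine Nat.coprime_of_dvd fun k hk hkl hkb => ?_
      have h2 : k ∣ p ^ b - 1 := hkl.trans (hCb ▸ hlC)
      have h3 := Nat.dvd_sub hkb h2
      rw [Nat.sub_sub_self hpb] at h3
      exact hk.one_lt.ne' (Nat.dvd_one.1 h3)
    have h4 := Nat.le_of_dvd (by omega) (hco.dvd_of_dvd_mul_left h1')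
    calc (l + 1) * C ≤ p ^ (f - b) * p ^ b := by
          rw [hCb]; exact Nat.mul_le_mul_right _ (by omega)
      _ = q := by rw [← pow_add, Nat.sub_add_cancel hbf.le, hqp]
  set g := if q % 3 = 2 then 3 else 1 with hg
  have hg3 : g ≤ 3 := by rw [hg]; split_ifs <;> omega
  -- the real case
  have hreal : A = q → (∀ c ∈ J, K.σ (K.chiHom c : F) = K.chiHom c) ∧
      m ≤ 2 * l ∧ ((2 : F) = 0 → m ≤ l) := by
    intro hAe
    have hr : ∀ c ∈ J, K.σ (K.chiHom c : F) = K.chiHom c := fun c hc => by
      refine K.sigma_eq_of_pow ?_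
      have h2 : (⟨K.chiHom c, Subgroup.mem_map_of_mem _ hc⟩ : M) ^ (q - 1) = 1 :=
        orderOf_dvd_iff_pow_eq_one.1 ((orderOf_dvd_natCard _).trans (hAe ▸ hmA))
      exact congrArg Subtype.val h2
    have hLM : L = M.map (powMonoidHom 2) := by
      ext x
      simp only [hL, hM, Subgroup.map_map, Subgroup.mem_map, MonoidHom.comp_apply, powMonoidHom_apply]
      constructor
      · rintro ⟨c, hc, rfl⟩; exact ⟨c, hc, by rw [K.normHom_eq_sq (hr c hc), pow_two]⟩
      · rintro ⟨c, hc, rfl⟩; exact ⟨c, hc, by rw [K.normHom_eq_sq (hr c hc), pow_two]⟩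
    obtain ⟨e1, e2⟩ := card_le_sq M
    rw [← hLM] at e1 e2
    exact ⟨hr, e1, fun h => le_of_eq (e2 h)⟩
  have h2char : (2 : F) = 0 → p = 2 := fun h2 => by
    have := Fintype.ofFinite F
    have : (p : F) = 0 := by
      have h := FiniteField.cast_card_eq_zero (K := F)
      rw [← Nat.card_eq_fintype_card, K.card_eq, hqp] at h
      push_cast at h
      exact (pow_eq_zero_iff (n := f) (by omega)).1 ((pow_eq_zero_iff (n := 2) (by norm_num)).1 h)
    rcases Nat.even_or_odd p with he | ⟨k, hk⟩
    · exact hp.even_iff.1 he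
    · rw [hk] at this; push_cast at this; rw [h2, zero_mul, zero_add] at this
      exact absurd this one_ne_zero
  have hp2char : p = 2 → (2 : F) = 0 := fun hp2 => by
    have := Fintype.ofFinite F
    have h := FiniteField.cast_card_eq_zero (K := F)
    rw [← Nat.card_eq_fintype_card, K.card_eq, hqp, hp2] at h
    push_cast at h
    exact (pow_eq_zero_iff (n := f) (by omega)).1 ((pow_eq_zero_iff (n := 2) (by norm_num)).1 h)
  by_cases hA1 : A = 1
  · -- no tail part
    exfalso
    have hC2 : 2 ≤ C := by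
      by_contra hC2
      exact hN z ⟨AddSubgroup.card_eq_one.1 hA1, AddSubgroup.card_eq_one.1 (by omega)⟩
    have h2 : (q + 1) * (q - 1) ≤ (q + 1) * (C * l) := by
      rw [← Nat.sq_sub_sq q 1, one_pow]
      calc q ^ 2 - 1 ≤ A * C * j := hlow
        _ = C * j := by rw [hA1, one_mul]
        _ ≤ C * ((q + 1) * l) := Nat.mul_le_mul_left _ hjl
        _ = _ := by ring
    have h3 := Nat.le_of_mul_le_mul_left h2 (by omega)
    have h4 : (l + 1) * C = C * l + C := by ring
    omega
  have hA2 : 2 ≤ A := by omega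
  have hjA : j ≤ g * (A - 1) :=
    hjm.trans (Nat.mul_le_mul_left _ (Nat.le_of_dvd (by omega) hmA))
  have hAhalf : A ≠ q → 2 * A ≤ q := fun h => by
    have := K.two_mul_le (s := A) (i := 2) (j := 1) hAq2 (by rw [pow_one]; omega)
    rwa [pow_one] at this
  by_cases hC1 : C = 1
  · -- no transvection
    left
    have hCbot : fr.cz z = ⊥ := AddSubgroup.card_eq_one.1 hC1
    have h2' : (2 : F) ≠ 0 := fun h => hA1 (by
      rw [hA, fr.ab_eq_bot_of_two h hCbot, AddSubgroup.card_bot])
    have hlow' : q * q ≤ A * (g * (A - 1)) + 1 := by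
      rw [hC1, mul_one] at hlow
      have := hlow.trans (Nat.mul_le_mul_left _ hjA)
      omega
    obtain ⟨a, ha⟩ : ∃ a, A = a + 1 := ⟨A - 1, by omega⟩
    rw [ha, Nat.add_sub_cancel] at hlow'
    have hg' : q % 3 = 2 := by
      by_contra hg'
      rw [hg, if_neg hg', one_mul] at hlow'
      have : (a + 1) * a ≤ q * (q - 1) := Nat.mul_le_mul (by omega) (by omega)
      have h3 : q * (q - 1) + q = q * q := by
        rw [Nat.mul_sub, mul_one, Nat.sub_add_cancel (Nat.le_mul_self q)]
      omega
    have hAe : A = q := by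
      by_contra hne
      have h2A := hAhalf hne
      rw [hg, if_pos hg'] at hlow'
      have h3 : 2 * (a + 1) * (2 * a) ≤ q * q := Nat.mul_le_mul (by omega) (by omega)
      have h4 : 2 * (a + 1) * (2 * a) = 4 * ((a + 1) * a) := by ring
      have h5 : (a + 1) * (3 * a) = 3 * ((a + 1) * a) := by ring
      have h6 : 9 ≤ q * q := Nat.mul_le_mul hq hq
      omega
    obtain ⟨hr, -, -⟩ := hreal hAe
    have h3' : (3 : F) ≠ 0 := fun h3 => by
      have := Fintype.ofFinite F
      have hp3 : p = 3 := by
        have : (p : F) = 0 := by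
          have h := FiniteField.cast_card_eq_zero (K := F)
          rw [← Nat.card_eq_fintype_card, K.card_eq, hqp] at h
          push_cast at h
          exact (pow_eq_zero_iff (n := f) (by omega)).1 ((pow_eq_zero_iff (n := 2) (by norm_num)).1 h)
        obtain ⟨k, hk⟩ : ∃ k, p = 3 * k + p % 3 := ⟨p / 3, (Nat.div_add_mod p 3).symm⟩
        rw [hk] at this
        push_cast at this
        rw [h3, zero_mul, zero_add] at this
        obtain h | h | h : p % 3 = 0 ∨ p % 3 = 1 ∨ p % 3 = 2 := by omega
        · exact ((Nat.prime_dvd_prime_iff_eq Nat.prime_three hp).1 (Nat.dvd_of_mod_eq_zero h)).symm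
        · rw [h] at this; push_cast at this; exact absurd this one_ne_zero
        · rw [h] at this; push_cast at this; exact absurd this h2'
      rw [hqp, hp3] at hg'
      have : 3 ∣ 3 ^ f := dvd_pow_self 3 (by omega)
      omega
    have hodd : q % 2 = 1 := by
      rw [hqp]
      refine Nat.odd_iff.1 ((hp.odd_of_ne_two fun h => h2' (hp2char h)).pow)
    refine ⟨hCbot, hAe, by omega, h2', h3', hr, ?_⟩
    obtain ⟨k, hk⟩ : m ∣ q - 1 := hAe ▸ hmA
    rw [hAe, hC1, mul_one] at hlow
    have hjq : q ≤ j := by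
      by_contra hlt
      have h3 : q * j ≤ q * (q - 1) := Nat.mul_le_mul_left _ (by omega)
      have h4 : q * (q - 1) + q = q * q := by
        rw [Nat.mul_sub, mul_one, Nat.sub_add_cancel (Nat.le_mul_self q)]
      omega
    have hkpos : 1 ≤ k := Nat.pos_of_ne_zero fun h => by rw [h, mul_zero] at hk; omega
    rcases K.chi_ker_card J with e | e <;> rw [← hj, ← hM, ← hm] at e
    · exfalso
      have : m ≤ m * k := Nat.le_mul_of_pos_right _ hkpos
      omega
    · obtain h | h | h : k = 1 ∨ k = 2 ∨ 3 ≤ k := by omega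
      · rw [h, mul_one] at hk; left; omega
      · rw [h] at hk; right; omega
      · exfalso
        have := Nat.mul_le_mul_left m h
        omega
  -- with transvections
  have hC2 : 2 ≤ C := by omega
  have hglob := fr.global_count hN z (fun h => hC1 (by rw [hC, h, AddSubgroup.card_bot]))
  rw [← hA, ← hC, ← hJ, ← hj] at hglob
  obtain ⟨c, hc⟩ : ∃ c, C = c + 1 := ⟨C - 1, by omega⟩
  have hc1 : C - 1 = c := by omega
  rw [hc1] at hglob
  have hcpos : 1 ≤ c := by omega
  have hC2c : C ≤ 2 * c := by omega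
  by_cases hAe : A = q
  · exfalso
    obtain ⟨-, hml, hml2⟩ := hreal hAe
    have hlc : l ≤ c := Nat.le_of_dvd (by omega) (hc1 ▸ hlC)
    have hj2 : j ≤ g * (2 * l) := hjm.trans (Nat.mul_le_mul_left _ hml)
    -- bound for the transvections
    have hbound : ∀ t, j ≤ t * l → c < t := fun t ht => by
      by_contra hct
      push Not at hct
      have h3 : c * q ^ 3 ≤ (q + 1) * q * t * (q - C) := by
        refine hglob.trans ?_
        rw [hAe]
        have h4 : C * l ≤ q - C := by
          have : (l + 1) * C = C * l + C := by ring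
          omega
        calc (q + 1) * (q * C * j) ≤ (q + 1) * (q * C * (t * l)) :=
              Nat.mul_le_mul_left _ (Nat.mul_le_mul_left _ ht)
          _ = (q + 1) * q * t * (C * l) := by ring
          _ ≤ _ := Nat.mul_le_mul_left _ h4
      have h5 : (q + 1) * (q - C) < q * q := by
        have : (q + 1) * (q - C) ≤ (q + 1) * (q - 2) := Nat.mul_le_mul_left _ (by omega)
        obtain ⟨q', rfl⟩ : ∃ q', q = q' + 2 := ⟨q - 2, by omega⟩
        rw [Nat.add_sub_cancel] at this
        have e : (q' + 2) * (q' + 2) = (q' + 2 + 1) * q' + q' + 4 := by ring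
        omega
      have h6 : c * (q * q) ≤ t * ((q + 1) * (q - C)) := by
        refine Nat.le_of_mul_le_mul_left ?_ (show 0 < q by omega)
        calc q * (c * (q * q)) = c * q ^ 3 := by ring
          _ ≤ _ := h3
          _ = _ := by ring
      have h7 : t * ((q + 1) * (q - C)) ≤ c * ((q + 1) * (q - C)) := Nat.mul_le_mul_right _ hct
      have h8 := Nat.mul_lt_mul_of_pos_left h5 (show 0 < c by omega)
      omega
    have hsmall : ∀ t, j ≤ t → c * q * q ≤ (q + 1) * C * t := fun t ht => by
      refine Nat.le_of_mul_le_mul_left ?_ (show 0 < q by omega)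
      calc q * (c * q * q) = c * q ^ 3 := by ring
        _ ≤ _ := hglob
        _ ≤ (q + 1) * (q * C * t) := by
          rw [hAe]; exact Nat.mul_le_mul_left _ (Nat.mul_le_mul_left _ ht)
        _ = _ := by ring
    have hc2g : c < 2 * g := hbound _ (hj2.trans (le_of_eq (by ring)))
    by_cases hp2 : p = 2
    · have hj1 : j ≤ g * l := hjm.trans (Nat.mul_le_mul_left _ (hml2 (hp2char hp2)))
      have hcg : c < g := hbound _ hj1
      rw [hp2] at hCb
      have hb1 : b = 1 := by
        rcases b with _ | _ | b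
        · omega
        · rfl
        · exfalso
          have : 4 ≤ 2 ^ (b + 1 + 1) := by
            calc 4 = 2 ^ 2 := rfl
              _ ≤ _ := Nat.pow_le_pow_right (by omega) (by omega)
          omega
      have hcv : c = 1 := by rw [hb1] at hCb; omega
      have h := hsmall g (hj1.trans (by
        have : g * l ≤ g * 1 := Nat.mul_le_mul_left _ (by omega)
        omega))
      rw [hcv, one_mul, show C = 2 by omega] at h
      have h7 : (q + 1) * 2 * g ≤ (q + 1) * 2 * 3 := Nat.mul_le_mul_left _ hg3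
      have hq7 : q ≤ 6 := by
        by_contra hq7
        have : 7 * q ≤ q * q := Nat.mul_le_mul_right _ (by omega)
        omega
      rw [hqp, hp2] at hq hq7
      have : f = 2 := by
        rcases f with _ | _ | _ | f
        · omega
        · simp at hq
        · rfl
        · exfalso
          have : 8 ≤ 2 ^ (f + 1 + 1 + 1) := by
            calc 8 = 2 ^ 3 := rfl
              _ ≤ _ := Nat.pow_le_pow_right (by omega) (by omega)
          omega
      rw [this] at hqp
      rw [hp2] at hqp
      have hgv : g = 1 := by rw [hg, hqp]; rfl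
      omega
    · have hp3 : 3 ≤ p := by have := hp.two_le; omega
      have hgv : g = 3 := by
        by_contra hne
        have hg1 : g = 1 := by rw [hg] at hne ⊢; split_ifs at hne ⊢; all_goals omega
        have : p ∣ C := hCb ▸ dvd_pow_self p (by
          intro h; rw [h, pow_zero] at hCb; omega)
        have := Nat.le_of_dvd (by omega) this
        omega
      have hqmod : q % 3 = 2 := by
        by_contra h; rw [hg, if_neg h] at hgv; omega
      have hb1 : b = 1 := by
        rcases b with _ | _ | b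
        · rw [pow_zero] at hCb; omega
        · rfl
        · exfalso
          have : 9 ≤ p ^ (b + 1 + 1) := by
            calc 9 ≤ p * p := Nat.mul_le_mul hp3 hp3
              _ = p ^ 2 := (pow_two p).symm
              _ ≤ _ := Nat.pow_le_pow_right (by omega) (by omega)
          omega
      rw [hb1, pow_one] at hCb
      have hp5 : p = 5 := by
        have hp6 : p ≤ 6 := by omega
        interval_cases p
        · exfalso
          rw [hqp] at hqmod
          have : 3 ∣ 3 ^ f := dvd_pow_self 3 (by omega)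
          omega
        · exact absurd hp (by norm_num)
        · rfl
        · exact absurd hp (by norm_num)
      have h := hsmall 24 (hj2.trans (by rw [hgv]; omega))
      have hq25 : q ≤ 30 := by
        by_contra hlt
        have h31 : 31 * q ≤ q * q := Nat.mul_le_mul_right _ (by omega)
        rw [show c = 4 by omega, show C = 5 by omega] at h
        rw [mul_assoc] at h
        omega
      rw [hp5] at hqp
      obtain h' | h' : f = 2 ∨ 3 ≤ f := by omega
      · rw [h'] at hqp; omega
      · have : 5 ^ 3 ≤ 5 ^ f := Nat.pow_le_pow_right (by omega) h'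
        omega
  · right
    have h2A := hAhalf hAe
    have hkey : q ^ 3 ≤ 2 * (q + 1) * (A * j) := by
      refine Nat.le_of_mul_le_mul_left ?_ (show 0 < c by omega)
      calc c * q ^ 3 ≤ (q + 1) * (A * C * j) := hglob
        _ ≤ (q + 1) * (A * (2 * c) * j) := by gcongr
        _ = _ := by ring
    have hAA : A * j ≤ g * (A * A) := by
      calc A * j ≤ A * (g * (A - 1)) := Nat.mul_le_mul_left _ hjA
        _ ≤ A * (g * A) := Nat.mul_le_mul_left _ (Nat.mul_le_mul_left _ (by omega))
        _ = _ := by ring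
    have hgen : ∀ s, s * A ≤ q → s * s * (q * (q * q)) ≤ 2 * g * (q + 1) * (q * q) := fun s hs => by
      calc s * s * (q * (q * q)) = s * s * q ^ 3 := by ring
        _ ≤ s * s * (2 * (q + 1) * (g * (A * A))) :=
            Nat.mul_le_mul_left _ (hkey.trans (Nat.mul_le_mul_left _ hAA))
        _ = 2 * g * (q + 1) * ((s * A) * (s * A)) := by ring
        _ ≤ _ := Nat.mul_le_mul_left _ (Nat.mul_le_mul hs hs)
    have hgen' : ∀ s, s * A ≤ q → s * s * q ≤ 2 * g * (q + 1) := fun s hs => by
      refine Nat.le_of_mul_le_mul_right ?_ (Nat.mul_pos (show 0 < q by omega) (show 0 < q by omega))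
      rw [mul_assoc]; exact hgen s hs
    have hqmod : q % 3 = 2 := by
      by_contra h
      have h3 := hgen' 2 h2A
      rw [hg, if_neg h] at h3
      omega
    have hgv : g = 3 := by rw [hg, if_pos hqmod]
    rw [hgv] at hgen' hjA
    obtain ⟨a, ha, hAa⟩ := (Nat.dvd_prime_pow hp).1 (show A ∣ p ^ (f * 2) by
      rw [pow_mul, ← hqp]; exact hAq2)
    have haf : a < f := (Nat.pow_lt_pow_iff_right hp.one_lt).1 (hAa ▸ hqp ▸ (by omega : A < q))
    have hpA : p * A ≤ q := by
      rw [hAa, ← pow_succ', hqp]; exact Nat.pow_le_pow_right hp.pos haf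
    have hp2 : p = 2 := by
      by_contra hp2
      have hp5 : 5 ≤ p := by
        have := hp.two_le
        by_contra hlt
        interval_cases p
        · exact hp2 rfl
        · rw [hqp] at hqmod
          have : 3 ∣ 3 ^ f := dvd_pow_self 3 (by omega)
          omega
        · exact absurd hp (by norm_num)
      have h3 := hgen' 5 ((Nat.mul_le_mul_right A hp5).trans hpA)
      omega
    rw [hp2] at hAa hpA hqp
    have ha1 : a + 1 = f := by
      by_contra hne
      have h4 : 4 * A ≤ q := by
        rw [hAa, hqp, show (4 : ℕ) = 2 ^ 2 from rfl, ← pow_add]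
        exact Nat.pow_le_pow_right (by omega) (by omega)
      have h3 := hgen' 4 h4
      omega
    have hqA : q = 2 * A := by rw [hqp, hAa, ← ha1, pow_succ']
    have hm3 : m ∣ 3 := by
      obtain ⟨a', ha'⟩ : ∃ a', A = a' + 1 := ⟨A - 1, by omega⟩
      have e : q ^ 2 - 1 = (A - 1) * (4 * (A + 1)) + 3 := by
        rw [hqA, ha', Nat.add_sub_cancel]
        have : (2 * (a' + 1)) ^ 2 = a' * (4 * (a' + 1 + 1)) + 4 := by ring
        omega
      exact (Nat.dvd_add_right (hmA.mul_right _)).1 (e ▸ hmF)
    have hj9 : j ≤ 9 := hjm.trans (by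
      rw [hgv]
      have := Nat.le_of_dvd (by omega) hm3
      omega)
    have hq9 : q ≤ 9 := by
      have h3 : 2 * (q + 1) * (A * j) ≤ 2 * (q + 1) * (A * 9) :=
        Nat.mul_le_mul_left _ (Nat.mul_le_mul_left _ hj9)
      have h4 : q * (q * q) ≤ q * (9 * (q + 1)) := by
        calc q * (q * q) = q ^ 3 := by ring
          _ ≤ 2 * (q + 1) * (A * 9) := hkey.trans h3
          _ = _ := by rw [hqA]; ring
      have h5 := Nat.le_of_mul_le_mul_left h4 (by omega)
      by_contra hlt
      have : 10 * q ≤ q * q := Nat.mul_le_mul_right _ (by omega)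
      omega
    have hq8 : q = 8 := by
      have hf3 : f ≤ 3 := by
        by_contra hlt
        have : 2 ^ 4 ≤ 2 ^ f := Nat.pow_le_pow_right (by omega) (by omega)
        omega
      obtain e | e | e | e : f = 0 ∨ f = 1 ∨ f = 2 ∨ f = 3 := by omega
      · omega
      all_goals rw [e] at hqp; omega
    rw [hq8] at hglob hkey hjF hqA
    have hA4 : A = 4 := by omega
    rw [hA4] at hglob hkey
    have hj8 : 8 ≤ j := by omega
    have hcv : c = 1 := by
      by_contra hne
      have h3 : (8 + 1) * (4 * C * j) ≤ (8 + 1) * (4 * C * 9) :=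
        Nat.mul_le_mul_left _ (Nat.mul_le_mul_left _ hj9)
      omega
    have hj63 : j = 9 := by
      obtain h | h : j = 8 ∨ j = 9 := by omega
      · exfalso; rw [h] at hjF; norm_num at hjF
      · exact h
    refine ⟨hq8, ?_⟩
    rw [fr.card_stab hN z, ← hA, ← hC, ← hJ, ← hj, hA4, hj63, hc, hcv, hq8]
    norm_num

end Frame

end CfsgLib.MinIndexUnit
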