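import Cfsg.Agent.Lib.MinIndex.Unit.Endgame
import Cfsg.Agent.Lib.MinIndex.Unit.Main

/-!
The three-dimensional unitary group: orders, line stabilisers, invariants.
-/

set_option autoImplicit false
set_option linter.unusedSectionVars false

namespace CfsgLib.MinIndexUnit

open CfsgLib.Geometric CfsgLib.Geometric.Unitary CfsgLib.ClassicalForms MulAction

variable {F : Type*} [Field F] [Finite F] {q : ℕ} {K : UC F q}

namespace Frame

section general

variable {m : ℕ} (fr : Frame K m)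
include fr

lemma proj_inv' {r : K.G (m + 2)} (hr : r ∈ fr.U) : fr.proj r⁻¹ = -fr.proj r := by
  refine eq_neg_of_add_eq_zero_left ?_
  rw [← fr.proj_mul (inv_mem hr) hr, inv_mul_cancel, fr.proj_tr (one_mem _)]

/-- Conjugation of root elements. -/
lemma proj_conj' {g : K.G (m + 2)} {a : F}
    (hg : ap (g : GL (Fin (m + 2)) F) fr.u = a • fr.u) {G : (Fin m → F) → Fin m → F}
    (hG : ∀ w, ap (g : GL (Fin (m + 2)) F) (inc w) = inc (G w)) {r : K.G (m + 2)} (hr : r ∈ fr.U) :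
    g * r * g⁻¹ ∈ fr.U ∧ fr.proj (g * r * g⁻¹) = K.σ a • G (fr.proj r) := by
  obtain ⟨x, c, hx, hc, e⟩ := id hr
  have hf := K.skewForm (m + 2)
  set x' := K.σ a • ap (g : GL (Fin (m + 2)) F) x with hx'
  have e' : ∀ t, ap ((g * r * g⁻¹ : K.G (m + 2)) : GL (Fin (m + 2)) F) t
      = t + K.fm _ t fr.u • x' + K.fm _ t x' • fr.u
        + ((a * K.σ a * c) * K.fm _ t fr.u) • fr.u := by
    intro t
    obtain ⟨t, rfl⟩ : ∃ t', ap (g : GL (Fin (m + 2)) F) t' = t := ⟨_, ap_ap_inv _ t⟩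
    have h1 : K.fm _ t fr.u = K.σ a * K.fm _ (ap (g : GL (Fin (m + 2)) F) t) fr.u := by
      rw [← K.fm_ap g t fr.u, hg, smul_right hf]
    have h2 : K.fm _ (ap (g : GL (Fin (m + 2)) F) t) (K.σ a • ap (g : GL (Fin (m + 2)) F) x)
        = a * K.fm _ t x := by
      rw [smul_right hf, K.invol, K.fm_ap]
    simp only [Subgroup.coe_mul, Subgroup.coe_inv, ap_mul, ap_inv_ap, e, ap_add, ap_smul, hg, h1,
      hx', h2]
    module
  have hxu : K.fm _ x' fr.u = 0 := by
    have h1 := K.fm_ap g x fr.u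
    rw [hg, smul_right hf, hx] at h1
    rw [hx', hf.smul_left]
    exact h1
  have hcc : a * K.σ a * c - K.σ (a * K.σ a * c) = K.fm _ x' x' := by
    rw [hx', hf.smul_left, smul_right hf, K.invol, K.fm_ap, ← hc, map_mul, map_mul, K.invol]
    ring
  refine ⟨⟨x', _, hxu, hcc, e'⟩, ?_⟩
  rw [fr.proj_eq e', fr.proj_eq e, hx', tail2_smul]
  obtain ⟨b, hb⟩ := fr.perp_eq x hx
  conv_lhs => rw [hb]
  rw [ap_add, ap_smul, hg, hG, tail2_add, tail2_smul, tail2_smul, fr.tail_u, tail2_inc, smul_zero,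
    smul_zero, zero_add]

/-- Transport of the invariant. -/
lemma mem_ab' {Ω : Type*} [MulAction (K.G (m + 2)) Ω] {g : K.G (m + 2)} {a : F}
    (hg : ap (g : GL (Fin (m + 2)) F) fr.u = a • fr.u) {G : (Fin m → F) → Fin m → F}
    (hG : ∀ w, ap (g : GL (Fin (m + 2)) F) (inc w) = inc (G w)) {z : Ω} {w : Fin m → F}
    (hw : w ∈ fr.ab z) : K.σ a • G w ∈ fr.ab (g • z) := by
  obtain ⟨r, hr, rz, rfl⟩ := hw
  refine ⟨g * r * g⁻¹, (fr.proj_conj' hg hG hr).1, ?_, (fr.proj_conj' hg hG hr).2⟩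
  rw [mul_smul, inv_smul_smul, mul_smul, rz]

end general

variable (fr : Frame K 1)
include fr

omit fr in
lemma inc_eq (w : Fin 1 → F) : inc w = w 0 • inc (fun _ => (1 : F)) := by
  rw [← inc_smul]
  congr 1
  funext i
  rw [Subsingleton.elim i 0]
  simp

omit fr in
lemma smul_one_fn (w : Fin 1 → F) : w = w 0 • (fun _ => (1 : F)) := by
  funext i
  rw [Subsingleton.elim i 0]
  simp

lemma decomp3 (z : Fin 3 → F) :
    ∃ a c : F, z = a • fr.u + K.fm 3 z fr.u • fr.u' + c • inc (fun _ => (1 : F)) := by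
  obtain ⟨a, ha⟩ := fr.decomp z
  exact ⟨a, tail2 z 0, by rw [← inc_eq]; exact ha⟩

lemma fm_inc_one_ne : K.fm 1 (fun _ => (1 : F)) (fun _ => 1) ≠ 0 := fun h => by
  obtain ⟨v, hv⟩ := ((K.skewForm 1).nondegenerate (fun _ => (1 : F))
    (fun e => one_ne_zero (congrFun e 0))).1
  refine hv ?_
  rw [smul_one_fn v, (K.skewForm 1).smul_left, h, mul_zero]

/-- An element fixing the vector is a root element. -/
theorem mem_U_of_fix {g : K.G 3} (hg : ap (g : GL (Fin 3) F) fr.u = fr.u) : g ∈ fr.U := by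
  have hf := K.skewForm 3
  set x := ap (g : GL (Fin 3) F) fr.u'
  have hxu : K.fm 3 x fr.u = 1 := by
    rw [← fr.hpair, ← K.fm_ap g fr.u' fr.u, hg]
  obtain ⟨a, hd⟩ := fr.decomp x
  rw [hxu, one_smul] at hd
  set w := tail2 x
  have hui : K.fm 3 fr.u (inc w) = 0 := (eq_zero_comm hf).1 (fr.inc_u w)
  have hu'i : K.fm 3 fr.u' (inc w) = 0 := (eq_zero_comm hf).1 (fr.inc_u' w)
  have ha : a - K.σ a = K.fm 3 (inc w) (inc w) := by
    have h : K.fm 3 x x = 0 := by rw [K.fm_ap, fr.hu']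
    rw [hd] at h
    simp only [hf.add_left, add_right hf, hf.smul_left, smul_right hf, fr.hu, fr.hu', fr.hpair,
      fr.pair', fr.inc_u, fr.inc_u', hui, hu'i] at h
    linear_combination -h
  set r := K.eEl fr.hu (fr.inc_u w) a ha
  have hr : r ∈ fr.U := K.isRoot_eEl _ _ _ _
  have hru' : ap (r : GL (Fin 3) F) fr.u' = x := by
    rw [K.ap_eEl, fr.hpair, hu'i, hd]
    module
  set h := r⁻¹ * g
  have hhu : ap (h : GL (Fin 3) F) fr.u = fr.u := by
    rw [Subgroup.coe_mul, ap_mul, hg]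
    exact fr.ap_U_u (inv_mem hr)
  have hhu' : ap (h : GL (Fin 3) F) fr.u' = fr.u' := by
    rw [Subgroup.coe_mul, ap_mul, show ap (g : GL (Fin 3) F) fr.u' = x from rfl, ← hru',
      Subgroup.coe_inv, ap_inv_ap]
  set e := inc (fun _ : Fin 1 => (1 : F)) with he
  obtain ⟨b, c, hc⟩ := fr.decomp3 (ap (h : GL (Fin 3) F) e)
  rw [← he] at hc
  have h1 : K.fm 3 (ap (h : GL (Fin 3) F) e) fr.u = 0 := by
    conv_lhs => rw [← hhu]
    rw [K.fm_ap]; exact fr.inc_u _
  have h2 : K.fm 3 (ap (h : GL (Fin 3) F) e) fr.u' = 0 := by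
    conv_lhs => rw [← hhu']
    rw [K.fm_ap]; exact fr.inc_u' _
  have heu' : K.fm 3 e fr.u' = 0 := fr.inc_u' _
  rw [h1, zero_smul, add_zero] at hc
  have hb : b = 0 := by
    rw [hc] at h2
    simp only [hf.add_left, hf.smul_left, fr.pair', heu'] at h2
    linear_combination -h2
  rw [hb, zero_smul, zero_add] at hc
  set φ : (Fin 3 → F) →ₗ[F] F := (c - 1) • LinearMap.proj (2 : Fin 3) with hφ
  have hap : ∀ z, ap (h : GL (Fin 3) F) z = z + φ z • e := by
    intro z
    obtain ⟨a', hz⟩ := fr.decomp z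
    rw [inc_eq (tail2 z), ← he] at hz
    have h3 : z 2 = tail2 z 0 := rfl
    have hφz : φ z = (c - 1) * tail2 z 0 := by simp [hφ, h3]
    rw [hφz]
    generalize K.fm 3 z fr.u = β at hz
    generalize tail2 z 0 = γ at hz ⊢
    rw [hz]
    simp only [ap_add, ap_smul, hhu, hhu', hc]
    module
  have hdet := det_of_ap (h : GL (Fin 3) F) e φ hap
  rw [(mem_specialLinear_iff _).1 h.2.2] at hdet
  have hc1 : c = 1 := by
    have : φ e = c - 1 := by
      show (c - 1) * e 2 = c - 1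
      rw [show e 2 = 1 from rfl, mul_one]
    rw [this] at hdet
    linear_combination -hdet
  have h1 : h = 1 := K.g_ext fun z => by
    rw [hap, hφ, hc1, Subgroup.coe_one, ap_one]
    simp
  rw [inv_mul_eq_one] at h1
  exact h1 ▸ hr

/-- The torus. -/
theorem exists_tor1 {c : F} (hc : c ≠ 0) :
    ∃ h : K.G 3, ap (h : GL (Fin 3) F) fr.u = c • fr.u ∧
      ap (h : GL (Fin 3) F) fr.u' = (K.σ c)⁻¹ • fr.u' ∧
      ∀ w, ap (h : GL (Fin 3) F) (inc w) = inc ((K.σ c / c) • w) := by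
  obtain ⟨h, h1, h2, h3⟩ := fr.exists_tor (by omega) hc
  refine ⟨h, h1, h2, fun w => ?_⟩
  rw [h3]
  congr 1
  funext i
  rw [Subsingleton.elim i 0]
  simp
  ring

/-- The scalar by which a line element acts on the vector. -/
noncomputable def lineVal : fr.line →* Fˣ :=
  { toFun := fun g => Units.mk0 (-K.fm _ (ap ((g : K.G 3) : GL (Fin 3) F) fr.u) fr.u') (by
      obtain ⟨a, ha⟩ := g.2
      rw [ha, (K.skewForm _).smul_left, fr.pair']
      simp only [mul_neg, mul_one, neg_neg]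
      exact fun h => ap_ne_zero ((g : K.G 3) : GL (Fin 3) F) fr.u_ne (by rw [ha, h, zero_smul]))
    map_one' := Units.ext (by simp [fr.pair', ap_one])
    map_mul' := fun g h => Units.ext (by
      obtain ⟨a, ha⟩ := g.2
      obtain ⟨b, hb⟩ := h.2
      show -K.fm _ (ap (((g : K.G 3) * (h : K.G 3) : K.G 3) : GL (Fin 3) F) fr.u) fr.u'
        = -K.fm _ (ap ((g : K.G 3) : GL (Fin 3) F) fr.u) fr.u'
          * -K.fm _ (ap ((h : K.G 3) : GL (Fin 3) F) fr.u) fr.u'
      simp only [Subgroup.coe_mul, ap_mul, hb, ha, ap_smul, (K.skewForm _).smul_left, fr.pair']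
      ring) }

lemma lineVal_spec (g : fr.line) :
    ap ((g : K.G 3) : GL (Fin 3) F) fr.u = (fr.lineVal g : F) • fr.u := by
  obtain ⟨a, ha⟩ := g.2
  rw [ha]
  congr 1
  simp [lineVal, ha, (K.skewForm _).smul_left, fr.pair']

lemma lineVal_surj : Function.Surjective fr.lineVal := fun c => by
  obtain ⟨t, htu, -, -⟩ := fr.exists_tor1 c.ne_zero
  exact ⟨⟨t, c, htu⟩, Units.ext (smul_left_injective F fr.u_ne
    ((fr.lineVal_spec ⟨t, c, htu⟩).symm.trans htu))⟩

lemma U_le_line : fr.U ≤ fr.line := fun _ hr => ⟨1, by rw [one_smul]; exact fr.ap_U_u hr⟩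

lemma lineVal_eq_one_iff (g : fr.line) : fr.lineVal g = 1 ↔ (g : K.G 3) ∈ fr.U := by
  constructor
  · intro h
    exact fr.mem_U_of_fix (by rw [fr.lineVal_spec, h, Units.val_one, one_smul])
  · intro h
    exact Units.ext (smul_left_injective F fr.u_ne
      ((fr.lineVal_spec g).symm.trans (by rw [fr.ap_U_u h, Units.val_one]; simp)))

lemma lineVal_ker : fr.lineVal.ker = fr.U.subgroupOf fr.line := by
  ext g
  rw [MonoidHom.mem_ker, Subgroup.mem_subgroupOf, fr.lineVal_eq_one_iff]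

/-- The order of the line stabiliser. -/
theorem card_line : Nat.card fr.line = q ^ 3 * (q ^ 2 - 1) := by
  rw [← fr.lineVal.ker.card_mul_index, Subgroup.index_ker,
    MonoidHom.range_eq_top.2 fr.lineVal_surj, Nat.card_congr Subgroup.topEquiv.toEquiv, fr.lineVal_ker,
    Nat.card_congr (Subgroup.subgroupOfEquivOfLe fr.U_le_line).toEquiv, fr.card_U, Nat.card_units,
    K.card_eq]

end Frame

namespace UC

variable (K)

lemma pts_three : K.pts 3 = q ^ 3 + 1 := by
  refine Nat.eq_of_mul_eq_mul_left K.sq_sub_one_pos ?_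
  rw [K.pts_mul]
  zify [show 1 ≤ q ^ 2 from by have := K.sq_sub_one_pos; omega]
  rw [K.iso_three]; ring

/-- The order of the group. -/
theorem card_G_three : Nat.card (K.G 3) = q ^ 3 * (q ^ 3 + 1) * (q ^ 2 - 1) := by
  obtain ⟨fr⟩ := exists_frame K 1
  rw [← fr.line.card_mul_index, fr.card_line, fr.index_line le_rfl, K.pts_three]
  ring

/-- The order of the stabiliser of an anisotropic vector. -/
theorem card_stab_aniso {e : Fin 3 → F} (he : K.fm 3 e e ≠ 0) :
    Nat.card {g : K.G 3 // ap (g : GL (Fin 3) F) e = e} = q * (q ^ 2 - 1) := by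
  let : MulAction (K.G 3) (K.cls (m := 3) (K.fm 3 e e)) :=
    { smul := fun g x => ⟨ap (g : GL (Fin 3) F) x.1, ap_ne_zero _ x.2.1, by
        rw [K.fm_ap]; exact x.2.2⟩
      one_smul := fun x => Subtype.ext (ap_one x.1)
      mul_smul := fun g h x => Subtype.ext (ap_mul _ _ x.1) }
  have : IsPretransitive (K.G 3) (K.cls (m := 3) (K.fm 3 e e)) := ⟨fun x y => by
    obtain ⟨g, hg⟩ := K.exists_move (le_refl 3) (x.2.2.trans y.2.2.symm) x.2.1 y.2.1
    exact ⟨g, Subtype.ext hg⟩⟩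
  set x0 : K.cls (m := 3) (K.fm 3 e e) := ⟨e, fun h => he (by
    rw [h, zero_left (K.skewForm 3)]), rfl⟩
  have h := (stabilizer (K.G 3) x0).card_mul_index
  rw [MulAction.index_stabilizer_of_transitive,
    K.card_cls (skew_self (K.skewForm 3) e) he, K.norm_three, K.card_G_three] at h
  have e1 : stabilizer (K.G 3) x0 ≃ {g : K.G 3 // ap (g : GL (Fin 3) F) e = e} :=
    Equiv.subtypeEquivRight fun g => by rw [mem_stabilizer_iff, Subtype.ext_iff]; rfl
  rw [← Nat.card_congr e1]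
  refine Nat.eq_of_mul_eq_mul_right (show 0 < q ^ 2 * (q ^ 3 + 1) from ?_) (h.trans (by ring))
  exact Nat.mul_pos (Nat.pow_pos (by have := K.two_le; omega)) (Nat.succ_pos _)

end UC

end CfsgLib.MinIndexUnit
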