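import Cfsg.Agent.Lib.MinIndex.Unit.ThreeFixed
import Cfsg.Agent.Lib.MinIndex.Unit.FourCount

/-!
Transitive small actions of the three-dimensional group without regular orbits of the root group.
-/

set_option autoImplicit false
set_option linter.unusedSectionVars false

namespace CfsgLib.MinIndexUnit

open CfsgLib.Geometric CfsgLib.Geometric.Unitary CfsgLib.ClassicalForms MulAction

variable {F : Type*} [Field F] [Finite F] {q : ℕ} {K : UC F q}

/-- A group of scalars permuting the non-zero elements of a subgroup. -/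
theorem card_dvd_of_smul {V : Type*} [AddCommGroup V] [Module F V] [Finite V] (M : Subgroup Fˣ)
    (A : AddSubgroup V) (h : ∀ c ∈ M, ∀ x ∈ A, (c : F) • x ∈ A) :
    Nat.card M ∣ Nat.card A - 1 := by
  classical
  letI : MulAction M {x : A // x ≠ 0} :=
    { smul := fun c x => ⟨⟨((c : Fˣ) : F) • (x.1 : V), h _ c.2 _ x.1.2⟩, fun e => x.2 (Subtype.ext
        ((smul_eq_zero.1 (congrArg Subtype.val e : ((c : Fˣ) : F) • (x.1 : V) = 0)).resolve_left
          (c : Fˣ).ne_zero))⟩
      one_smul := fun x => Subtype.ext (Subtype.ext (one_smul F (x.1 : V)))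
      mul_smul := fun c d x => Subtype.ext (Subtype.ext (mul_smul ((c : Fˣ) : F) ((d : Fˣ) : F) (x.1 : V))) }
  have hfree : ∀ x : {x : A // x ≠ 0}, MulAction.stabilizer M x = ⊥ := fun x => by
    rw [eq_bot_iff]
    intro c hc
    have h1 : ((c : Fˣ) : F) • (x.1 : V) = (x.1 : V) :=
      congrArg (fun t : {x : A // x ≠ 0} => (t.1 : V)) (MulAction.mem_stabilizer_iff.1 hc)
    have h2 : (((c : Fˣ) : F) - 1) • (x.1 : V) = 0 := by rw [sub_smul, one_smul, h1, sub_self]
    have h3 := (smul_eq_zero.1 h2).resolve_right fun e => x.2 (Subtype.ext e)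
    exact Subgroup.mem_bot.2 (Subtype.ext (Units.ext (sub_eq_zero.1 h3)))
  have hA : Nat.card A - 1 = Nat.card {x : A // x ≠ 0} := by
    have e : Option {x : A // x ≠ 0} ≃ A :=
      { toFun := fun o => o.elim 0 fun w => w.1
        invFun := fun w => if h0 : w = 0 then none else some ⟨w, h0⟩
        left_inv := fun o => by cases o with
          | none => simp
          | some w => simp [w.2]
        right_inv := fun w => by by_cases h0 : w = 0 <;> simp [h0] }
    rw [← Nat.card_congr e, Finite.card_option, Nat.add_sub_cancel]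
  rw [hA, Nat.card_congr (MulAction.selfEquivOrbitsQuotientProd hfree), Nat.card_prod]
  exact dvd_mul_left _ _

namespace UC

variable (K)

/-- The scaling of the invariant by a torus element. -/
noncomputable def chiHom : Fˣ →* Fˣ where
  toFun c := Units.map K.σ.toRingHom.toMonoidHom c * (Units.map K.σ.toRingHom.toMonoidHom c / c)
  map_one' := by simp
  map_mul' a b := by
    simp only [map_mul]
    rw [mul_div_mul_comm, mul_mul_mul_comm]

lemma chiHom_val (c : Fˣ) : (K.chiHom c : F) = K.σ c * (K.σ c / c) := by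
  simp [chiHom]

/-- The scaling of the transvection parameters. -/
noncomputable def normHom : Fˣ →* Fˣ where
  toFun c := c * Units.map K.σ.toRingHom.toMonoidHom c
  map_one' := by simp
  map_mul' a b := by
    simp only [map_mul]
    rw [mul_mul_mul_comm]

lemma normHom_val (c : Fˣ) : (K.normHom c : F) = c * K.σ c := by
  simp [normHom]

lemma chiHom_ker {c : Fˣ} (h : K.chiHom c = 1) :
    (c : F) ^ 3 = 1 ∧ (q % 3 ≠ 2 → c = 1) := by
  have h1 : K.σ c * (K.σ c / c) = 1 := by rw [← K.chiHom_val, h, Units.val_one]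
  have hc : (c : F) ≠ 0 := c.ne_zero
  have h2 : K.σ c * K.σ c = c := by field_simp at h1; linear_combination h1
  have h3 : (c : F) * c = K.σ c := by
    have := congrArg K.σ h2
    rwa [map_mul, K.invol] at this
  have h4 : (c : F) ^ 3 = 1 := by
    refine mul_left_cancel₀ hc ?_
    rw [← h3] at h2
    linear_combination h2
  refine ⟨h4, fun hq => Units.ext ?_⟩
  have h5 : K.σ c = (c : F) ^ q := by rw [K.σ_eq, K.conj.apply]
  replace h5 := h5.trans (congrArg (fun n => (c : F) ^ n) (Nat.div_add_mod q 3)).symm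
  rw [pow_add, pow_mul, h4, one_pow, one_mul] at h5
  obtain h | h : q % 3 = 0 ∨ q % 3 = 1 := by omega
  · rw [h, pow_zero, ← h3] at h5
    rw [Units.val_one]
    exact mul_left_cancel₀ (mul_ne_zero hc hc) (by linear_combination h4 - h5)
  · rw [h, pow_one, ← h3] at h5
    exact (mul_left_cancel₀ hc (h5.trans (mul_one _).symm)).trans Units.val_one.symm

lemma card_le_chi (J : Subgroup Fˣ) :
    Nat.card J ≤ (if q % 3 = 2 then 3 else 1) * Nat.card (J.map K.chiHom) := by
  classical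
  have e : Nat.card J = Nat.card (K.chiHom.comp J.subtype).ker * Nat.card (J.map K.chiHom) := by
    rw [← (K.chiHom.comp J.subtype).ker.card_mul_index, Subgroup.index_ker,
      MonoidHom.range_comp, Subgroup.range_subtype]
  rw [e]
  refine Nat.mul_le_mul_right _ ?_
  split_ifs with h
  · have := Fintype.ofFinite F
    let P : Polynomial F := Polynomial.X ^ 3 - Polynomial.C 1
    have hP : P ≠ 0 := Polynomial.X_pow_sub_C_ne_zero (by norm_num) 1
    refine (Nat.card_le_card_of_injective (fun c : (K.chiHom.comp J.subtype).ker =>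
      (⟨((c.1.1 : Fˣ) : F), Multiset.mem_toFinset.2 ((Polynomial.mem_roots hP).2 (by
        simp [P]
        rw [sub_eq_zero]
        exact (K.chiHom_ker c.2).1))⟩ : P.roots.toFinset)) fun a b e => ?_).trans ?_
    · exact Subtype.ext (Subtype.ext (Units.ext (congrArg Subtype.val e)))
    · rw [Nat.card_eq_fintype_card, Fintype.card_coe]
      exact (Multiset.toFinset_card_le _).trans ((Polynomial.card_roots' P).trans
        (le_of_eq (Polynomial.natDegree_X_pow_sub_C)))
  · exact Finite.card_le_one_iff_subsingleton.2 ⟨fun a b => by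
      have ha := (K.chiHom_ker a.2).2 h
      have hb := (K.chiHom_ker b.2).2 h
      exact Subtype.ext (Subtype.ext (ha.trans hb.symm))⟩

lemma card_le_norm (J : Subgroup Fˣ) :
    Nat.card J ≤ (q + 1) * Nat.card (J.map K.normHom) := by
  classical
  have e : Nat.card J = Nat.card (K.normHom.comp J.subtype).ker * Nat.card (J.map K.normHom) := by
    rw [← (K.normHom.comp J.subtype).ker.card_mul_index, Subgroup.index_ker,
      MonoidHom.range_comp, Subgroup.range_subtype]
  rw [e, ← K.card_norm_one]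
  refine Nat.mul_le_mul_right _ (Nat.card_le_card_of_injective (fun c => ⟨((c.1.1 : Fˣ) : F), ?_⟩)
    fun a b e => Subtype.ext (Subtype.ext (Units.ext (congrArg Subtype.val e))))
  rw [← K.normHom_val, show K.normHom c.1.1 = 1 from c.2, Units.val_one]

end UC

namespace Frame

variable (fr : Frame K 1)
include fr

/-- A root element other than one fixes only its own vector. -/
lemma fixed_by_root {r : K.G 3} (hr : r ∈ fr.U) (hr1 : r ≠ 1) {y : Fin 3 → F}
    (hyy : K.fm 3 y y = 0) (hy : ap (r : GL (Fin 3) F) y = y) : ∃ a : F, y = a • fr.u := by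
  have hf := K.skewForm 3
  obtain ⟨x, c, hx, hc, e⟩ := id hr
  obtain ⟨a, w, hye⟩ := fr.decomp3 y
  generalize hβ : K.fm 3 y fr.u = β at hye
  have h := e y
  rw [hy, add_assoc, add_assoc, left_eq_add, hβ] at h
  by_cases hb : β = 0
  · rw [hb] at hye
    rw [hye, (fr.coord_fm _ _ _).2.2, map_zero] at hyy
    have hw : w * K.σ w * K.fm 1 (fun _ => (1 : F)) (fun _ => 1) = 0 := by linear_combination hyy
    have hw0 : w = 0 := by simpa [fr.fm_inc_one_ne] using hw
    exact ⟨a, by rw [hye, hw0, zero_smul, zero_smul, add_zero, add_zero]⟩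
  exfalso
  have h2 := congrArg tail2 h
  rw [tail2_add, tail2_add, tail2_smul, tail2_smul, tail2_smul, fr.tail_u, smul_zero, smul_zero,
    add_zero, add_zero, ← fr.proj_eq e] at h2
  have hp : fr.proj r = 0 := (smul_eq_zero.1 h2).resolve_left hb
  obtain ⟨d, hd, rfl⟩ := IsTr.eq_tEl (fr.mem_Z_of_proj hr hp) fr.hu
  rw [K.ap_tEl, add_eq_left, hβ] at hy
  have hd0 : d = 0 := (mul_eq_zero.1 ((smul_eq_zero.1 hy).resolve_right fr.u_ne)).resolve_right hb
  exact hr1 (by rw [K.tEl_congr fr.hu hd (map_zero _) hd0, K.tEl_zero])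

variable {Ω : Type*} [MulAction (K.G 3) Ω] [Finite Ω]

/-- A regular orbit is everything. -/
theorem regular (hΩ : Nat.card Ω < q ^ 3 + 1) {z : Ω} (hA : fr.ab z = ⊥) (hC : fr.cz z = ⊥) :
    Nat.card Ω = q ^ 3 ∧ ∀ y : Ω, ∃! r, r ∈ fr.U ∧ r • z = y := by
  have ho := fr.card_orbit z
  rw [hA, hC, AddSubgroup.card_bot, AddSubgroup.card_bot, one_mul, mul_one] at ho
  have hle : Nat.card (orbit fr.U z) ≤ Nat.card Ω := Finite.card_subtype_le _
  replace ho : Nat.card (orbit fr.U z) = q ^ 3 := ho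
  have hd : Nat.card Ω = q ^ 3 := by omega
  have hbij : Function.Bijective (fun r : fr.U => (r : K.G 3) • z) := by
    rw [Nat.bijective_iff_injective_and_card]
    refine ⟨fun r s e => Subtype.ext ?_, by rw [fr.card_U, hd]⟩
    have e' : (r : K.G 3) • z = (s : K.G 3) • z := e
    have h2 : ((s : K.G 3)⁻¹ * r) • z = z := by rw [mul_smul, e', inv_smul_smul]
    have hmem : (s : K.G 3)⁻¹ * r ∈ fr.U := mul_mem (inv_mem s.2) r.2
    obtain ⟨c, hc, hce⟩ := IsTr.eq_tEl ((fr.eq_bot_iff_stab z).1 hA _ hmem h2) fr.hu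
    rw [hce] at h2
    have hc0 : c = 0 := AddSubgroup.mem_bot.1 (hC.le ⟨hc, h2⟩)
    rw [K.tEl_congr fr.hu hc (map_zero _) hc0, K.tEl_zero, inv_mul_eq_one] at hce
    exact hce.symm
  refine ⟨hd, fun y => ?_⟩
  obtain ⟨r, hr⟩ := hbij.2 y
  refine ⟨r, ⟨r.2, hr⟩, fun s hs => ?_⟩
  exact congrArg Subtype.val (hbij.1 (show (⟨s, hs.1⟩ : fr.U).1 • z = r.1 • z from hs.2.trans hr.symm))

variable [IsPretransitive (K.G 3) Ω]

/-- Without regular orbits the line stabiliser is transitive. -/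
theorem line_transitive (hN : ∀ y : Ω, ¬(fr.ab y = ⊥ ∧ fr.cz y = ⊥)) (z z' : Ω) :
    ∃ b ∈ fr.line, b • z = z' := by
  classical
  have hq := K.two_le
  have hf := K.skewForm 3
  obtain ⟨p, a, hp, ha, hqp⟩ := K.exists_prime_pow
  have := Fact.mk hp
  let X : Set (Fin 3 → F) := {x | x ∈ K.cls 0 ∧
    ∃ h : K.G 3, h • z = z ∧ ∃ c : F, x = c • ap (h : GL (Fin 3) F) fr.u}
  have hXs : ∀ c : F, c ≠ 0 → ∀ x ∈ X, c • x ∈ X := fun c hc x ⟨hx, h, hh, c', e⟩ =>
    ⟨⟨smul_ne_zero hc hx.1, isotropic_smul hf hx.2 c⟩, h, hh, c * c', by rw [e, smul_smul]⟩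
  have hXh : ∀ h : K.G 3, h • z = z → ∀ x ∈ X, ap (h : GL (Fin 3) F) x ∈ X :=
    fun h hh x ⟨hx, h', hh', c', e⟩ => ⟨⟨ap_ne_zero _ hx.1, by rw [K.fm_ap]; exact hx.2⟩, h * h',
      by rw [mul_smul, hh', hh], c', by rw [e, ap_smul, Subgroup.coe_mul, ap_mul]⟩
  have huX : fr.u ∈ X := ⟨⟨fr.u_ne, fr.hu⟩, 1, one_smul _ z, 1, by
    rw [one_smul, Subgroup.coe_one, ap_one]⟩
  -- congruences modulo the prime
  have hmod : ∀ v ∈ K.cls (m := 3) 0, Nat.card X ≡ (if v ∈ X then q ^ 2 - 1 else 0) [MOD p] := by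
    intro v hv
    obtain ⟨g, hg⟩ := K.exists_move_iso le_rfl fr.hu hv.2 fr.u_ne hv.1
    set z0 := g⁻¹ • z
    obtain ⟨r0, hr0, hr0z, hr01⟩ : ∃ r0 ∈ fr.U, r0 • z0 = z0 ∧ r0 ≠ 1 := by
      by_contra hno
      push Not at hno
      refine hN z0 ⟨?_, ?_⟩
      · refine (fr.eq_bot_iff_stab z0).2 fun r hr hrz => ?_
        rw [hno r hr hrz]; exact one_mem _
      · refine (AddSubgroup.eq_bot_iff_forall _).2 ?_
        rintro c ⟨hc, hcz⟩
        have h := hno _ (K.tr_le_root fr.hu (K.isTr_tEl fr.hu c hc)) hcz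
        have h2 := congrArg (fun g : K.G 3 => ap (g : GL (Fin 3) F) fr.u') h
        simp only [K.ap_tEl, fr.hpair, mul_one, Subgroup.coe_one, ap_one, add_eq_left] at h2
        exact (smul_eq_zero.1 h2).resolve_right fr.u_ne
    have hstab : ∀ r ∈ fr.us z0, (g * r * g⁻¹) • z = z := fun r hr => by
      have : r • z0 = z0 := hr.2
      rw [mul_smul, mul_smul, this, smul_inv_smul]
    let : MulAction (fr.us z0) X :=
      { smul := fun r x => ⟨ap ((g * r * g⁻¹ : K.G 3) : GL (Fin 3) F) x.1,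
          hXh _ (hstab _ r.2) _ x.2⟩
        one_smul := fun x => Subtype.ext (by
          show ap ((g * (1 : fr.us z0) * g⁻¹ : K.G 3) : GL (Fin 3) F) x.1 = x.1
          rw [Subgroup.coe_one, mul_one, mul_inv_cancel, Subgroup.coe_one, ap_one])
        mul_smul := fun r s x => Subtype.ext (by
          show ap ((g * ((r * s : fr.us z0) : K.G 3) * g⁻¹ : K.G 3) : GL (Fin 3) F) x.1
            = ap ((g * r * g⁻¹ : K.G 3) : GL (Fin 3) F)
              (ap ((g * s * g⁻¹ : K.G 3) : GL (Fin 3) F) x.1)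
          rw [← ap_mul, ← Subgroup.coe_mul, Subgroup.coe_mul (fr.us z0) r s,
            show g * ((r : K.G 3) * s) * g⁻¹ = g * r * g⁻¹ * (g * s * g⁻¹) by group]) }
    have hP : IsPGroup p (fr.us z0) := by
      obtain ⟨k, -, hk⟩ := (Nat.dvd_prime_pow hp).1 (show Nat.card (fr.us z0) ∣ p ^ (a * 3) by
        rw [pow_mul, ← hqp, show (3 : ℕ) = 2 * 1 + 1 from rfl, ← fr.card_U]
        exact Subgroup.card_dvd_of_le inf_le_left)
      exact IsPGroup.of_card hk
    refine (hP.card_modEq_card_fixedPoints X).trans ?_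
    have hfixed : ∀ x : X, x ∈ MulAction.fixedPoints (fr.us z0) X ↔ ∃ c : F, x.1 = c • v := by
      intro x
      constructor
      · intro hx
        have h1 := congrArg Subtype.val (hx ⟨r0, hr0, hr0z⟩)
        have h2 : ap ((g * r0 * g⁻¹ : K.G 3) : GL (Fin 3) F) x.1 = x.1 := h1
        rw [Subgroup.coe_mul, Subgroup.coe_mul, ap_mul, ap_mul] at h2
        obtain ⟨c, hc⟩ := fr.fixed_by_root hr0 hr01
          (y := ap ((g⁻¹ : K.G 3) : GL (Fin 3) F) x.1) (by rw [K.fm_ap]; exact x.2.1.2)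
          (by
            apply ap_injective (g : GL (Fin 3) F)
            rw [h2, Subgroup.coe_inv, ap_ap_inv])
        refine ⟨c, ?_⟩
        have h3 := congrArg (ap (g : GL (Fin 3) F)) hc
        rwa [Subgroup.coe_inv, ap_ap_inv, ap_smul, hg] at h3
      · rintro ⟨c, hc⟩ r
        refine Subtype.ext ?_
        show ap ((g * r * g⁻¹ : K.G 3) : GL (Fin 3) F) x.1 = x.1
        rw [hc, ap_smul, Subgroup.coe_mul, Subgroup.coe_mul, ap_mul, ap_mul, ← hg, Subgroup.coe_inv,
          ap_inv_ap, fr.ap_U_u r.2.1]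
    refine congrArg (· % p) ?_
    split_ifs with hvX
    · rw [← K.card_eq, ← Nat.card_units]
      refine (Nat.card_eq_of_bijective (fun c : Fˣ =>
        (⟨⟨(c : F) • v, hXs c c.ne_zero v hvX⟩, (hfixed _).2 ⟨c, rfl⟩⟩ :
          MulAction.fixedPoints (fr.us z0) X)) ⟨fun c d e => Units.ext (smul_left_injective F hv.1
            (congrArg (fun t : MulAction.fixedPoints (fr.us z0) X => t.1.1) e)), fun x => ?_⟩).symm
      obtain ⟨c, hc⟩ := (hfixed x.1).1 x.2
      exact ⟨Units.mk0 c fun h => x.1.2.1.1 (by rw [hc, h, zero_smul]),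
        Subtype.ext (Subtype.ext hc.symm)⟩
    · have : IsEmpty (MulAction.fixedPoints (fr.us z0) X) := ⟨fun x => hvX (by
        obtain ⟨c, hc⟩ := (hfixed x.1).1 x.2
        have hc0 : c ≠ 0 := fun h => x.1.2.1.1 (by rw [hc, h, zero_smul])
        have h2 := hXs c⁻¹ (inv_ne_zero hc0) _ x.1.2
        rwa [hc, inv_smul_smul₀ hc0] at h2)⟩
      exact Nat.card_of_isEmpty
  have hall : ∀ v ∈ K.cls (m := 3) 0, v ∈ X := by
    intro v hv
    by_contra hvX
    have h1 := hmod v hv
    have h2 := hmod fr.u ⟨fr.u_ne, fr.hu⟩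
    rw [if_neg hvX] at h1
    rw [if_pos huX] at h2
    have h3 : p ∣ q ^ 2 - 1 := Nat.modEq_zero_iff_dvd.1 (h2.symm.trans h1)
    have h4 : p ∣ q ^ 2 := dvd_pow (hqp ▸ dvd_pow_self p (by omega)) (by omega)
    have h5 := Nat.dvd_sub h4 h3
    rw [show q ^ 2 - (q ^ 2 - 1) = 1 by have := K.sq_sub_one_pos; omega] at h5
    exact hp.one_lt.ne' (Nat.dvd_one.1 h5)
  obtain ⟨g, rfl⟩ := exists_smul_eq (K.G 3) z z'
  obtain ⟨-, h, hh, c, e⟩ := hall (ap ((g⁻¹ : K.G 3) : GL (Fin 3) F) fr.u)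
    ⟨ap_ne_zero _ fr.u_ne, by rw [K.fm_ap]; exact fr.hu⟩
  have hc : c ≠ 0 := fun h0 => ap_ne_zero ((g⁻¹ : K.G 3) : GL (Fin 3) F) fr.u_ne (by
    rw [e, h0, zero_smul])
  refine ⟨g * h, ⟨c⁻¹, ?_⟩, by rw [mul_smul, hh]⟩
  rw [Subgroup.coe_mul, ap_mul, eq_inv_smul_iff₀ hc, ← ap_smul, ← e, Subgroup.coe_inv, ap_ap_inv]

omit [IsPretransitive (K.G 3) Ω] [Finite Ω] in
/-- The scalars of the line stabiliser of a point. -/
noncomputable def Jgrp (z : Ω) : Subgroup Fˣ :=
  ((stabilizer (K.G 3) z).subgroupOf fr.line).map fr.lineVal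

omit [IsPretransitive (K.G 3) Ω] in
/-- The invariants are scaled by those scalars. -/
lemma Jgrp_inv {z : Ω} {c : Fˣ} (hc : c ∈ fr.Jgrp z) :
    (∀ w ∈ fr.ab z, ((K.chiHom c : F) • w) ∈ fr.ab z) ∧
      ∀ x ∈ fr.cz z, ((K.normHom c : F) • x) ∈ fr.cz z := by
  obtain ⟨⟨b, hb⟩, hbz, rfl⟩ := hc
  have hbz' : b • z = z := hbz
  set c := fr.lineVal ⟨b, hb⟩
  obtain ⟨t, htu, htu', hti⟩ := fr.exists_tor1 c.ne_zero
  have hr : b * t⁻¹ ∈ fr.U := fr.mem_U_of_fix (by
    rw [Subgroup.coe_mul, ap_mul]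
    have h1 : ap ((t⁻¹ : K.G 3) : GL (Fin 3) F) fr.u = (c : F)⁻¹ • fr.u := by
      rw [Subgroup.coe_inv, eq_inv_smul_iff₀ c.ne_zero, ← ap_smul, ← htu, ap_inv_ap]
    rw [h1, ap_smul, fr.lineVal_spec ⟨b, hb⟩, inv_smul_smul₀ c.ne_zero])
  have horb : t • z ∈ orbit fr.U z := by
    refine ⟨⟨(b * t⁻¹)⁻¹, inv_mem hr⟩, ?_⟩
    show (b * t⁻¹)⁻¹ • z = t • z
    rw [mul_inv_rev, inv_inv, mul_smul, show b⁻¹ • z = z from inv_smul_eq_iff.2 hbz'.symm]
  obtain ⟨hab, hcz⟩ := fr.inv_of_mem_orbit horb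
  refine ⟨fun w hw => ?_, fun x hx => ?_⟩
  · have h := fr.mem_ab' htu hti hw
    rw [hab, smul_smul] at h
    rwa [K.chiHom_val]
  · have h : (c : F) * K.σ c * x ∈ fr.cz (t • z) := by
      rw [fr.cz_smul c.ne_zero htu]
      exact ⟨x, hx, rfl⟩
    rw [hcz] at h
    rwa [K.normHom_val, smul_eq_mul]

/-- The orbit formula. -/
theorem count3 (hN : ∀ y : Ω, ¬(fr.ab y = ⊥ ∧ fr.cz y = ⊥)) (z : Ω) :
    Nat.card Ω * (Nat.card (fr.ab z) * Nat.card (fr.cz z) * Nat.card (fr.Jgrp z))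
      = q ^ 3 * (q ^ 2 - 1) := by
  have : IsPretransitive fr.line Ω := ⟨fun x y => by
    obtain ⟨b, hb, e⟩ := fr.line_transitive hN x y
    exact ⟨⟨b, hb⟩, e⟩⟩
  set L := (stabilizer (K.G 3) z).subgroupOf fr.line with hL
  have e : stabilizer fr.line z = L := by
    ext g
    simp [hL, Subgroup.mem_subgroupOf, mem_stabilizer_iff, Subgroup.smul_def]
  have h1 := (stabilizer fr.line z).card_mul_index
  rw [MulAction.index_stabilizer_of_transitive, e, fr.card_line] at h1
  have h2 : Nat.card L = Nat.card (fr.us z) * Nat.card (fr.Jgrp z) := by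
    rw [← (fr.lineVal.comp L.subtype).ker.card_mul_index, Subgroup.index_ker, MonoidHom.range_comp,
      Subgroup.range_subtype]
    congr 1
    refine Nat.card_congr
      { toFun := fun g => ⟨g.1.1.1, (fr.lineVal_eq_one_iff g.1.1).1 g.2, g.1.2⟩
        invFun := fun r => ⟨⟨⟨r.1, fr.U_le_line r.2.1⟩, r.2.2⟩, (fr.lineVal_eq_one_iff _).2 r.2.1⟩
        left_inv := fun g => rfl
        right_inv := fun r => rfl }
  rw [h2, fr.card_us] at h1
  rw [← h1]; ring

/-- The size of the transvection part is constant. -/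
lemma card_cz_const (hN : ∀ y : Ω, ¬(fr.ab y = ⊥ ∧ fr.cz y = ⊥)) (z z' : Ω) :
    Nat.card (fr.cz z') = Nat.card (fr.cz z) := by
  obtain ⟨b, ⟨a, ha⟩, rfl⟩ := fr.line_transitive hN z z'
  have ha0 : a ≠ 0 := fun h => ap_ne_zero (b : GL (Fin 3) F) fr.u_ne (by rw [ha, h, zero_smul])
  rw [fr.cz_smul ha0 ha]
  exact Nat.card_congr (AddSubgroup.equivMapOfInjective _ _ (mul_right_injective₀
    (mul_ne_zero ha0 ((map_ne_zero_iff _ K.σ.injective).2 ha0)))).symm.toEquiv

/-- The order of the stabiliser of a point. -/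
theorem card_stab (hN : ∀ y : Ω, ¬(fr.ab y = ⊥ ∧ fr.cz y = ⊥)) (z : Ω) :
    Nat.card (stabilizer (K.G 3) z)
      = (q ^ 3 + 1) * (Nat.card (fr.ab z) * Nat.card (fr.cz z) * Nat.card (fr.Jgrp z)) := by
  have h1 := (stabilizer (K.G 3) z).card_mul_index
  rw [MulAction.index_stabilizer_of_transitive, K.card_G_three] at h1
  have h2 := fr.count3 hN z
  have hd : 0 < Nat.card Ω := @Finite.card_pos _ _ ⟨z⟩
  refine Nat.eq_of_mul_eq_mul_right hd (h1.trans ?_)
  rw [mul_assoc _ _ (Nat.card Ω), mul_comm _ (Nat.card Ω), h2]; ring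

/-- The products of two transvections are many. -/
theorem global_count (hN : ∀ y : Ω, ¬(fr.ab y = ⊥ ∧ fr.cz y = ⊥)) (z : Ω)
    (hC : fr.cz z ≠ ⊥) :
    (Nat.card (fr.cz z) - 1) * q ^ 3
      ≤ (q + 1) * (Nat.card (fr.ab z) * Nat.card (fr.cz z) * Nat.card (fr.Jgrp z)) := by
  classical
  have hq := K.two_le
  have hf := K.skewForm 3
  set e0 : Fin 3 → F := inc (fun _ : Fin 1 => (1 : F)) with he0
  have he00 : K.fm 3 e0 e0 ≠ 0 := by rw [he0, K.fm_inc]; exact fr.fm_inc_one_ne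
  set E := K.cls (m := 3) (K.fm 3 e0 e0)
  have he0E : e0 ∈ E := ⟨fun h => he00 (by rw [h, zero_left hf]), rfl⟩
  choose g hg using fun e : E => K.exists_move le_rfl (e.2.2.symm) he0E.1 e.2.1
  have hv : ∀ t : K.fx, K.fm 3 ((t : F) • fr.u + fr.u') ((t : F) • fr.u + fr.u') = 0 := fun t => by
    simp only [hf.add_left, add_right hf, hf.smul_left, smul_right hf, fr.hu, fr.hu', fr.hpair,
      fr.pair', show K.σ (t : F) = t from t.2]
    ring
  have hv0 : ∀ t : K.fx, (t : F) • fr.u + fr.u' ≠ 0 := fun t h => by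
    have := congrArg (fun v => K.fm 3 v fr.u) h
    simp only [hf.add_left, hf.smul_left, fr.hu, fr.hpair, mul_zero, zero_add, zero_left hf] at this
    exact one_ne_zero this
  choose k hk using fun t : K.fx => K.exists_move_iso le_rfl fr.hu (hv t) fr.u_ne (hv0 t)
  have hcne : ∀ e : E, ∃ c ∈ fr.cz ((g e)⁻¹ • z), c ≠ 0 := fun e => by
    have h : 1 < Nat.card (fr.cz ((g e)⁻¹ • z)) := by
      rw [fr.card_cz_const hN z]; exact (AddSubgroup.one_lt_card_iff_ne_bot _).2 hC
    by_contra hno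
    push Not at hno
    rw [(AddSubgroup.eq_bot_iff_forall _).2 hno, AddSubgroup.card_bot] at h
    omega
  choose c hc hc0 using hcne
  let D := Σ e : E, Σ t : K.fx, {c' : fr.cz ((k t)⁻¹ • (g e)⁻¹ • z) // c' ≠ 0}
  let φ : D → K.G 3 := fun p => g p.1 * (K.tEl fr.hu (c p.1) (hc p.1).1 *
    K.tEl (hv p.2.1) p.2.2.1.1 p.2.2.1.2.1) * (g p.1)⁻¹
  have hφ : ∀ p : D, φ p ∈ stabilizer (K.G 3) z := by
    rintro ⟨e, t, c', hc'⟩
    rw [mem_stabilizer_iff]
    have h2 : K.tEl (hv t) c'.1 c'.2.1 • (g e)⁻¹ • z = (g e)⁻¹ • z := by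
      rw [← K.conj_tEl fr.hu (hv t) c'.1 c'.1 c'.2.1 c'.2.1 (k t) (a := 1)
        (by rw [hk, one_smul]) (by simp), mul_smul, mul_smul, c'.2.2, smul_inv_smul]
    show (g e * (K.tEl fr.hu (c e) (hc e).1 * K.tEl (hv t) c'.1 c'.2.1) * (g e)⁻¹) • z = z
    rw [mul_smul, mul_smul, mul_smul, h2, (hc e).2, smul_inv_smul]
  -- the fixed vectors
  have hfix : ∀ p : D, ap (φ p : GL (Fin 3) F) p.1.1 = p.1.1 ∧
      ∀ x, ap (φ p : GL (Fin 3) F) x = x → ∃ a : F, x = a • p.1.1 := by
    rintro ⟨e, t, c', hc'⟩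
    set v := (t : F) • fr.u + fr.u' with hvdef
    have key : ∀ y, ap ((K.tEl fr.hu (c e) (hc e).1 * K.tEl (hv t) c'.1 c'.2.1 : K.G 3) :
        GL (Fin 3) F) y = y + (c'.1 * K.fm 3 y v) • v
          + (c e * (K.fm 3 y fr.u + c'.1 * K.fm 3 y v * K.fm 3 v fr.u)) • fr.u := by
      intro y
      rw [Subgroup.coe_mul, ap_mul, K.ap_tEl, K.ap_tEl, hf.add_left, hf.smul_left]
    have hconj : ∀ y, ap (φ ⟨e, t, c', hc'⟩ : GL (Fin 3) F) (ap (g e : GL (Fin 3) F) y)
        = ap (g e : GL (Fin 3) F) (ap ((K.tEl fr.hu (c e) (hc e).1 *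
          K.tEl (hv t) c'.1 c'.2.1 : K.G 3) : GL (Fin 3) F) y) := by
      intro y
      show ap ((g e * (K.tEl fr.hu (c e) (hc e).1 * K.tEl (hv t) c'.1 c'.2.1) * (g e)⁻¹ : K.G 3) :
        GL (Fin 3) F) _ = _
      rw [Subgroup.coe_mul, Subgroup.coe_mul, ap_mul, ap_mul, Subgroup.coe_inv, ap_inv_ap]
    have he0v : K.fm 3 e0 v = 0 := by
      rw [hvdef, add_right hf, smul_right hf, fr.inc_u, fr.inc_u', mul_zero, add_zero]
    refine ⟨?_, fun x hx => ?_⟩
    · show ap _ e.1 = e.1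
      rw [← hg e, hconj, key, fr.inc_u, he0v]
      simp
    · obtain ⟨y, rfl⟩ : ∃ y, ap (g e : GL (Fin 3) F) y = x := ⟨_, ap_ap_inv _ x⟩
      rw [hconj] at hx
      have h2 := ap_injective _ hx
      rw [key, add_assoc, add_eq_left] at h2
      have hvu : K.fm 3 v fr.u = 1 := by
        rw [hvdef, hf.add_left, hf.smul_left, fr.hu, fr.hpair, mul_zero, zero_add]
      have h3 := congrArg (fun w => K.fm 3 w fr.u) h2
      simp only [hf.add_left, hf.smul_left, hvu, fr.hu, zero_left hf, mul_one, mul_zero,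
        add_zero] at h3
      have hyv : K.fm 3 y v = 0 := (mul_eq_zero.1 h3).resolve_left fun h => hc' (Subtype.ext h)
      rw [hyv, mul_zero, zero_smul, zero_add, zero_mul, add_zero] at h2
      have hyu : K.fm 3 y fr.u = 0 :=
        (mul_eq_zero.1 ((smul_eq_zero.1 h2).resolve_right fr.u_ne)).resolve_left (hc0 e)
      obtain ⟨a, w, hy⟩ := fr.decomp3 y
      rw [hyu, zero_smul, add_zero] at hy
      have hvu' : K.fm 3 fr.u v = -1 := by
        rw [hvdef, add_right hf, smul_right hf, fr.hu, fr.pair', mul_zero, zero_add]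
      rw [hy, hf.add_left, hf.smul_left, hf.smul_left, hvu', ← he0, he0v] at hyv
      have ha : a = 0 := by linear_combination -hyv
      refine ⟨w, ?_⟩
      show _ = w • e.1
      rw [hy, ha, zero_smul, zero_add, ap_smul, ← he0, hg]
  -- counting
  have hinj : Nat.card D ≤ Nat.card (stabilizer (K.G 3) z × {a : F // a * K.σ a = 1}) := by
    let rep : stabilizer (K.G 3) z → (Fin 3 → F) := fun h =>
      if hh : ∃ x ∈ E, ap ((h : K.G 3) : GL (Fin 3) F) x = x then hh.choose else e0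
    have hrep : ∀ p : D, ∃ a : F, a * K.σ a = 1 ∧ rep ⟨φ p, hφ p⟩ = a • p.1.1 := by
      intro p
      have hh : ∃ x ∈ E, ap (φ p : GL (Fin 3) F) x = x := ⟨_, p.1.2, (hfix p).1⟩
      have e1 : rep ⟨φ p, hφ p⟩ = hh.choose := dif_pos hh
      obtain ⟨a, ha⟩ := (hfix p).2 _ hh.choose_spec.2
      refine ⟨a, ?_, e1.trans ha⟩
      have h2 : K.fm 3 hh.choose hh.choose = K.fm 3 e0 e0 := hh.choose_spec.1.2
      rw [ha, hf.smul_left, smul_right hf, p.1.2.2] at h2
      exact mul_right_cancel₀ he00 (by linear_combination h2)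
    choose a ha1 ha using hrep
    refine Nat.card_le_card_of_injective (fun p => (⟨φ p, hφ p⟩, ⟨a p, ha1 p⟩)) fun p p' e => ?_
    simp only [Prod.mk.injEq, Subtype.mk.injEq] at e
    obtain ⟨e1, e2⟩ := e
    have he : p.1 = p'.1 := by
      refine Subtype.ext ?_
      have h := ha p
      have h' := ha p'
      simp only [e1] at h
      rw [h'] at h
      rw [e2] at h
      exact (smul_right_injective _ (left_ne_zero_of_mul_eq_one (ha1 p')) h).symm
    obtain ⟨e, t, c', hc'⟩ := p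
    obtain ⟨e', t', d', hd'⟩ := p'
    simp only at he
    subst he
    have h1 : g e * (K.tEl fr.hu (c e) (hc e).1 * K.tEl (hv t) c'.1 c'.2.1) * (g e)⁻¹
        = g e * (K.tEl fr.hu (c e) (hc e).1 * K.tEl (hv t') d'.1 d'.2.1) * (g e)⁻¹ := e1
    rw [mul_left_inj, mul_right_inj, mul_right_inj] at h1
    have h2 := congrArg (fun G : K.G 3 => ap (G : GL (Fin 3) F) fr.u) h1
    have hvu' : ∀ t : K.fx, K.fm 3 fr.u ((t : F) • fr.u + fr.u') = -1 := fun t => by
      rw [add_right hf, smul_right hf, fr.hu, fr.pair', mul_zero, zero_add]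
    simp only [K.ap_tEl, hvu', add_right_inj, smul_add, smul_smul] at h2
    have h3 := congrArg (fun w => K.fm 3 w fr.u) h2
    simp only [hf.add_left, hf.smul_left, fr.hu, fr.hpair, mul_zero, zero_add, mul_one] at h3
    have hcd : c'.1 = d'.1 := by linear_combination -h3
    have h4 := congrArg (fun w => K.fm 3 w fr.u') h2
    simp only [hf.add_left, hf.smul_left, fr.hu', fr.pair', mul_zero, add_zero] at h4
    have htt : t = t' := Subtype.ext (mul_left_cancel₀ (fun h => hc' (Subtype.ext h))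
      (show c'.1 * (t : F) = c'.1 * (t' : F) by rw [← hcd] at h4; linear_combination h4))
    subst htt
    obtain rfl : c' = d' := Subtype.ext hcd
    rfl
  have hD : Nat.card D = K.normCount 3 * (q * (Nat.card (fr.cz z) - 1)) := by
    have := Fintype.ofFinite E
    have := Fintype.ofFinite K.fx
    have hne : ∀ (y : Ω), Nat.card {c' : fr.cz y // c' ≠ 0} = Nat.card (fr.cz z) - 1 := fun y => by
      have e : Option {c' : fr.cz y // c' ≠ 0} ≃ fr.cz y :=
        { toFun := fun o => o.elim 0 fun w => w.1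
          invFun := fun w => if h0 : w = 0 then none else some ⟨w, h0⟩
          left_inv := fun o => by cases o with
            | none => simp
            | some w => simp [w.2]
          right_inv := fun w => by by_cases h0 : w = 0 <;> simp [h0] }
      rw [← fr.card_cz_const hN z y, ← Nat.card_congr e, Finite.card_option, Nat.add_sub_cancel]
    rw [Nat.card_sigma, Finset.sum_const_nat (m := q * (Nat.card (fr.cz z) - 1)) fun e _ => ?_,
      Finset.card_univ, ← Nat.card_eq_fintype_card, K.card_cls (skew_self hf e0) he00]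
    rw [Nat.card_sigma, Finset.sum_const_nat (m := Nat.card (fr.cz z) - 1) fun t _ => hne _,
      Finset.card_univ, ← Nat.card_eq_fintype_card, K.card_fx]
  rw [hD, Nat.card_prod, K.card_norm_one, fr.card_stab hN z, K.norm_three] at hinj
  refine Nat.le_of_mul_le_mul_left ?_ (show 0 < q ^ 3 + 1 from Nat.succ_pos _)
  calc (q ^ 3 + 1) * ((Nat.card (fr.cz z) - 1) * q ^ 3)
      = q ^ 2 * (q ^ 3 + 1) * (q * (Nat.card (fr.cz z) - 1)) := by ring
    _ ≤ _ := hinj.trans (le_of_eq (by ring))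

end Frame

end CfsgLib.MinIndexUnit
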