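import Cfsg.Agent.Lib.MinIndex.Unit.ThreeBase

/-!
No point of a small action of the three-dimensional group is fixed by a transvection group.
-/

set_option autoImplicit false
set_option linter.unusedSectionVars false

namespace CfsgLib.MinIndexUnit

open CfsgLib.Geometric CfsgLib.Geometric.Unitary CfsgLib.ClassicalForms MulAction

variable {F : Type*} [Field F] [Finite F] {q : ℕ} {K : UC F q}

namespace UC

variable (K) {n : ℕ} {Ω : Type*} [MulAction (K.G n) Ω]

lemma fixes_smul_iff {x : Fin n → F} {z : Ω} {a : F} (ha : a ≠ 0) :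
    K.Fixes (a • x) z ↔ K.Fixes x z :=
  ⟨fun h => by simpa [smul_smul, ha] using K.fixes_smul a⁻¹ h, fun h => K.fixes_smul a h⟩

/-- The fixing vectors are closed under their transvections. -/
lemma fixes_tEl {x y : Fin n → F} (hx : K.fm n x x = 0) {z : Ω} (hxz : K.Fixes x z)
    (hyz : K.Fixes y z) (c : F) (hc : K.σ c = c) :
    K.Fixes (ap (K.tEl hx c hc : GL (Fin n) F) y) z := by
  have h := K.fixes_conj hyz (K.tEl hx c hc)
  rwa [hxz _ (K.isTr_tEl hx c hc)] at h

end UC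

namespace Frame

variable (fr : Frame K 1)
include fr

omit fr in
lemma exists_nonreal : ∃ x : F, K.σ x ≠ x := by
  by_contra h
  push Not at h
  exact K.conj.ne (RingHom.ext fun x => by rw [← K.σ_eq, h]; rfl)

lemma coord_fm (a b c : F) :
    K.fm 3 (a • fr.u + b • fr.u' + c • inc (fun _ => (1 : F))) fr.u = b ∧
      K.fm 3 (a • fr.u + b • fr.u' + c • inc (fun _ => (1 : F))) fr.u' = -a ∧
      K.fm 3 (a • fr.u + b • fr.u' + c • inc (fun _ => (1 : F)))
          (a • fr.u + b • fr.u' + c • inc (fun _ => (1 : F)))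
        = b * K.σ a - a * K.σ b + c * K.σ c * K.fm 1 (fun _ => 1) fun _ => 1 := by
  have hf := K.skewForm 3
  have hue : ∀ w, K.fm 3 fr.u (inc w) = 0 := fun w => (eq_zero_comm hf).1 (fr.inc_u w)
  have hu'e : ∀ w, K.fm 3 fr.u' (inc w) = 0 := fun w => (eq_zero_comm hf).1 (fr.inc_u' w)
  simp only [hf.add_left, add_right hf, hf.smul_left, smul_right hf, fr.hu, fr.hu', fr.hpair,
    fr.pair', fr.inc_u, fr.inc_u', hue, hu'e, K.fm_inc]
  refine ⟨?_, ?_, ?_⟩ <;> ring

/-- The vectors with second coordinate one. -/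
lemma decomp_one {y : Fin 3 → F} (hyu : K.fm 3 y fr.u = 1) :
    ∃ α w : F, y = α • fr.u + (1 : F) • fr.u' + w • inc (fun _ => (1 : F)) := by
  obtain ⟨α, w, e⟩ := fr.decomp3 y
  exact ⟨α, w, by rw [e, hyu]⟩

variable {Ω : Type*} [MulAction (K.G 3) Ω]

/-- Three fixing points in general position fix everything. -/
theorem fixes_all {z : Ω} (hu : K.Fixes fr.u z) (hu' : K.Fixes fr.u' z) {p : Fin 3 → F}
    (hpp : K.fm 3 p p = 0) (hp : K.Fixes p z) (hpt : tail2 p ≠ 0) (x : Fin 3 → F)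
    (hx : x ∈ K.cls (m := 3) 0) : K.Fixes x z := by
  have hf := K.skewForm 3
  set e := inc (fun _ : Fin 1 => (1 : F)) with he
  set h0 := K.fm 1 (fun _ => (1 : F)) (fun _ => 1)
  have hh0 : h0 ≠ 0 := fr.fm_inc_one_ne
  have htail : ∀ a b c : F, tail2 (a • fr.u + b • fr.u' + c • e) = fun _ => c := fun a b c => by
    rw [tail2_add, tail2_add, tail2_smul, tail2_smul, tail2_smul, fr.tail_u, fr.tail_u', he,
      tail2_inc]
    funext i
    simp
  let X : F → Prop := fun w => ∃ α : F, K.fm 3 (α • fr.u + (1 : F) • fr.u' + w • e)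
    (α • fr.u + (1 : F) • fr.u' + w • e) = 0 ∧ K.Fixes (α • fr.u + (1 : F) • fr.u' + w • e) z
  have hshift : ∀ w : F, X w → ∀ α' : F, K.fm 3 (α' • fr.u + (1 : F) • fr.u' + w • e)
      (α' • fr.u + (1 : F) • fr.u' + w • e) = 0 →
      K.Fixes (α' • fr.u + (1 : F) • fr.u' + w • e) z := by
    rintro w ⟨α, hα, hfix⟩ α' hα'
    have hr : K.σ (α' - α) = α' - α := by
      rw [(fr.coord_fm _ _ _).2.2] at hα hα'
      rw [map_one] at hα hα'
      rw [map_sub]
      linear_combination hα' - hα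
    have h := K.fixes_tEl fr.hu hu hfix _ hr
    rwa [K.ap_tEl, (fr.coord_fm _ _ _).1,
      show α • fr.u + (1 : F) • fr.u' + w • e + ((α' - α) * 1) • fr.u
        = α' • fr.u + (1 : F) • fr.u' + w • e by module] at h
  have hdiv : ∀ w μ : F, w ≠ 0 → X w → K.σ μ ≠ μ → X (w / μ) := by
    rintro w μ hw ⟨α, hα, hfix⟩ hμ
    have hαn : α - K.σ α ≠ 0 := by
      intro h
      rw [(fr.coord_fm _ _ _).2.2, map_one] at hα
      exact mul_ne_zero (mul_ne_zero hw ((map_ne_zero_iff _ K.σ.injective).2 hw)) hh0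
        (by linear_combination hα + h)
    set b := ((1 - μ) - K.σ (1 - μ)) / (α - K.σ α) with hb
    have hb0 : b ≠ 0 := div_ne_zero (fun h => hμ (by
      rw [map_sub, map_one] at h; linear_combination h)) hαn
    have hbr : K.σ b = b := by
      simp only [hb, map_div₀, map_sub, map_one, K.invol]
      rw [← neg_div_neg_eq, neg_sub, neg_sub]
    set t := (1 - μ) / b - α with ht
    have hbα : b * (α - K.σ α) = (1 - μ) - K.σ (1 - μ) := div_mul_cancel₀ _ hαn
    have htr : K.σ t = t := by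
      rw [ht, map_sub, map_div₀, hbr]
      field_simp
      linear_combination hbα
    have hy := hshift w ⟨α, hα, hfix⟩ (α + t) (by
      rw [(fr.coord_fm _ _ _).2.2, map_one, map_add, htr]
      rw [(fr.coord_fm _ _ _).2.2, map_one] at hα
      linear_combination hα)
    have hμ0 : μ ≠ 0 := fun h => hμ (by rw [h, map_zero])
    have h := K.fixes_smul μ⁻¹ (K.fixes_tEl fr.hu' hu' hy b hbr)
    have e1 : μ⁻¹ • ap (K.tEl fr.hu' b hbr : GL (Fin 3) F)
        ((α + t) • fr.u + (1 : F) • fr.u' + w • e)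
        = (μ⁻¹ * (α + t)) • fr.u + (1 : F) • fr.u' + (w / μ) • e := by
      rw [K.ap_tEl, (fr.coord_fm _ _ _).2.1]
      have e2 : b * -(α + t) = μ - 1 := by
        rw [ht]; field_simp; ring
      rw [e2, div_eq_mul_inv, show (1 : F) • fr.u' = (μ⁻¹ * μ) • fr.u' by rw [inv_mul_cancel₀ hμ0]]
      rw [show ((μ⁻¹ * μ) : F) = 1 from inv_mul_cancel₀ hμ0]
      rw [show μ⁻¹ • ((α + t) • fr.u + (1 : F) • fr.u' + w • e + (μ - 1) • fr.u')
        = (μ⁻¹ * (α + t)) • fr.u + (μ⁻¹ * μ) • fr.u' + (w * μ⁻¹) • e by module,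
        inv_mul_cancel₀ hμ0]
    rw [e1] at h
    refine ⟨_, ?_, h⟩
    rw [← e1, hf.smul_left, smul_right hf, K.fm_ap, (fr.coord_fm _ _ _).2.2, map_one, map_add, htr]
    rw [(fr.coord_fm _ _ _).2.2, map_one] at hα
    linear_combination (μ⁻¹ * K.σ μ⁻¹) * hα
  -- the starting point
  obtain ⟨x0, hx0, hX0⟩ : ∃ x0, x0 ≠ 0 ∧ X x0 := by
    have hpu : K.fm 3 p fr.u ≠ 0 := by
      intro h
      obtain ⟨a, c, hpe⟩ := fr.decomp3 p
      rw [h] at hpe
      rw [hpe, (fr.coord_fm _ _ _).2.2, map_zero] at hpp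
      have hc : c * K.σ c * h0 = 0 := by linear_combination hpp
      have hc0 : c = 0 := by simpa [hh0] using hc
      refine hpt ?_
      rw [hpe, htail, hc0]
      rfl
    set p' := (K.fm 3 p fr.u)⁻¹ • p with hp'
    have hp'u : K.fm 3 p' fr.u = 1 := by rw [hp', hf.smul_left, inv_mul_cancel₀ hpu]
    obtain ⟨α, w, hw⟩ := fr.decomp_one hp'u
    refine ⟨w, fun h => hpt ?_, α, by rw [← hw]; exact isotropic_smul hf hpp _,
      by rw [← hw]; exact K.fixes_smul _ hp⟩
    have h2 := congrArg tail2 hw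
    rw [htail, h, hp', tail2_smul] at h2
    exact (smul_eq_zero.1 h2).resolve_left (inv_ne_zero hpu)
  by_cases hxu : K.fm 3 x fr.u = 0
  · obtain ⟨a, c, hxe⟩ := fr.decomp3 x
    rw [hxu] at hxe
    have h2 := hx.2
    rw [hxe, (fr.coord_fm _ _ _).2.2, map_zero] at h2
    have hc : c * K.σ c * h0 = 0 := by linear_combination h2
    have hc0 : c = 0 := by simpa [hh0] using hc
    rw [hxe, hc0, zero_smul, zero_smul, add_zero, add_zero]
    exact K.fixes_smul a hu
  set x' := (K.fm 3 x fr.u)⁻¹ • x with hx'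
  suffices hfx : K.Fixes x' z by
    rwa [hx', K.fixes_smul_iff (inv_ne_zero hxu)] at hfx
  have hx'u : K.fm 3 x' fr.u = 1 := by rw [hx', hf.smul_left, inv_mul_cancel₀ hxu]
  obtain ⟨α, w, hw⟩ := fr.decomp_one hx'u
  have hiso : K.fm 3 x' x' = 0 := isotropic_smul hf hx.2 _
  rw [hw] at hiso ⊢
  refine hshift w ?_ α hiso
  by_cases hw0 : w = 0
  · exact ⟨0, by rw [(fr.coord_fm _ _ _).2.2, hw0]; simp, by rw [hw0]; simpa using hu'⟩
  set lam := x0 / w with hlam
  have hlam0 : lam ≠ 0 := div_ne_zero hx0 hw0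
  obtain ⟨μ, hμ, hμ2⟩ : ∃ μ, K.σ μ ≠ μ ∧ K.σ (lam / μ) ≠ lam / μ := by
    by_cases hl : K.σ lam = lam
    · obtain ⟨ν, hν⟩ := exists_nonreal (K := K)
      refine ⟨ν, hν, fun h => hν ?_⟩
      rw [map_div₀, hl] at h
      rw [div_eq_div_iff ((map_ne_zero_iff _ K.σ.injective).2 fun e => hν (by rw [e, map_zero]))
        (fun e => hν (by rw [e, map_zero]))] at h
      exact (mul_left_cancel₀ hlam0 h).symm
    · refine ⟨lam + 1, fun h => hl (by rw [map_add, map_one] at h; linear_combination h), fun h => hl ?_⟩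
      have h1 : lam + 1 ≠ 0 := fun e => hl (by
        rw [eq_neg_of_add_eq_zero_left e, map_neg, map_one])
      rw [map_div₀, map_add, map_one, div_eq_div_iff (fun e => hl (by
        have : K.σ lam = -1 := by linear_combination e
        rw [this, ← K.invol lam, this, map_neg, map_one])) h1] at h
      linear_combination h
  have h := hdiv _ _ (div_ne_zero hx0 fun e => hμ (by rw [e, map_zero])) (hdiv _ μ hx0 hX0 hμ) hμ2
  have hμ0 : μ ≠ 0 := fun e => hμ (by rw [e, map_zero])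
  rwa [show x0 / μ / (lam / μ) = w by rw [hlam]; field_simp] at h

variable [Finite Ω] [IsPretransitive (K.G 3) Ω]

/-- No point is fixed by the transvection group. -/
theorem no_fixed3 (hq : 3 ≤ q) (h1 : 1 < Nat.card Ω) (hΩ : Nat.card Ω < q ^ 3 + 1) (z : Ω) :
    fr.cz z ≠ K.fx := by
  classical
  intro hz
  have hf := K.skewForm 3
  -- general position is impossible
  have hnot : ∀ (z : Ω), K.Fixes fr.u z → K.Fixes fr.u' z → ∀ p ∈ K.cls (m := 3) 0,
      K.Fixes p z → tail2 p = 0 := by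
    intro z hu hu' p hp hpz
    by_contra hpt
    have hfix : ∀ g : K.G 3, g • z = z := fun g =>
      K.smul_eq_of_tr le_rfl (by omega) (fun v hv c hc => by
        by_cases hv0 : v = 0
        · rw [show K.tEl hv c hc = 1 from K.g_ext fun x => by rw [K.ap_tEl, hv0]; simp, one_smul]
        · exact fr.fixes_all hu hu' hp.2 hpz hpt v ⟨hv0, hv⟩ _ (K.isTr_tEl hv c hc)) g
    have : Subsingleton Ω := ⟨fun a b => by
      obtain ⟨g, rfl⟩ := exists_smul_eq (K.G 3) z a
      obtain ⟨g', rfl⟩ := exists_smul_eq (K.G 3) z b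
      rw [hfix, hfix]⟩
    have := Finite.card_le_one_iff_subsingleton.2 this
    omega
  -- double counting
  have := Fintype.ofFinite (K.cls (m := 3) 0)
  have := Fintype.ofFinite Ω
  set f := Nat.card {y : Ω // fr.cz y = K.fx} with hfdef
  have hcx : ∀ x : K.cls (m := 3) 0, Nat.card {y : Ω // K.Fixes x.1 y} = f := by
    intro x
    obtain ⟨g, hg⟩ := K.exists_move_iso le_rfl fr.hu x.2.2 fr.u_ne x.2.1
    refine (Nat.card_congr ((MulAction.toPerm g).subtypeEquiv fun y => ?_)).symm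
    rw [MulAction.toPerm_apply, ← hg, K.fixes_conj_iff, fr.cz_fixes]
  set l := Nat.card {x : Fin 3 → F // x ∈ K.cls 0 ∧ K.Fixes x z} with hl
  have hcz : ∀ y : Ω, Nat.card {x : Fin 3 → F // x ∈ K.cls 0 ∧ K.Fixes x y} = l := by
    intro y
    obtain ⟨g, hg⟩ := exists_smul_eq (K.G 3) z y
    refine (Nat.card_congr ((apEquiv (g : GL (Fin 3) F)).toEquiv.subtypeEquiv
      fun x => ?_)).symm
    show x ∈ K.cls 0 ∧ K.Fixes x z ↔
      ap (g : GL (Fin 3) F) x ∈ K.cls 0 ∧ K.Fixes (ap (g : GL (Fin 3) F) x) y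
    rw [← hg, K.fixes_conj_iff]
    refine and_congr_left fun _ => and_congr ?_ (by rw [K.fm_ap])
    exact ⟨ap_ne_zero _, fun h h0 => h (by rw [h0, ap_zero])⟩
  have hcount : K.isoCount 3 * f = Nat.card Ω * l := by
    have e : (Σ x : K.cls (m := 3) 0, {y : Ω // K.Fixes x.1 y})
        ≃ Σ y : Ω, {x : Fin 3 → F // x ∈ K.cls 0 ∧ K.Fixes x y} :=
      { toFun := fun p => ⟨p.2.1, p.1.1, p.1.2, p.2.2⟩
        invFun := fun p => ⟨⟨p.2.1, p.2.2.1⟩, p.1, p.2.2.2⟩
        left_inv := fun p => rfl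
        right_inv := fun p => rfl }
    have h2 := Nat.card_congr e
    rw [Nat.card_sigma, Nat.card_sigma, Finset.sum_congr rfl (fun x _ => hcx x),
      Finset.sum_congr rfl (fun y _ => hcz y), Finset.sum_const, Finset.sum_const,
      Finset.card_univ, Finset.card_univ, smul_eq_mul, smul_eq_mul, ← Nat.card_eq_fintype_card,
      ← Nat.card_eq_fintype_card, K.card_cls_zero] at h2
    exact h2
  rw [← K.pts_mul, K.pts_three] at hcount
  have hsq := K.sq_sub_one_pos
  have hu : K.Fixes fr.u z := (fr.cz_fixes z).1 hz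
  have hf0 : 0 < f := @Finite.card_pos _ _ ⟨⟨z, hz⟩⟩
  -- a second vector
  obtain ⟨y, hy, hyz, hyu⟩ : ∃ y ∈ K.cls (m := 3) 0, K.Fixes y z ∧ K.fm 3 y fr.u ≠ 0 := by
    by_contra hno
    push Not at hno
    have hle : l ≤ Nat.card Fˣ := by
      refine Nat.card_le_card_of_surjective
        (fun a : Fˣ => (⟨(a : F) • fr.u, ⟨smul_ne_zero a.ne_zero fr.u_ne,
          isotropic_smul hf fr.hu _⟩, K.fixes_smul _ hu⟩ :
          {x : Fin 3 → F // x ∈ K.cls 0 ∧ K.Fixes x z})) fun p => ?_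
      obtain ⟨⟨hp0, hpp⟩, hpz⟩ := p.2
      obtain ⟨a, c, hpe⟩ := fr.decomp3 p.1
      rw [hno p.1 ⟨hp0, hpp⟩ hpz] at hpe
      rw [hpe, (fr.coord_fm _ _ _).2.2, map_zero] at hpp
      have hc : c * K.σ c * K.fm 1 (fun _ => (1 : F)) (fun _ => 1) = 0 := by linear_combination hpp
      have hc0 : c = 0 := by simpa [fr.fm_inc_one_ne] using hc
      rw [hc0, zero_smul, zero_smul, add_zero, add_zero] at hpe
      exact ⟨Units.mk0 a fun h => hp0 (by rw [hpe, h, zero_smul]), Subtype.ext hpe.symm⟩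
    rw [Nat.card_units, K.card_eq] at hle
    have h2 : (q ^ 2 - 1) * (q ^ 3 + 1) * f ≤ Nat.card Ω * (q ^ 2 - 1) :=
      hcount.le.trans (Nat.mul_le_mul_left _ hle)
    have h3 : (q ^ 3 + 1) * f ≤ Nat.card Ω := by
      refine Nat.le_of_mul_le_mul_left ?_ hsq
      rw [← mul_assoc, mul_comm (q ^ 2 - 1) (Nat.card Ω)]; exact h2
    have : q ^ 3 + 1 ≤ (q ^ 3 + 1) * f := Nat.le_mul_of_pos_right _ hf0
    omega
  -- move it to the second vector of the frame
  set y' := (K.fm 3 y fr.u)⁻¹ • y with hy'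
  have hy'u : K.fm 3 y' fr.u = 1 := by rw [hy', hf.smul_left, inv_mul_cancel₀ hyu]
  obtain ⟨α, w, hw⟩ := fr.decomp_one hy'u
  have hα : α - K.σ α = K.fm 3 (inc (fun _ : Fin 1 => w)) (inc fun _ : Fin 1 => w) := by
    have h := isotropic_smul hf hy.2 (K.fm 3 y fr.u)⁻¹
    rw [← hy', hw, (fr.coord_fm _ _ _).2.2, map_one] at h
    rw [K.fm_inc, Frame.smul_one_fn (fun _ : Fin 1 => w), (K.skewForm 1).smul_left,
      smul_right (K.skewForm 1)]
    linear_combination -h
  set r := K.eEl fr.hu (fr.inc_u _) α hα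
  have hr : r ∈ fr.U := K.isRoot_eEl _ _ _ _
  have hru' : ap (r : GL (Fin 3) F) fr.u' = y' := by
    rw [K.ap_eEl, fr.hpair, (eq_zero_comm hf).1 (fr.inc_u' _), hw,
      Frame.inc_eq (fun _ : Fin 1 => w)]
    module
  set z1 := r⁻¹ • z with hz1
  have hu1 : K.Fixes fr.u z1 := by
    have := K.fixes_conj hu r⁻¹
    rwa [fr.ap_U_u (inv_mem hr)] at this
  have hu'1 : K.Fixes fr.u' z1 := by
    have := K.fixes_conj (K.fixes_smul (K.fm 3 y fr.u)⁻¹ hyz) r⁻¹
    rwa [← hy', ← hru', Subgroup.coe_inv, ap_inv_ap] at this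
  -- the point has a small stabiliser in the root group
  have hA : fr.ab z1 = ⊥ := by
    refine (fr.eq_bot_iff_stab z1).2 fun g hg hgz => fr.mem_Z_of_proj hg ?_
    have h2 := K.fixes_conj hu'1 g
    rw [hgz] at h2
    exact hnot z1 hu1 hu'1 _ ⟨ap_ne_zero _ (fun h => by
      have := fr.hpair; rw [h, zero_left hf] at this; exact zero_ne_one this),
      by rw [K.fm_ap, fr.hu']⟩ h2
  have hfq : q ^ 2 ≤ f := by
    have hz1' : fr.cz z1 = K.fx := (fr.cz_fixes _).2 hu1
    have ho := fr.card_orbit z1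
    rw [hA, AddSubgroup.card_bot, one_mul, hz1', K.card_fx] at ho
    have h2 : Nat.card (orbit fr.U z1) = q ^ 2 := Nat.eq_of_mul_eq_mul_right (show 0 < q by omega)
      (by rw [ho]; ring)
    rw [← h2, hfdef]
    refine Nat.card_le_card_of_injective (fun y => ⟨y.1, ?_⟩) fun a b e => Subtype.ext
      (congrArg (fun t : {y : Ω // fr.cz y = K.fx} => t.1) e)
    exact (fr.inv_of_mem_orbit y.2).2.trans hz1'
  -- the fixing vectors lie in the plane
  have hl1 : l ≤ (q + 1) * (q ^ 2 - 1) := by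
    rw [← hcz z1]
    refine (Nat.card_le_card_of_surjective
      (fun p : Option K.fx × Fˣ => (⟨(p.2 : F) • p.1.elim fr.u fun c => (c : F) • fr.u + fr.u',
        ?_⟩ : {x : Fin 3 → F // x ∈ K.cls 0 ∧ K.Fixes x z1})) fun p => ?_).trans
      (le_of_eq (by rw [Nat.card_prod, Finite.card_option, K.card_fx, Nat.card_units, K.card_eq]))
    · rcases p with ⟨_ | c, a⟩
      · exact ⟨⟨smul_ne_zero a.ne_zero fr.u_ne, isotropic_smul hf fr.hu _⟩, K.fixes_smul _ hu1⟩
      · have hcc : K.σ (c : F) = c := c.2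
        have h2 := K.fixes_tEl fr.hu hu1 hu'1 _ hcc
        rw [K.ap_tEl, fr.hpair, mul_one, show fr.u' + (c : F) • fr.u = (c : F) • fr.u + fr.u' from add_comm _ _] at h2
        have h0 : (c : F) • fr.u + fr.u' ≠ 0 := fun h => by
          have := congrArg (fun v => K.fm 3 v fr.u) h
          simp only [hf.add_left, hf.smul_left, fr.hu, fr.hpair, mul_zero, zero_add,
            zero_left hf] at this
          exact one_ne_zero this
        refine ⟨⟨smul_ne_zero a.ne_zero h0, isotropic_smul hf ?_ _⟩, K.fixes_smul _ h2⟩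
        simp only [Option.elim_some, hf.add_left, add_right hf, hf.smul_left, smul_right hf, fr.hu,
          fr.hu', fr.hpair, fr.pair', hcc]
        ring
    · obtain ⟨⟨hp0, hpp⟩, hpz⟩ := p.2
      obtain ⟨a, c, hpe⟩ := fr.decomp3 p.1
      have hc0 : c = 0 := by
        have h2 := hnot z1 hu1 hu'1 p.1 ⟨hp0, hpp⟩ hpz
        rw [hpe, tail2_add, tail2_add, tail2_smul, tail2_smul, tail2_smul, fr.tail_u, fr.tail_u',
          tail2_inc] at h2
        simpa using congrFun h2 0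
      rw [hc0, zero_smul, add_zero] at hpe
      generalize K.fm 3 p.1 fr.u = b at hpe
      by_cases hb : b = 0
      · rw [hb, zero_smul, add_zero] at hpe
        exact ⟨(none, Units.mk0 a fun h => hp0 (by rw [hpe, h, zero_smul])), Subtype.ext hpe.symm⟩
      · have hreal : K.σ (a / b) = a / b := by
          rw [hpe] at hpp
          simp only [hf.add_left, add_right hf, hf.smul_left, smul_right hf, fr.hu, fr.hu',
            fr.hpair, fr.pair'] at hpp
          rw [map_div₀, div_eq_div_iff ((map_ne_zero_iff _ K.σ.injective).2 hb) hb]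
          linear_combination hpp
        refine ⟨(some ⟨a / b, hreal⟩, Units.mk0 b hb), Subtype.ext ?_⟩
        show b • ((a / b) • fr.u + fr.u') = p.1
        rw [hpe, smul_add, smul_smul, mul_div_cancel₀ _ hb]
  have h2 : (q ^ 2 - 1) * ((q ^ 3 + 1) * f) ≤ (q ^ 2 - 1) * (Nat.card Ω * (q + 1)) := by
    rw [← mul_assoc, hcount]
    exact (Nat.mul_le_mul_left _ hl1).trans (le_of_eq (by ring))
  have h3 := (Nat.mul_le_mul_left (q ^ 3 + 1) hfq).trans (Nat.le_of_mul_le_mul_left h2 hsq)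
  have h4 : Nat.card Ω * (q + 1) ≤ q ^ 3 * (q + 1) := Nat.mul_le_mul_right _ (by omega)
  have h5 : (q ^ 3 + 1) * q ^ 2 = q ^ 5 + q ^ 2 := by ring
  have h6 : q ^ 3 * (q + 1) = q ^ 4 + q ^ 3 := by ring
  have h7 : 3 * q ^ 4 ≤ q ^ 5 := by
    calc 3 * q ^ 4 ≤ q * q ^ 4 := Nat.mul_le_mul_right _ hq
      _ = q ^ 5 := by ring
  have h8 : q ^ 3 ≤ q ^ 4 := Nat.pow_le_pow_right (by omega) (by omega)
  have h9 : 0 < q ^ 4 := Nat.pow_pos (by omega)
  omega

end Frame

end CfsgLib.MinIndexUnit
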