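import Cfsg.Agent.Lib.MinIndex.Unit.ThreeArith

/-!
The invariant cannot be a real line, by counting orbits in the centraliser of an involution.
-/

set_option autoImplicit false
set_option linter.unusedSectionVars false

namespace CfsgLib.MinIndexUnit

open CfsgLib.Geometric CfsgLib.Geometric.Unitary CfsgLib.ClassicalForms MulAction

variable {F : Type*} [Field F] [Finite F] {q : ℕ} {K : UC F q}

/-- The elementary inequality behind the orbit count. -/
lemma sizes_false {α : Type*} (s : Finset α) (f : α → ℕ) {N D : ℕ} (hN : 0 < N)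
    (hf : ∀ o ∈ s, f o ∣ N) (hpos : ∀ o ∈ s, 0 < f o) (k : ℕ) (hk : s.card = k + 2)
    (hsum : ∑ o ∈ s, f o + D = (k + 1) * N) (hD : 0 < D) (h1 : 2 * D < N) (h2 : 6 * D < 2 * N)
    (hdiv : 6 * D < N ∨ ∀ b, b + D = N / 2 → ¬ b ∣ N) : False := by
  classical
  have hcase : ∀ o ∈ s, f o = N ∨ 2 * f o = N ∨ 3 * f o ≤ N := fun o ho => by
    obtain ⟨i, hi⟩ := hf o ho
    obtain h | h | h | h : i = 0 ∨ i = 1 ∨ i = 2 ∨ 3 ≤ i := by omega
    · rw [h, mul_zero] at hi; omega
    · rw [h, mul_one] at hi; exact Or.inl hi.symm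
    · rw [h] at hi; exact Or.inr (Or.inl (by omega))
    · refine Or.inr (Or.inr ?_)
      rw [hi, mul_comm 3]; exact Nat.mul_le_mul_left _ h
  set t := s.filter fun o => f o = N
  set r := s.filter fun o => ¬ f o = N
  have hcard : t.card + r.card = k + 2 := by
    rw [← hk]; exact Finset.card_filter_add_card_filter_not _
  have hts : ∑ o ∈ t, f o = t.card * N :=
    Finset.sum_const_nat fun o ho => (Finset.mem_filter.1 ho).2
  have hsplit : ∑ o ∈ t, f o + ∑ o ∈ r, f o = ∑ o ∈ s, f o :=
    Finset.sum_filter_add_sum_filter_not _ _ _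
  have hrle : 2 * ∑ o ∈ r, f o ≤ r.card * N := by
    rw [Finset.mul_sum]
    refine (Finset.sum_le_sum fun o ho => ?_).trans (le_of_eq (Finset.sum_const_nat fun _ _ => rfl))
    obtain ⟨hos, hne⟩ := Finset.mem_filter.1 ho
    rcases hcase o hos with h | h | h
    · exact absurd h hne
    · omega
    · omega
  obtain ht | ht | ht : t.card < k ∨ t.card = k ∨ k < t.card := by omega
  · have h3 : 2 * (t.card * N) + r.card * N ≤ (2 * k + 1) * N := by
      rw [← mul_assoc, ← add_mul]; exact Nat.mul_le_mul_right _ (by omega)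
    have h4 : 2 * ((k + 1) * N) = (2 * k + 1) * N + N := by ring
    omega
  · have hr2 : r.card = 2 := by omega
    obtain ⟨a, b, hab, hr⟩ := Finset.card_eq_two.1 hr2
    rw [hr, Finset.sum_pair hab] at hsplit
    rw [hts, ht] at hsplit
    have h4 : (k + 1) * N = k * N + N := by ring
    have hmem : ∀ o ∈ ({a, b} : Finset α), o ∈ s ∧ ¬ f o = N := fun o ho =>
      Finset.mem_filter.1 (hr ▸ ho : o ∈ r)
    obtain ⟨has, hna⟩ := hmem a (by simp)
    obtain ⟨hbs, hnb⟩ := hmem b (by simp)
    have ha := (hcase a has).resolve_left hna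
    have hb := (hcase b hbs).resolve_left hnb
    rcases ha with ha | ha <;> rcases hb with hb | hb
    · omega
    · rcases hdiv with hd | hd
      · omega
      · exact hd (f b) (by omega) (hf b hbs)
    · rcases hdiv with hd | hd
      · omega
      · exact hd (f a) (by omega) (hf a has)
    · omega
  · have h3 : (k + 1) * N ≤ t.card * N := Nat.mul_le_mul_right _ ht
    omega

namespace Frame

variable (fr : Frame K 1)
include fr

/-- An involution negates an isotropic vector. -/
lemma exists_iso_neg (h2 : (2 : F) ≠ 0) {t : K.G 3} (ht : t * t = 1) (ht1 : t ≠ 1) :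
    ∃ v ∈ K.cls (m := 3) 0, ap (t : GL (Fin 3) F) v = -v := by
  classical
  have hf := K.skewForm 3
  have htt : ∀ y, ap (t : GL (Fin 3) F) (ap (t : GL (Fin 3) F) y) = y := fun y => by
    rw [← ap_mul, ← Subgroup.coe_mul, ht, Subgroup.coe_one, ap_one]
  have hneg : ∀ y, ap (t : GL (Fin 3) F) (ap (t : GL (Fin 3) F) y - y)
      = -(ap (t : GL (Fin 3) F) y - y) := fun y => by
    rw [show ap (t : GL (Fin 3) F) (ap (t : GL (Fin 3) F) y - y)
      = ap (t : GL (Fin 3) F) (ap (t : GL (Fin 3) F) y) - ap (t : GL (Fin 3) F) y from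
        map_sub (apEquiv (t : GL (Fin 3) F)) _ _, htt, neg_sub]
  obtain ⟨y0, hy0⟩ : ∃ y, ap (t : GL (Fin 3) F) y - y ≠ 0 := by
    by_contra h
    push Not at h
    exact ht1 (K.g_ext fun y => by rw [Subgroup.coe_one, ap_one]; exact sub_eq_zero.1 (h y))
  set e := ap (t : GL (Fin 3) F) y0 - y0 with he
  have hte : ap (t : GL (Fin 3) F) e = -e := hneg y0
  by_cases hee : K.fm 3 e e = 0
  · exact ⟨e, ⟨hy0, hee⟩, hte⟩
  obtain ⟨e', hte', he'⟩ : ∃ e', ap (t : GL (Fin 3) F) e' = -e' ∧ ∀ a : F, e' ≠ a • e := by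
    by_contra h
    push Not at h
    choose a ha using fun y => h _ (hneg y)
    set φ : (Fin 3 → F) →ₗ[F] F := (K.fm 3 e e)⁻¹ • (fl hf e ∘ₗ
      ((apEquiv (t : GL (Fin 3) F) : (Fin 3 → F) →ₗ[F] (Fin 3 → F)) - LinearMap.id)) with hφ
    have hφv : ∀ y, φ y = a y := fun y => by
      show (K.fm 3 e e)⁻¹ • K.fm 3 (ap (t : GL (Fin 3) F) y - y) e = _
      rw [ha y, hf.smul_left, smul_eq_mul]
      field_simp
    have hdet := det_of_ap (t : GL (Fin 3) F) e φ fun y => by
      rw [hφv, ← ha y, add_sub_cancel]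
    rw [(mem_specialLinear_iff _).1 t.2.2, hφv] at hdet
    have hae : a e = -2 := by
      refine smul_left_injective F hy0 ?_
      show a e • e = (-2 : F) • e
      rw [← ha e, hte]; module
    rw [hae] at hdet
    exact h2 (by linear_combination hdet)
  set k := K.fm 3 e' e / K.fm 3 e e
  set w := e' - k • e with hw
  have hw0 : w ≠ 0 := fun h => he' k (sub_eq_zero.1 h)
  have htw : ap (t : GL (Fin 3) F) w = -w := by
    rw [hw, show ap (t : GL (Fin 3) F) (e' - k • e)
      = ap (t : GL (Fin 3) F) e' - ap (t : GL (Fin 3) F) (k • e) from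
        map_sub (apEquiv (t : GL (Fin 3) F)) _ _, ap_smul, hte, hte']
    module
  by_cases hww : K.fm 3 w w = 0
  · exact ⟨w, ⟨hw0, hww⟩, htw⟩
  have hwe : K.fm 3 w e = 0 := by
    rw [hw, sub_left hf, hf.smul_left, div_mul_cancel₀ _ hee, sub_self]
  obtain ⟨x, hx⟩ := Unitary.exists_norm hf (c := -(K.fm 3 w w / K.fm 3 e e)) (by
    rw [map_neg, map_div₀, skew_self hf, skew_self hf, neg_div_neg_eq])
  refine ⟨x • e + w, ⟨fun h => he' (k - x) ?_, ?_⟩, by rw [ap_add, ap_smul, hte, htw]; module⟩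
  · have : w = -(x • e) := eq_neg_of_add_eq_zero_right h
    rw [sub_smul, ← sub_eq_zero]
    rw [hw, sub_eq_iff_eq_add] at this
    rw [this]; module
  · simp only [hf.add_left, add_right hf, hf.smul_left, smul_right hf, hwe,
      (eq_zero_comm hf).1 hwe, mul_zero, zero_add, add_zero]
    rw [← mul_assoc, hx, neg_mul, div_mul_cancel₀ _ hee, neg_add_cancel]

variable {Ω : Type*} [MulAction (K.G 3) Ω] [Finite Ω] [IsPretransitive (K.G 3) Ω]

/-- The stabiliser of a point reaches every isotropic line. -/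
lemma exists_stab_move (hN : ∀ y : Ω, ¬(fr.ab y = ⊥ ∧ fr.cz y = ⊥)) (z : Ω) {v : Fin 3 → F}
    (hv : v ∈ K.cls (m := 3) 0) :
    ∃ h : K.G 3, h • z = z ∧ ∃ a : F, a ≠ 0 ∧ ap (h : GL (Fin 3) F) fr.u = a • v := by
  obtain ⟨g, hg⟩ := K.exists_move_iso le_rfl fr.hu hv.2 fr.u_ne hv.1
  obtain ⟨b, ⟨a, hb⟩, hbz⟩ := fr.line_transitive hN z (g⁻¹ • z)
  refine ⟨g * b, by rw [mul_smul, hbz, smul_inv_smul], a, fun h => ap_ne_zero (b : GL (Fin 3) F)
    fr.u_ne (by rw [hb, h, zero_smul]), by rw [Subgroup.coe_mul, ap_mul, hb, ap_smul, hg]⟩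

/-- The line stabiliser contains an involution fixing a point. -/
lemma neg_one_mem (hN : ∀ y : Ω, ¬(fr.ab y = ⊥ ∧ fr.cz y = ⊥)) (z : Ω) (hq : Odd q)
    (h2 : (2 : F) ≠ 0) :
    (-1 : Fˣ) ∈ fr.Jgrp z := by
  classical
  have h2' : 2 ∣ Nat.card (stabilizer (K.G 3) z) := by
    rw [fr.card_stab hN z]
    refine Dvd.dvd.mul_right ?_ _
    obtain ⟨k, hk⟩ : Odd (q ^ 3) := hq.pow
    omega
  have := Fact.mk Nat.prime_two
  obtain ⟨t, ht⟩ := exists_prime_orderOf_dvd_card' 2 h2'
  have htt : (t : K.G 3) * t = 1 := by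
    have := pow_orderOf_eq_one t
    rw [ht, pow_two] at this
    exact congrArg Subtype.val this
  obtain ⟨v, hv, htv⟩ := fr.exists_iso_neg h2 htt (fun h => by
    rw [show t = 1 from Subtype.ext h, orderOf_one] at ht; omega)
  obtain ⟨h, hh, a, ha, hhu⟩ := fr.exists_stab_move hN z hv
  have hu : ap ((h⁻¹ * t * h : K.G 3) : GL (Fin 3) F) fr.u = (-1 : F) • fr.u := by
    rw [Subgroup.coe_mul, Subgroup.coe_mul, ap_mul, ap_mul, hhu, ap_smul, htv]
    apply ap_injective (h : GL (Fin 3) F)
    rw [Subgroup.coe_inv, ap_ap_inv, ap_smul, hhu]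
    module
  refine ⟨⟨h⁻¹ * t * h, -1, hu⟩, ?_, Units.ext (smul_left_injective F fr.u_ne ?_)⟩
  · show (h⁻¹ * (t : K.G 3) * h) • z = z
    rw [mul_smul, mul_smul, hh, show (t : K.G 3) • z = z from t.2, inv_smul_eq_iff, hh]
  · show ((fr.lineVal ⟨h⁻¹ * t * h, -1, hu⟩ : Fˣ) : F) • fr.u = ((-1 : Fˣ) : F) • fr.u
    rw [← fr.lineVal_spec ⟨h⁻¹ * t * h, -1, hu⟩, Units.val_neg, Units.val_one]
    exact hu

/-- Halving within an invariant of odd order. -/
lemma exists_half {z : Ω} (hA : Odd (Nat.card (fr.ab z))) {w : Fin 1 → F} (hw : w ∈ fr.ab z) :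
    ∃ r ∈ fr.U, r • z = z ∧ fr.proj r + fr.proj r = w := by
  obtain ⟨k, hk⟩ := hA
  obtain ⟨r, hr, rz, hrp⟩ := AddSubgroup.nsmul_mem _ hw (k + 1)
  refine ⟨r, hr, rz, ?_⟩
  have h := addOrderOf_dvd_natCard (⟨w, hw⟩ : fr.ab z)
  rw [hk, addOrderOf_dvd_iff_nsmul_eq_zero] at h
  have h' : (2 * k + 1) • w = 0 := congrArg Subtype.val h
  rw [hrp, ← add_nsmul, show k + 1 + (k + 1) = (2 * k + 1) + 1 by ring, add_nsmul, one_nsmul, h',
    zero_add]

/-- A root element fixing a point without tail is trivial. -/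
lemma eq_one_of_proj {z : Ω} (hC : fr.cz z = ⊥) {r : K.G 3} (hr : r ∈ fr.U) (rz : r • z = z)
    (hp : fr.proj r = 0) : r = 1 := by
  obtain ⟨c, hc, rfl⟩ := IsTr.eq_tEl (fr.mem_Z_of_proj hr hp) fr.hu
  have hc0 : c = 0 := AddSubgroup.mem_bot.1 (hC.le ⟨hc, rz⟩)
  rw [K.tEl_congr fr.hu hc (map_zero _) hc0, K.tEl_zero]

/-- No invariant is a real line for a large field. -/
theorem line_false3 (hq : 3 ≤ q) (h5 : q ≠ 5) (h11 : q ≠ 11) (h1 : 1 < Nat.card Ω)
    (hΩ : Nat.card Ω < q ^ 3 + 1) (hN : ∀ y : Ω, ¬(fr.ab y = ⊥ ∧ fr.cz y = ⊥)) {z : Ω}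
    (hC : fr.cz z = ⊥) (h2 : (2 : F) ≠ 0) (hA : Nat.card (fr.ab z) = q) : False := by
  classical
  have hf := K.skewForm 3
  have hqodd : Odd q := by
    obtain ⟨p, f, hp, hf0, rfl⟩ := K.exists_prime_pow
    refine (hp.odd_of_ne_two fun h => h2 ?_).pow
    have := Fintype.ofFinite F
    have h' := FiniteField.cast_card_eq_zero (K := F)
    rw [← Nat.card_eq_fintype_card, K.card_eq, h] at h'
    push_cast at h'
    exact (pow_eq_zero_iff (n := f) (by omega)).1 ((pow_eq_zero_iff (n := 2) (by norm_num)).1 h')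
  have hm1 := fr.neg_one_mem hN z hqodd h2
  -- a point fixed by the involution of the frame
  obtain ⟨S, hSu, hSu', hSi'⟩ := fr.exists_tor1 (c := (-1 : F)) (neg_ne_zero.2 one_ne_zero)
  have hSu'' : ap (S : GL (Fin 3) F) fr.u' = (-1 : F) • fr.u' := by
    rw [hSu', map_neg, map_one, inv_neg, inv_one]
  have hSi : ∀ w, ap (S : GL (Fin 3) F) (inc w) = inc w := fun w => by
    rw [hSi', map_neg, map_one, div_self (neg_ne_zero.2 (one_ne_zero' F)), one_smul]
  have hσ : K.σ (-1 : F) = -1 := by rw [map_neg, map_one]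
  have hSS : S * S = 1 := K.g_ext fun y => by
    obtain ⟨a, hy⟩ := fr.decomp y
    generalize K.fm 3 y fr.u = b at hy
    rw [hy, Subgroup.coe_mul, Subgroup.coe_one, ap_one, ap_mul]
    simp only [ap_add, ap_smul, hSu, hSu'', hSi]
    module
  have hSproj : ∀ r ∈ fr.U, S * r * S⁻¹ ∈ fr.U ∧ fr.proj (S * r * S⁻¹) = -fr.proj r := fun r hr => by
    have h := fr.proj_conj' hSu (G := fun w => w) hSi hr
    rw [hσ, neg_one_smul] at h
    exact h
  obtain ⟨z1, hSz⟩ : ∃ z1 : Ω, S • z1 = z1 := by
    obtain ⟨⟨b, hb⟩, hbz, hbv⟩ := hm1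
    have hbu : ap (b : GL (Fin 3) F) fr.u = (-1 : F) • fr.u := by
      rw [fr.lineVal_spec ⟨b, hb⟩, hbv, Units.val_neg, Units.val_one]
    set r := b * S⁻¹
    have hr : r ∈ fr.U := fr.mem_U_of_fix (by
      rw [Subgroup.coe_mul, ap_mul]
      have : ap ((S⁻¹ : K.G 3) : GL (Fin 3) F) fr.u = (-1 : F) • fr.u := by
        rw [inv_eq_of_mul_eq_one_right hSS, hSu]
      rw [this, ap_smul, hbu, smul_smul]
      simp)
    obtain ⟨r1, hr1, hr1p⟩ := fr.exists_proj ((2 : F)⁻¹ • fr.proj r)
    refine ⟨r1⁻¹ • z, ?_⟩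
    have hc1 := hSproj r1 hr1
    set k := r1⁻¹ * r * (S * r1 * S⁻¹) with hk
    have hkU : k ∈ fr.U := mul_mem (mul_mem (inv_mem hr1) hr) hc1.1
    have hkp : fr.proj k = 0 := by
      rw [hk, fr.proj_mul (mul_mem (inv_mem hr1) hr) hc1.1, fr.proj_mul (inv_mem hr1) hr,
        fr.proj_inv' hr1, hc1.2, hr1p]
      funext i
      simp only [Pi.add_apply, Pi.neg_apply, Pi.smul_apply, smul_eq_mul, Pi.zero_apply]
      field_simp
      ring
    have hkS : (k * S) • (r1⁻¹ • z) = r1⁻¹ • z := by
      rw [← mul_smul, hk, show r1⁻¹ * r * (S * r1 * S⁻¹) * S * r1⁻¹ = r1⁻¹ * (r * S) by group,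
        show r * S = b by simp [r], mul_smul]
      exact congrArg (r1⁻¹ • ·) hbz
    obtain ⟨c, hc, hce⟩ := IsTr.eq_tEl (fr.mem_Z_of_proj hkU hkp) fr.hu
    have hcom : S * k = k * S := by
      rw [hce]; exact K.comm_tEl fr.hu hSu (by rw [hσ]; ring) c hc
    have h2k : (K.tEl fr.hu (c + c) (by rw [map_add, hc])) • (r1⁻¹ • z) = r1⁻¹ • z := by
      rw [← K.tEl_mul fr.hu c c hc hc, ← hce,
        show k * k = k * S * (k * S) by
          rw [mul_assoc k S, ← mul_assoc S k, hcom, mul_assoc k S, hSS, mul_one], mul_smul, hkS, hkS]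
    have hcz : fr.cz (r1⁻¹ • z) = ⊥ := by
      rw [(fr.inv_of_mem_orbit (y := r1⁻¹ • z) (z := z) ⟨⟨r1⁻¹, inv_mem hr1⟩, rfl⟩).2]; exact hC
    have hc0 : c = 0 := by
      have h := AddSubgroup.mem_bot.1 (hcz.le ⟨_, h2k⟩)
      exact (mul_eq_zero.1 (show (2 : F) * c = 0 by linear_combination h)).resolve_left h2
    rwa [hce, K.tEl_congr fr.hu hc (map_zero _) hc0, K.tEl_zero, one_mul] at hkS
  obtain ⟨hC1, hA1, hq11, -, h3, hreal, hjv⟩ | ⟨h8, -⟩ := fr.param_cases hq h5 h1 hΩ hN z1
  swap
  · rw [h8] at hqodd; exact absurd hqodd (by decide)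
  have hAodd : Odd (Nat.card (fr.ab z1)) := by rw [hA1]; exact hqodd
  have hm1' := fr.neg_one_mem hN z1 hqodd h2
  set j := Nat.card (fr.Jgrp z1) with hj
  -- the centraliser of the involution in the stabiliser
  set R := stabilizer (K.G 3) z1 ⊓ Subgroup.centralizer {S} with hRdef
  have hR : ∀ g ∈ R, g • z1 = z1 ∧ g * S = S * g := fun g hg =>
    ⟨hg.1, (Subgroup.mem_centralizer_singleton_iff.1 hg.2)⟩
  have hRmk : ∀ g : K.G 3, g • z1 = z1 → g * S = S * g → g ∈ R := fun g h h' =>
    ⟨h, Subgroup.mem_centralizer_singleton_iff.2 h'⟩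
  have hUR : ∀ r ∈ R, r ∈ fr.U → r = 1 := fun r hrR hr => by
    refine fr.eq_one_of_proj hC1 hr (hR r hrR).1 ?_
    have h := (hSproj r hr).2
    rw [← (hR r hrR).2, mul_inv_cancel_right] at h
    funext i
    have hi := congrFun h i
    rw [Pi.neg_apply] at hi
    exact (mul_eq_zero.1 (show (2 : F) * fr.proj r i = 0 by linear_combination hi)).resolve_left h2
  -- the negated vectors
  have hplane : ∀ v, ap (S : GL (Fin 3) F) v = -v ↔ ∃ a b : F, v = a • fr.u + b • fr.u' := by
    intro v
    constructor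
    · intro h
      obtain ⟨a, c, hv⟩ := fr.decomp3 v
      generalize K.fm 3 v fr.u = b at hv
      refine ⟨a, b, ?_⟩
      rw [hv, ap_add, ap_add, ap_smul, ap_smul, ap_smul, hSu, hSu'', hSi] at h
      have h' := congrArg tail2 h
      simp only [← neg_one_smul F (a • fr.u + b • fr.u' + c • inc (fun _ : Fin 1 => (1 : F))),
        tail2_add, tail2_smul, fr.tail_u, fr.tail_u', tail2_inc, smul_zero, zero_add] at h'
      have hc := congrFun h' 0
      simp only [Pi.smul_apply, smul_eq_mul, mul_one] at hc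
      have hc0 : c = 0 :=
        (mul_eq_zero.1 (show (2 : F) * c = 0 by linear_combination hc)).resolve_left h2
      rw [hv, hc0, zero_smul, add_zero]
    · rintro ⟨a, b, rfl⟩
      rw [ap_add, ap_smul, ap_smul, hSu, hSu'']
      module
  have hpres : ∀ g ∈ R, ∀ v, ap (S : GL (Fin 3) F) v = -v →
      ap (S : GL (Fin 3) F) (ap (g : GL (Fin 3) F) v) = -ap (g : GL (Fin 3) F) v := by
    intro g hg v hv
    rw [← ap_mul, ← Subgroup.coe_mul, ← (hR g hg).2, Subgroup.coe_mul, ap_mul, hv]
    exact map_neg (apEquiv (g : GL (Fin 3) F)) v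
  -- lifting the scalars
  have hlift : ∀ c : Fˣ, c ∈ fr.Jgrp z1 →
      ∃ g ∈ R, ap (g : GL (Fin 3) F) fr.u = (c : F) • fr.u := by
    rintro _ ⟨⟨b, hb⟩, hbz, rfl⟩
    have hbz' : b • z1 = z1 := hbz
    set k := S * b * S⁻¹ * b⁻¹
    have hk : k ∈ fr.U := fr.mem_U_of_fix (by
      have hSinv : ap ((S⁻¹ : K.G 3) : GL (Fin 3) F) fr.u = (-1 : F) • fr.u := by
        rw [inv_eq_of_mul_eq_one_right hSS, hSu]
      have hbinv : ap ((b⁻¹ : K.G 3) : GL (Fin 3) F) fr.u
          = (fr.lineVal ⟨b, hb⟩ : F)⁻¹ • fr.u := by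
        rw [Subgroup.coe_inv, eq_inv_smul_iff₀ (Units.ne_zero _), ← ap_smul,
          ← fr.lineVal_spec ⟨b, hb⟩, ap_inv_ap]
      simp only [k, Subgroup.coe_mul, ap_mul, hbinv, ap_smul, hSinv]
      rw [fr.lineVal_spec ⟨b, hb⟩, ap_smul, hSu]
      match_scalars
      field_simp)
    have hkz : k • z1 = z1 := by
      simp only [k, mul_smul]
      rw [show b⁻¹ • z1 = z1 from inv_smul_eq_iff.2 hbz'.symm,
        show S⁻¹ • z1 = z1 from inv_smul_eq_iff.2 hSz.symm, hbz', hSz]
    obtain ⟨r, hr, rz, hrp⟩ := fr.exists_half hAodd ⟨k, hk, hkz, rfl⟩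
    have hc := hSproj r hr
    have hmem : S * r * S⁻¹ * k * r⁻¹ ∈ fr.U := mul_mem (mul_mem hc.1 hk) (inv_mem hr)
    have h0 : S * r * S⁻¹ * k * r⁻¹ = 1 := by
      refine fr.eq_one_of_proj hC1 hmem ?_ ?_
      · rw [mul_smul, mul_smul, mul_smul, mul_smul, show r⁻¹ • z1 = z1 from inv_smul_eq_iff.2 rz.symm,
          hkz, show S⁻¹ • z1 = z1 from inv_smul_eq_iff.2 hSz.symm, rz, hSz]
      · rw [fr.proj_mul (mul_mem hc.1 hk) (inv_mem hr), fr.proj_mul hc.1 hk, fr.proj_inv' hr, hc.2,
          ← hrp]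
        abel
    refine ⟨r * b, hRmk _ (by rw [mul_smul, hbz', rz]) ?_, ?_⟩
    · have h1 : S * (r * b) * S⁻¹ * (r * b)⁻¹ = 1 := by
        rw [← h0]; simp only [k]; group
      exact (mul_inv_eq_iff_eq_mul.1 (mul_inv_eq_one.1 h1)).symm
    · rw [Subgroup.coe_mul, ap_mul, fr.lineVal_spec ⟨b, hb⟩, ap_smul, fr.ap_U_u hr]
  have htrans : ∀ v ∈ K.cls (m := 3) 0, ap (S : GL (Fin 3) F) v = -v →
      ∃ g ∈ R, ∃ a : F, a ≠ 0 ∧ ap (g : GL (Fin 3) F) fr.u = a • v := by
    intro v hv hSv
    obtain ⟨h, hh, a, ha, hhu⟩ := fr.exists_stab_move hN z1 hv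
    set t := h⁻¹ * S * h
    have htu : ap (t : GL (Fin 3) F) fr.u = (-1 : F) • fr.u := by
      simp only [t, Subgroup.coe_mul, ap_mul, hhu, ap_smul, hSv]
      apply ap_injective (h : GL (Fin 3) F)
      rw [ap_smul (h : GL (Fin 3) F), Subgroup.coe_inv]
      rw [ap_smul (h : GL (Fin 3) F), ap_ap_inv, hhu]
      module
    set k := t * S⁻¹
    have hk : k ∈ fr.U := fr.mem_U_of_fix (by
      simp only [k, Subgroup.coe_mul, ap_mul]
      rw [inv_eq_of_mul_eq_one_right hSS, hSu, ap_smul, htu, smul_smul]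
      simp)
    have hkz : k • z1 = z1 := by
      simp only [k, t, mul_smul]
      rw [show S⁻¹ • z1 = z1 from inv_smul_eq_iff.2 hSz.symm, hh, hSz]
      exact inv_smul_eq_iff.2 hh.symm
    obtain ⟨r, hr, rz, hrp⟩ := fr.exists_half hAodd (neg_mem (⟨k, hk, hkz, rfl⟩ :
      fr.proj k ∈ fr.ab z1))
    have hc := hSproj r⁻¹ (inv_mem hr)
    have h0 : r * k * (S * r⁻¹ * S⁻¹) = 1 := by
      refine fr.eq_one_of_proj hC1 (mul_mem (mul_mem hr hk) hc.1) ?_ ?_
      · have e : (S * r⁻¹ * S⁻¹) • z1 = z1 := by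
          rw [mul_smul, mul_smul, show S⁻¹ • z1 = z1 from inv_smul_eq_iff.2 hSz.symm,
            show r⁻¹ • z1 = z1 from inv_smul_eq_iff.2 rz.symm, hSz]
        rw [mul_smul (r * k), e, mul_smul, hkz, rz]
      · rw [fr.proj_mul (mul_mem hr hk) hc.1, fr.proj_mul hr hk, hc.2, fr.proj_inv' hr, neg_neg]
        have : fr.proj k = -(fr.proj r + fr.proj r) := by rw [hrp, neg_neg]
        rw [this]; abel
    refine ⟨h * r⁻¹, hRmk _ (by rw [mul_smul, inv_smul_eq_iff.2 rz.symm, hh]) ?_, a, ha, ?_⟩
    · have h1 : (h * r⁻¹)⁻¹ * S * (h * r⁻¹) * S⁻¹ = 1 := by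
        rw [← h0]; simp only [k, t]; group
      have h2 := mul_inv_eq_one.1 h1
      calc h * r⁻¹ * S = h * r⁻¹ * ((h * r⁻¹)⁻¹ * S * (h * r⁻¹)) := by rw [h2]
        _ = S * (h * r⁻¹) := by group
    · rw [Subgroup.coe_mul, ap_mul, fr.ap_U_u (inv_mem hr), hhu]
  -- elements of one eigenvalue are scalars
  have hne : fr.u ≠ 0 := fr.u_ne
  have hjdvd : ¬ (((q + 1) * j : ℕ) : F) = 0 := by
    have hq1 : ((q + 1 : ℕ) : F) = 1 ∧ ((q - 1 : ℕ) : F) = -1 := by
      have : (q : F) = 0 := by
        have := Fintype.ofFinite F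
        have h' := FiniteField.cast_card_eq_zero (K := F)
        rw [← Nat.card_eq_fintype_card, K.card_eq] at h'
        push_cast at h'
        exact (pow_eq_zero_iff (n := 2) (by norm_num)).1 h'
      refine ⟨by push_cast; rw [this, zero_add], ?_⟩
      rw [Nat.cast_sub (by omega), this]; simp
    rw [Nat.cast_mul, hq1.1, one_mul]
    intro h
    rcases hjv with e | e
    · rw [e, Nat.cast_mul, hq1.2] at h; push_cast at h
      exact h3 (by linear_combination -h)
    · have h' := congrArg (fun n : ℕ => (n : F)) e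
      simp only [Nat.cast_mul, hq1.2, h] at h'
      push_cast at h'
      exact h3 (by linear_combination h')
  -- the lines of the plane
  set Y : Set (Set (Fin 3 → F)) := {T | ∃ v : Fin 3 → F, v ≠ 0 ∧ ap (S : GL (Fin 3) F) v = -v ∧
    T = Set.range fun a : F => a • v} with hY
  let actY : MulAction R Y :=
    { smul := fun g T => ⟨ap ((g : K.G 3) : GL (Fin 3) F) '' T.1, by
        obtain ⟨v, hv, hSv, hT⟩ := T.2
        refine ⟨ap ((g : K.G 3) : GL (Fin 3) F) v, ap_ne_zero _ hv, hpres _ g.2 v hSv, ?_⟩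
        rw [hT, ← Set.range_comp]
        congr 1
        funext a
        exact ap_smul _ _ _⟩
      one_smul := fun T => Subtype.ext (by
        show ap (((1 : R) : K.G 3) : GL (Fin 3) F) '' T.1 = T.1
        simp [ap_one])
      mul_smul := fun g h T => Subtype.ext (by
        show ap (((g * h : R) : K.G 3) : GL (Fin 3) F) '' T.1
          = ap ((g : K.G 3) : GL (Fin 3) F) '' (ap ((h : K.G 3) : GL (Fin 3) F) '' T.1)
        rw [Set.image_image]
        simp [ap_mul]) }
  let vec : Option F → Fin 3 → F := fun o => o.elim fr.u fun x => x • fr.u + fr.u'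
  have hcoord : ∀ a b a' b' : F, a • fr.u + b • fr.u' = a' • fr.u + b' • fr.u' → a = a' ∧ b = b' := by
    intro a b a' b' e
    have e1 := congrArg (fun v => K.fm 3 v fr.u) e
    have e2 := congrArg (fun v => K.fm 3 v fr.u') e
    simp only [hf.add_left, hf.smul_left, fr.hu, fr.hu', fr.hpair, fr.pair', mul_zero, mul_one,
      zero_add, add_zero] at e1 e2
    exact ⟨by linear_combination -e2, e1⟩
  have hvec0 : ∀ o, vec o ≠ 0 ∧ ap (S : GL (Fin 3) F) (vec o) = -vec o := by
    rintro (_ | x)
    · exact ⟨hne, (hplane _).2 ⟨1, 0, by simp [vec]⟩⟩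
    · refine ⟨fun h => ?_, (hplane _).2 ⟨x, 1, by simp [vec]⟩⟩
      have h' : x • fr.u + (1 : F) • fr.u' = (0 : F) • fr.u + (0 : F) • fr.u' := by
        simpa [vec] using h
      exact one_ne_zero (hcoord _ _ _ _ h').2
  let ψ : Option F → Y := fun o =>
    ⟨Set.range fun a : F => a • vec o, vec o, (hvec0 o).1, (hvec0 o).2, rfl⟩
  have hψ : Function.Bijective ψ := by
    constructor
    · intro o o' e
      have h : vec o ∈ Set.range fun a : F => a • vec o' := by
        rw [← show (Set.range fun a : F => a • vec o) = Set.range fun a : F => a • vec o' from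
          congrArg Subtype.val e]
        exact ⟨1, one_smul _ _⟩
      obtain ⟨a, ha⟩ := h
      have ha' : a • vec o' = vec o := ha
      rcases o with _ | x <;> rcases o' with _ | x' <;> simp only [vec, Option.elim_some, Option.elim_none] at ha'
      · rfl
      · have h' : (a * x') • fr.u + a • fr.u' = (1 : F) • fr.u + (0 : F) • fr.u' := by
          rw [mul_smul, ← smul_add, ha']; simp
        obtain ⟨e1, e2⟩ := hcoord _ _ _ _ h'
        rw [e2, zero_mul] at e1
        exact absurd e1 zero_ne_one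
      · have h' : a • fr.u + (0 : F) • fr.u' = x • fr.u + (1 : F) • fr.u' := by
          rw [ha']; simp
        exact absurd (hcoord _ _ _ _ h').2 zero_ne_one
      · have h' : (a * x') • fr.u + a • fr.u' = x • fr.u + (1 : F) • fr.u' := by
          rw [mul_smul, ← smul_add, ha']; simp
        obtain ⟨e1, e2⟩ := hcoord _ _ _ _ h'
        rw [e2, one_mul] at e1
        rw [e1]
    · rintro ⟨_, v, hv, hSv, rfl⟩
      obtain ⟨a, b, rfl⟩ := (hplane v).1 hSv
      have key : ∀ (w : Fin 3 → F) (k : F), k ≠ 0 →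
          (Set.range fun t : F => t • w) = Set.range fun t : F => t • (k • w) := by
        intro w k hk
        ext y
        constructor
        · rintro ⟨t, rfl⟩; exact ⟨t * k⁻¹, by simp [smul_smul, hk]⟩
        · rintro ⟨t, rfl⟩; exact ⟨t * k, by simp [smul_smul]⟩
      by_cases hb : b = 0
      · refine ⟨none, Subtype.ext ?_⟩
        show (Set.range fun t : F => t • fr.u) = _
        rw [key fr.u a fun h => hv (by simp [h, hb])]
        simp [hb]
      · refine ⟨some (a / b), Subtype.ext ?_⟩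
        show (Set.range fun t : F => t • ((a / b) • fr.u + fr.u')) = _
        rw [key _ b hb, smul_add, smul_smul, mul_div_cancel₀ _ hb]
  have hYcard : Nat.card Y = q ^ 2 + 1 := by
    rw [← Nat.card_eq_of_bijective ψ hψ, Finite.card_option, K.card_eq]
  -- the stabiliser of the line of the frame
  set y0 : Y := ψ none with hy0
  have hstab : ∀ g : R, g • y0 = y0 ↔ ∃ c : F, ap ((g : K.G 3) : GL (Fin 3) F) fr.u = c • fr.u := by
    intro g
    constructor
    · intro h
      have h' : ap ((g : K.G 3) : GL (Fin 3) F) fr.u ∈ (g • y0).1 := ⟨fr.u, ⟨1, one_smul _ _⟩, rfl⟩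
      rw [h] at h'
      obtain ⟨c, hc⟩ := h'
      exact ⟨c, hc.symm⟩
    · rintro ⟨c, hc⟩
      have hc0 : c ≠ 0 := fun h => ap_ne_zero ((g : K.G 3) : GL (Fin 3) F) hne (by
        rw [hc, h, zero_smul])
      refine Subtype.ext ?_
      show ap ((g : K.G 3) : GL (Fin 3) F) '' (Set.range fun a : F => a • fr.u) = Set.range fun a : F => a • fr.u
      rw [← Set.range_comp]
      ext y
      constructor
      · rintro ⟨t, rfl⟩; exact ⟨t * c, by simp [ap_smul, hc, smul_smul]⟩
      · rintro ⟨t, rfl⟩; exact ⟨t * c⁻¹, by simp [ap_smul, hc, smul_smul, hc0]⟩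
  have hiso : ∀ (o : Option F), K.fm 3 (vec o) (vec o) = 0 ↔
      o = none ∨ ∃ x : F, K.σ x = x ∧ o = some x := by
    rintro (_ | x)
    · simp [vec, fr.hu]
    · simp only [vec, Option.elim_some, hf.add_left, add_right hf, hf.smul_left, smul_right hf,
        fr.hu, fr.hu', fr.hpair, fr.pair', reduceCtorEq, false_or, Option.some.injEq]
      constructor
      · intro h; exact ⟨x, by linear_combination h, rfl⟩
      · rintro ⟨y, hy, rfl⟩; linear_combination hy
  have hSt : Nat.card (stabilizer R y0) = j := by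
    have hval : ∀ g : stabilizer R y0, ∃ c : F,
        ap ((g.1 : K.G 3) : GL (Fin 3) F) fr.u = c • fr.u := fun g => (hstab g.1).1 g.2
    refine Nat.card_eq_of_bijective
      (fun g => (⟨fr.lineVal ⟨(g.1 : K.G 3), hval g⟩, ⟨(g.1 : K.G 3), hval g⟩,
        (hR _ g.1.2).1, rfl⟩ : fr.Jgrp z1)) ⟨fun g g' e => ?_, fun c => ?_⟩
    · have e' := congrArg Subtype.val e
      have h := map_mul fr.lineVal (⟨(g.1 : K.G 3), hval g⟩ : fr.line)⁻¹ ⟨(g'.1 : K.G 3), hval g'⟩
      rw [map_inv] at h
      simp only at e'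
      rw [e', inv_mul_cancel, fr.lineVal_eq_one_iff] at h
      have h' := hUR _ (mul_mem (inv_mem g.1.2) g'.1.2) h
      exact Subtype.ext (Subtype.ext (inv_mul_eq_one.1 h'))
    · obtain ⟨g, hg, hgu⟩ := hlift c.1 c.2
      refine ⟨⟨⟨g, hg⟩, (hstab ⟨g, hg⟩).2 ⟨_, hgu⟩⟩, Subtype.ext (Units.ext
        (smul_left_injective F hne ?_))⟩
      exact (fr.lineVal_spec ⟨g, _⟩).symm.trans hgu
  have horb : Nat.card (orbit R y0) = q + 1 := by
    have e : orbit R y0 = Set.range fun o : Option K.fx => ψ (o.map Subtype.val) := by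
      ext T
      constructor
      · rintro ⟨g, rfl⟩
        obtain ⟨o, ho⟩ := hψ.2 (g • y0)
        have h : ap ((g : K.G 3) : GL (Fin 3) F) fr.u ∈ (g • y0).1 :=
          ⟨fr.u, ⟨1, one_smul _ _⟩, rfl⟩
        rw [← ho] at h
        obtain ⟨a, ha⟩ := h
        have ha0 : a ≠ 0 := fun h0 => ap_ne_zero ((g : K.G 3) : GL (Fin 3) F) hne (by
          rw [← ha, h0]; simp)
        have hvv : K.fm 3 (vec o) (vec o) = 0 := by
          have h2 : K.fm 3 (a • vec o) (a • vec o) = 0 := by
            rw [show a • vec o = _ from ha, K.fm_ap, fr.hu]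
          rw [hf.smul_left, smul_right hf, ← mul_assoc] at h2
          exact (mul_eq_zero.1 h2).resolve_left
            (mul_ne_zero ha0 ((map_ne_zero_iff _ K.σ.injective).2 ha0))
        rcases (hiso o).1 hvv with rfl | ⟨x, hx, rfl⟩
        · exact ⟨none, ho⟩
        · exact ⟨some ⟨x, hx⟩, ho⟩
      · rintro ⟨o, rfl⟩
        have hvv : K.fm 3 (vec (o.map Subtype.val)) (vec (o.map Subtype.val)) = 0 :=
          (hiso _).2 (o.rec (Or.inl rfl) fun x => Or.inr ⟨x.1, x.2, rfl⟩)
        obtain ⟨g, hg, a, ha, hgu⟩ := htrans _ ⟨(hvec0 _).1, hvv⟩ (hvec0 _).2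
        refine ⟨⟨g, hg⟩, Subtype.ext ?_⟩
        show ap (g : GL (Fin 3) F) '' (Set.range fun a : F => a • fr.u) = _
        rw [← Set.range_comp]
        ext y
        constructor
        · rintro ⟨t, rfl⟩; exact ⟨t * a, by simp [ap_smul, hgu, smul_smul]⟩
        · rintro ⟨t, rfl⟩; exact ⟨t * a⁻¹, by simp [ap_smul, hgu, smul_smul, ha]⟩
    rw [e]
    show Nat.card (Set.range (ψ ∘ Option.map Subtype.val)) = _
    rw [Nat.card_coe_set_eq, Set.ncard_range_of_injective
      (hψ.1.comp (Option.map_injective Subtype.val_injective)), Finite.card_option, K.card_fx]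
  have hRcard : Nat.card R = (q + 1) * j := by
    rw [← (stabilizer R y0).card_mul_index, MulAction.index_stabilizer, ← Nat.card_coe_set_eq,
      horb, hSt]
    ring
  -- matrices of the elements
  have hmat : ∀ g : R, ∃ α γ β δ : F,
      ap ((g : K.G 3) : GL (Fin 3) F) fr.u = α • fr.u + γ • fr.u' ∧
      ap ((g : K.G 3) : GL (Fin 3) F) fr.u' = β • fr.u + δ • fr.u' := fun g => by
    obtain ⟨α, γ, h1⟩ := (hplane _).1 (hpres _ g.2 fr.u ((hplane _).2 ⟨1, 0, by simp⟩))
    obtain ⟨β, δ, h2⟩ := (hplane _).1 (hpres _ g.2 fr.u' ((hplane _).2 ⟨0, 1, by simp⟩))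
    exact ⟨α, γ, β, δ, h1, h2⟩
  choose α γ β δ hgu hgu' using hmat
  have hjordan : ∀ (g : R) (lam : F) (v w : Fin 3 → F), v ≠ 0 →
      ap ((g : K.G 3) : GL (Fin 3) F) v = lam • v → ap ((g : K.G 3) : GL (Fin 3) F) w = lam • w + v →
      (∀ a : F, w ≠ a • v) → False := by
    intro g lam v w hv hgv hgw hind
    have hl : lam ≠ 0 := fun h => ap_ne_zero ((g : K.G 3) : GL (Fin 3) F) hv (by rw [hgv, h, zero_smul])
    have hpow : ∀ n : ℕ, lam • ap (((g : K.G 3) ^ n : K.G 3) : GL (Fin 3) F) w
        = lam ^ (n + 1) • w + ((n : F) * lam ^ n) • v := by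
      intro n
      induction n with
      | zero => simp [ap_one]
      | succ n ih =>
        rw [pow_succ', Subgroup.coe_mul, ap_mul, ← ap_smul, ih, ap_add, ap_smul, ap_smul, hgw, hgv]
        push_cast
        match_scalars <;> ring
    have h := hpow (Nat.card R)
    have hg1 : ((g : K.G 3) ^ Nat.card R : K.G 3) = 1 := by
      rw [← SubgroupClass.coe_pow, pow_card_eq_one', Subgroup.coe_one]
    rw [hg1, Subgroup.coe_one, ap_one] at h
    by_cases hl1 : lam - lam ^ (Nat.card R + 1) = 0
    · have h' : ((Nat.card R : F) * lam ^ Nat.card R) • v = 0 := by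
        rw [← sub_eq_zero.1 hl1] at h
        linear_combination (norm := module) -(1 : F) • h
      rcases smul_eq_zero.1 h' with h'' | h''
      · rw [hRcard] at h''
        exact hjdvd ((mul_eq_zero.1 h'').resolve_right (pow_ne_zero _ hl))
      · exact hv h''
    · refine hind ((lam - lam ^ (Nat.card R + 1))⁻¹ * ((Nat.card R : F) * lam ^ Nat.card R)) ?_
      rw [mul_smul, eq_inv_smul_iff₀ hl1, sub_smul]
      linear_combination (norm := module) h
  -- fixed lines
  have hfix : ∀ (g : R) (o : Option F),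
      g • ψ o = ψ o ↔ ∃ c : F, ap ((g : K.G 3) : GL (Fin 3) F) (vec o) = c • vec o := by
    intro g o
    constructor
    · intro h
      have h' : ap ((g : K.G 3) : GL (Fin 3) F) (vec o) ∈ (g • ψ o).1 :=
        ⟨vec o, ⟨1, one_smul _ _⟩, rfl⟩
      rw [h] at h'
      obtain ⟨c, hc⟩ := h'
      exact ⟨c, hc.symm⟩
    · rintro ⟨c, hc⟩
      have hc0 : c ≠ 0 := fun h => ap_ne_zero ((g : K.G 3) : GL (Fin 3) F) (hvec0 o).1 (by
        rw [hc, h, zero_smul])
      refine Subtype.ext ?_
      show ap ((g : K.G 3) : GL (Fin 3) F) '' (Set.range fun a : F => a • vec o) = _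
      rw [← Set.range_comp]
      ext y
      constructor
      · rintro ⟨t, rfl⟩; exact ⟨t * c, by simp [ap_smul, hc, smul_smul]⟩
      · rintro ⟨t, rfl⟩; exact ⟨t * c⁻¹, by simp [ap_smul, hc, smul_smul, hc0]⟩
  have hfixnone : ∀ g : R, g • ψ none = ψ none ↔ γ g = 0 := fun g => by
    rw [hfix]
    simp only [vec, Option.elim_none, hgu]
    constructor
    · rintro ⟨c, hc⟩
      exact (hcoord _ _ c 0 (by rw [hc]; simp)).2
    · intro h; exact ⟨α g, by rw [h]; simp⟩
  have hfixsome : ∀ (g : R) (x : F), g • ψ (some x) = ψ (some x) ↔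
      γ g * x * x + (δ g - α g) * x - β g = 0 := fun g x => by
    rw [hfix]
    simp only [vec, Option.elim_some, ap_add, ap_smul, hgu, hgu']
    constructor
    · rintro ⟨c, hc⟩
      obtain ⟨e1, e2⟩ := hcoord (x * α g + β g) (x * γ g + δ g) (c * x) c (by
        linear_combination (norm := module) hc)
      linear_combination -e1 + x * e2
    · intro h
      refine ⟨x * γ g + δ g, ?_⟩
      match_scalars <;> first | linear_combination h | linear_combination -h | ring
  have hisom : ∀ g : R, α g * δ g - β g * γ g ≠ 0 ∧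
      (α g * δ g - β g * γ g) * K.σ (α g * δ g - β g * γ g) = 1 ∧
      (α g * δ g - β g * γ g) * K.σ (α g + δ g) = α g + δ g := fun g => by
    have e1 := K.fm_ap (g : K.G 3) fr.u fr.u
    have e2 := K.fm_ap (g : K.G 3) fr.u' fr.u'
    have e3 := K.fm_ap (g : K.G 3) fr.u' fr.u
    simp only [hgu, hgu', hf.add_left, add_right hf, hf.smul_left, smul_right hf, fr.hu, fr.hu',
      fr.hpair, fr.pair'] at e1 e2 e3
    have e4 := congrArg K.σ e3
    simp only [map_add, map_mul, map_neg, map_one, map_zero, K.invol] at e4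
    set a := α g; set b := β g; set c := γ g; set d := δ g
    have ha : (a * d - b * c) * K.σ a = a := by linear_combination a * e3 - b * e1
    have hd : (a * d - b * c) * K.σ d = d := by linear_combination c * e2 + d * e4
    have hb : (a * d - b * c) * K.σ b = b := by linear_combination a * e2 + b * e4
    have hc : (a * d - b * c) * K.σ c = c := by linear_combination c * e3 - d * e1
    have hne' : a * d - b * c ≠ 0 := fun h => by
      rw [h, zero_mul] at ha hb hc hd
      rw [← ha, ← hb] at e3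
      simp only [map_zero, zero_mul, mul_zero, add_zero] at e3
      exact zero_ne_one e3
    refine ⟨hne', ?_, by rw [map_add, mul_add, ha, hd]⟩
    refine mul_left_cancel₀ hne' ?_
    rw [map_sub, map_mul, map_mul]
    linear_combination ((a * d - b * c) * K.σ d) * ha + a * hd - ((a * d - b * c) * K.σ c) * hb - b * hc
  -- the discriminant
  have h4 : (4 : F) ≠ 0 := by
    rw [show (4 : F) = 2 * 2 by norm_num]; exact mul_ne_zero h2 h2
  have hsquare : ∀ g : R, ∃ s : F,
      s * s = (δ g - α g) * (δ g - α g) + 4 * γ g * β g := fun g => by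
    obtain ⟨hne', hn, ht⟩ := hisom g
    set D := (δ g - α g) * (δ g - α g) + 4 * γ g * β g with hD
    by_cases hD0 : D = 0
    · exact ⟨0, by rw [hD0]; ring⟩
    set Δ := α g * δ g - β g * γ g with hΔ
    have hDe : D = (α g + δ g) * (α g + δ g) - 4 * Δ := by rw [hD, hΔ]; ring
    have hσD : Δ ^ 2 * K.σ D = D := by
      rw [hDe, map_sub, map_mul, map_mul, map_ofNat]
      linear_combination (Δ * K.σ (α g + δ g) + (α g + δ g)) * ht - 4 * Δ * hn
    have := Fintype.ofFinite F
    have hchar : ringChar F ≠ 2 := fun h => h2 (by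
      have := ringChar.Nat.cast_ringChar (R := F)
      rw [h] at this; exact_mod_cast this)
    obtain ⟨s, hs⟩ := (FiniteField.isSquare_iff hchar hD0).2 (by
      obtain ⟨k, hk⟩ := hqodd
      have hcard : Fintype.card F = q ^ 2 := by rw [← Nat.card_eq_fintype_card, K.card_eq]
      rw [hcard, show q ^ 2 / 2 = (2 * k) * (k + 1) by rw [hk]; ring_nf; omega, pow_mul]
      have hσ' : K.σ D = D ^ (2 * k) * D := by rw [K.σ_eq, K.conj.apply, ← pow_succ, hk]
      rw [hσ', ← mul_assoc] at hσD
      have h' : Δ ^ 2 * D ^ (2 * k) = 1 := mul_right_cancel₀ hD0 (hσD.trans (one_mul _).symm)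
      have hn' : (Δ ^ 2) ^ (k + 1) = 1 := by
        rw [← pow_mul, show 2 * (k + 1) = q + 1 by omega, ← K.norm_eq_pow, hn]
      have h'' := congrArg (· ^ (k + 1)) h'
      simp only [one_pow, mul_pow, hn', one_mul] at h''
      exact h'')
    exact ⟨s, hs.symm⟩
  -- scalars and others
  let Sc : R → Prop := fun g => γ g = 0 ∧ α g = δ g
  have hSc : ∀ g : R, Sc g → β g = 0 := fun g ⟨hg0, hgd⟩ => by
    by_contra hb
    refine hjordan g (α g) (β g • fr.u) fr.u' (smul_ne_zero hb hne) ?_ ?_ ?_
    · rw [ap_smul, hgu, hg0]; module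
    · rw [hgu', hgd]; module
    · intro a e
      exact one_ne_zero (hcoord 0 1 (a * β g) 0 (by rw [mul_smul, ← e]; simp)).2
  have hcount : ∀ g : R, Nat.card {y : Y // g • y = y} = if Sc g then q ^ 2 + 1 else 2 := by
    intro g
    have e : {o : Option F // g • ψ o = ψ o} ≃ {y : Y // g • y = y} :=
      (Equiv.ofBijective ψ hψ).subtypeEquiv fun o => Iff.rfl
    rw [← Nat.card_congr e]
    split_ifs with hg
    · have hb := hSc g hg
      rw [← hYcard, ← Nat.card_eq_of_bijective ψ hψ]
      refine Nat.card_congr (Equiv.subtypeUnivEquiv fun o => ?_)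
      rcases o with _ | x
      · exact (hfixnone g).2 hg.1
      · refine (hfixsome g x).2 ?_
        rw [hg.1, hb, hg.2]; ring
    · by_cases hg0 : γ g = 0
      · have had : δ g - α g ≠ 0 := sub_ne_zero.2 fun h => hg ⟨hg0, h.symm⟩
        have hset : ∀ o, g • ψ o = ψ o ↔
            o = none ∨ o = some (β g / (δ g - α g)) := by
          rintro (_ | x)
          · simp [hfixnone, hg0]
          · rw [hfixsome, hg0]
            simp only [reduceCtorEq, Option.some.injEq, false_or, eq_div_iff had]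
            constructor <;> intro h <;> linear_combination h
        rw [Nat.card_congr (Equiv.subtypeEquivRight hset),
          show Nat.card {o : Option F // o = none ∨ o = some (β g / (δ g - α g))}
            = ({none, some (β g / (δ g - α g))} : Set (Option F)).ncard from Nat.card_coe_set_eq _,
          Set.ncard_pair (by simp)]
      · obtain ⟨s, hs⟩ := hsquare g
        by_cases hs0 : s = 0
        · exfalso
          rw [hs0, mul_zero] at hs
          refine hjordan g ((α g + δ g) / 2)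
            (((α g - δ g) / 2) • fr.u + γ g • fr.u') fr.u (fun h => hg0 ?_) ?_ ?_ ?_
          · exact (hcoord _ _ 0 0 (by rw [h]; simp)).2
          · rw [ap_add, ap_smul, ap_smul, hgu, hgu']
            match_scalars
            · field_simp
              linear_combination -hs
            · field_simp
              ring
          · rw [hgu]
            match_scalars
            · field_simp
              ring
            · ring
          · intro a e
            obtain ⟨e1, e2⟩ := hcoord 1 0 (a * ((α g - δ g) / 2)) (a * γ g)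
              (by linear_combination (norm := module) e)
            rcases mul_eq_zero.1 e2.symm with h | h
            · rw [h, zero_mul] at e1; exact one_ne_zero e1
            · exact hg0 h
        · set r1 := (-(δ g - α g) + s) / (2 * γ g)
          set r2 := (-(δ g - α g) - s) / (2 * γ g)
          have h2g : (2 : F) * γ g ≠ 0 := mul_ne_zero h2 hg0
          have hset : ∀ o, g • ψ o = ψ o ↔ o = some r1 ∨ o = some r2 := by
            rintro (_ | x)
            · simp [hfixnone, hg0]
            · rw [hfixsome]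
              simp only [Option.some.injEq, r1, r2, eq_div_iff h2g]
              constructor
              · intro h
                have h' : (x * (2 * γ g) + (δ g - α g) - s) * (x * (2 * γ g) + (δ g - α g) + s) = 0 := by
                  linear_combination 4 * γ g * h - hs
                rcases mul_eq_zero.1 h' with h'' | h''
                · exact Or.inl (by linear_combination h'')
                · exact Or.inr (by linear_combination h'')
              · intro h
                refine (mul_eq_zero.1 (show 4 * γ g * _ = 0 from ?_)).resolve_left (mul_ne_zero h4 hg0)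
                rcases h with h | h
                · linear_combination (x * (2 * γ g) + (δ g - α g) + s) * h + hs
                · linear_combination (x * (2 * γ g) + (δ g - α g) - s) * h + hs
          have hne12 : r1 ≠ r2 := fun h => hs0 (by
            simp only [r1, r2, div_left_inj' h2g] at h
            exact (mul_eq_zero.1 (show (2 : F) * s = 0 by linear_combination h)).resolve_left h2)
          rw [Nat.card_congr (Equiv.subtypeEquivRight hset),
            show Nat.card {o : Option F // o = some r1 ∨ o = some r2}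
              = ({some r1, some r2} : Set (Option F)).ncard from Nat.card_coe_set_eq _,
            Set.ncard_pair (by simpa using hne12)]
  -- the scalars
  have hScard : Nat.card {g : R // Sc g} = Nat.card (K.normHom.comp (fr.Jgrp z1).subtype).ker := by
    have hu' : ∀ g : {g : R // Sc g}, ap ((g.1 : K.G 3) : GL (Fin 3) F) fr.u = α g.1 • fr.u :=
      fun g => by rw [hgu, g.2.1]; simp
    have hn : ∀ g : {g : R // Sc g}, α g.1 * K.σ (α g.1) = 1 := fun g => by
      have e := K.fm_ap (g.1 : K.G 3) fr.u' fr.u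
      rw [hgu', hu', hSc _ g.2, ← g.2.2] at e
      simp only [hf.add_left, hf.smul_left, smul_right hf, fr.hpair, zero_mul, zero_add] at e
      linear_combination e
    refine Nat.card_eq_of_bijective (fun g => ⟨⟨fr.lineVal ⟨(g.1 : K.G 3), _, hu' g⟩,
      ⟨(g.1 : K.G 3), _, hu' g⟩, (hR _ g.1.2).1, rfl⟩, Units.ext (by
        have e : ((fr.lineVal ⟨(g.1 : K.G 3), _, hu' g⟩ : Fˣ) : F) = α g.1 :=
          smul_left_injective F hne ((fr.lineVal_spec _).symm.trans (hu' g))
        show ((K.normHom (fr.lineVal ⟨(g.1 : K.G 3), _, hu' g⟩)) : F) = ((1 : Fˣ) : F)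
        rw [K.normHom_val, e, hn g, Units.val_one])⟩) ⟨fun g g' e => ?_, fun c => ?_⟩
    · have e' := congrArg (fun t => (t.1.1 : Fˣ)) e
      simp only at e'
      have h := map_mul fr.lineVal (⟨(g.1 : K.G 3), _, hu' g⟩ : fr.line)⁻¹
        ⟨(g'.1 : K.G 3), _, hu' g'⟩
      rw [map_inv, e', inv_mul_cancel, fr.lineVal_eq_one_iff] at h
      exact Subtype.ext (Subtype.ext (inv_mul_eq_one.1 (hUR _ (mul_mem (inv_mem g.1.2) g'.1.2) h)))
    · obtain ⟨g, hg, hgc⟩ := hlift c.1.1 c.1.2
      have hnc : (c.1.1 : F) * K.σ (c.1.1 : F) = 1 := by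
        rw [← K.normHom_val, show K.normHom c.1.1 = 1 from c.2, Units.val_one]
      obtain ⟨e1, e2⟩ := hcoord _ _ (c.1.1 : F) 0 (by rw [← hgu ⟨g, hg⟩, hgc]; simp)
      have hS' : Sc ⟨g, hg⟩ := by
        refine ⟨e2, ?_⟩
        have e := K.fm_ap g fr.u' fr.u
        have hgu'' : ap (g : GL (Fin 3) F) fr.u' = β ⟨g, hg⟩ • fr.u + δ ⟨g, hg⟩ • fr.u' :=
          hgu' ⟨g, hg⟩
        rw [hgu'', hgc] at e
        simp only [hf.add_left, hf.smul_left, smul_right hf, fr.hu, fr.hpair, mul_zero, zero_add] at e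
        rw [e1]
        refine mul_right_cancel₀ ((map_ne_zero_iff _ K.σ.injective).2 c.1.1.ne_zero) ?_
        rw [hnc]; linear_combination -e
      refine ⟨⟨⟨g, hg⟩, hS'⟩, Subtype.ext (Subtype.ext (Units.ext (smul_left_injective F hne ?_)))⟩
      exact (fr.lineVal_spec ⟨g, _⟩).symm.trans hgc
  -- six of them
  set M := (fr.Jgrp z1).map K.chiHom with hM
  have hjm : j = 3 * Nat.card M := by
    rcases K.chi_ker_card (fr.Jgrp z1) with e | e
    · exfalso
      rw [← hj, ← hM] at e
      have hMq : Nat.card M ∣ q - 1 := by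
        have := card_dvd_of_smul M (fr.ab z1) (fun c hc x hx => by
          obtain ⟨c, hc', rfl⟩ := hc; exact (fr.Jgrp_inv hc').1 x hx)
        rwa [hA1] at this
      have := Nat.le_of_dvd (by omega) hMq
      rcases hjv with h | h <;> omega
    · exact e
  have hk2 : Nat.card ((powMonoidHom 2 : Fˣ →* Fˣ).comp M.subtype).ker = 2 := by
    refine le_antisymm ?_ ?_
    · refine (Nat.card_le_card_of_injective (fun x => decide (((x.1.1 : Fˣ) : F) = 1))
        fun x y h => ?_).trans (le_of_eq (by simp))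
      have hk : ∀ x : ((powMonoidHom 2 : Fˣ →* Fˣ).comp M.subtype).ker,
          ((x.1.1 : Fˣ) : F) = 1 ∨ ((x.1.1 : Fˣ) : F) = -1 := fun x => by
        have h : (x.1.1 : Fˣ) ^ 2 = 1 := x.2
        exact mul_self_eq_one_iff.1 (by rw [← Units.val_mul, ← pow_two, h, Units.val_one])
      refine Subtype.ext (Subtype.ext (Units.ext ?_))
      simp only [decide_eq_decide] at h
      rcases hk x with hx | hx <;> rcases hk y with hy | hy
      · rw [hx, hy]
      · rw [hx, h.1 hx]
      · rw [hy, h.2 hy]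
      · rw [hx, hy]
    · have hmem : (-1 : Fˣ) ∈ M := ⟨-1, hm1', Units.ext (by
        rw [K.chiHom_val, Units.val_neg, Units.val_one, map_neg, map_one]; field_simp)⟩
      refine (le_of_eq (by simp : 2 = Nat.card Bool)).trans (Nat.card_le_card_of_injective
        (fun b : Bool => (if b then 1 else ⟨⟨-1, hmem⟩, Units.ext (by simp)⟩ :
          ((powMonoidHom 2 : Fˣ →* Fˣ).comp M.subtype).ker)) fun b b' e => ?_)
      have hne1 : (1 : F) ≠ -1 := fun h => h2 (by linear_combination h)
      rcases b with _ | _ <;> rcases b' with _ | _ <;>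
        first
          | rfl
          | (exfalso; have e' := congrArg (fun t => ((t.1.1 : Fˣ) : F)) e; simp at e'; first
              | exact hne1 e'
              | exact hne1 e'.symm)
  have hNsq : (fr.Jgrp z1).map K.normHom = M.map (powMonoidHom 2) := by
    ext x
    simp only [hM, Subgroup.map_map, Subgroup.mem_map, MonoidHom.comp_apply, powMonoidHom_apply]
    constructor
    · rintro ⟨c, hc, rfl⟩; exact ⟨c, hc, by rw [K.normHom_eq_sq (hreal c hc), pow_two]⟩
    · rintro ⟨c, hc, rfl⟩; exact ⟨c, hc, by rw [K.normHom_eq_sq (hreal c hc), pow_two]⟩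
  set σn := Nat.card (K.normHom.comp (fr.Jgrp z1).subtype).ker with hσn
  have hσ6 : σn = 6 ∧ ∃ l, j = 6 * l := by
    set l := Nat.card ((fr.Jgrp z1).map K.normHom) with hl
    have e1 : j = σn * l := by
      rw [hj, hσn, hl, ← (K.normHom.comp (fr.Jgrp z1).subtype).ker.card_mul_index,
        Subgroup.index_ker, MonoidHom.range_comp, Subgroup.range_subtype]
    have e2 : Nat.card M = 2 * l := by
      have e := ((powMonoidHom 2 : Fˣ →* Fˣ).comp M.subtype).ker.card_mul_index
      rw [Subgroup.index_ker, MonoidHom.range_comp, Subgroup.range_subtype, hk2, ← hNsq, ← hl] at e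
      exact e.symm
    have hlpos : 0 < l := Nat.card_pos
    refine ⟨?_, l, by omega⟩
    refine Nat.eq_of_mul_eq_mul_right hlpos ?_
    omega
  obtain ⟨hσ6, l, hl6⟩ := hσ6
  -- the orbit count
  have := Fintype.ofFinite R
  have := Fintype.ofFinite Y
  have hburn := MulAction.sum_card_fixedBy_eq_card_orbits_mul_card_group R Y
  simp only [← Nat.card_eq_fintype_card] at hburn
  have hsum : ∑ g : R, Nat.card (MulAction.fixedBy Y g) + 2 * 6 = 6 * (q ^ 2 + 1) + 2 * Nat.card R := by
    rw [show ∑ g : R, Nat.card (MulAction.fixedBy Y g) = ∑ g : R, if Sc g then q ^ 2 + 1 else 2 from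
        Finset.sum_congr rfl fun g _ => hcount g,
      Finset.sum_ite, Finset.sum_const, Finset.sum_const, smul_eq_mul, smul_eq_mul]
    have h6 : (Finset.univ.filter fun g => Sc g).card = 6 := by
      rw [← hσ6, ← hScard, Nat.card_eq_fintype_card, Fintype.card_subtype]
    have hcompl : (Finset.univ.filter fun g => Sc g).card + (Finset.univ.filter fun g => ¬ Sc g).card
        = Nat.card R := by
      rw [Finset.card_filter_add_card_filter_not, Finset.card_univ, Nat.card_eq_fintype_card]
    rw [h6]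
    omega
  rw [hburn, hRcard, hl6] at hsum
  -- the sizes
  have hO := Fintype.ofFinite (orbitRel.Quotient R Y)
  set N := (q + 1) * l with hNdef
  have hdvd : ∀ y : Y, Nat.card (orbit R y) ∣ N := by
    intro y
    have e1 : Nat.card (stabilizer R y) * Nat.card (orbit R y) = 6 * N := by
      rw [Nat.card_coe_set_eq, ← MulAction.index_stabilizer, (stabilizer R y).card_mul_index, hRcard,
        hl6, hNdef]
      ring
    -- the scalars form a subgroup of every stabiliser
    let Scg : Subgroup R := ⨅ y : Y, stabilizer R y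
    have h6 : Nat.card Scg = 6 := by
      rw [← hσ6, ← hScard]
      refine Nat.card_congr (Equiv.subtypeEquivRight fun g => ?_)
      simp only [Scg, Subgroup.mem_iInf, mem_stabilizer_iff]
      constructor
      · intro h
        by_contra hg
        have h' := hcount g
        rw [if_neg hg, Nat.card_congr (Equiv.subtypeUnivEquiv h), hYcard] at h'
        have : 9 ≤ q ^ 2 := by rw [pow_two]; exact Nat.mul_le_mul hq hq
        omega
      · intro hg y
        obtain ⟨o, rfl⟩ := hψ.2 y
        rcases o with _ | x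
        · exact (hfixnone g).2 hg.1
        · refine (hfixsome g x).2 ?_
          rw [hg.1, hSc g hg, hg.2]; ring
    obtain ⟨k, hk⟩ : Nat.card Scg ∣ Nat.card (stabilizer R y) :=
      Subgroup.card_dvd_of_le (iInf_le _ y)
    rw [hk, h6, mul_assoc] at e1
    exact ⟨k, by rw [mul_comm]; exact (Nat.eq_of_mul_eq_mul_left (by omega) e1).symm⟩
  let f : orbitRel.Quotient R Y → ℕ := fun o => Nat.card (orbit R o.out)
  have hYsum : ∑ o : orbitRel.Quotient R Y, f o = q ^ 2 + 1 := by
    rw [← hYcard, Nat.card_congr (selfEquivSigmaOrbits R Y), Nat.card_sigma]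
  set o0 : orbitRel.Quotient R Y := Quotient.mk'' y0
  have ho0 : f o0 = q + 1 := by
    rw [← horb]
    show Nat.card (orbit R o0.out) = _
    rw [MulAction.orbit_eq_iff.2 (Quotient.eq''.1 (Quotient.out_eq o0))]
  have hrest : ∑ o ∈ Finset.univ.erase o0, f o + (q + 1) = q ^ 2 + 1 := by
    rw [← ho0, Finset.sum_erase_add _ _ (Finset.mem_univ _), hYsum]
  obtain ⟨w, hw⟩ : ∃ w, q = w + 1 := ⟨q - 1, by omega⟩
  have hq2 : q ^ 2 = w * w + 2 * w + 1 := by rw [hw]; ring
  set O := Nat.card (orbitRel.Quotient R Y) with hOdef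
  have herase : (Finset.univ.erase o0).card + 1 = O := by
    rw [Finset.card_erase_add_one (Finset.mem_univ _), Finset.card_univ, hOdef,
      Nat.card_eq_fintype_card]
  have hlpos : 0 < l := by
    rcases Nat.eq_zero_or_pos l with h | h
    · rw [h, mul_zero] at hl6; rcases hjv with e | e <;> omega
    · exact h
  have hNpos : 0 < N := Nat.mul_pos (by omega) hlpos
  have hl : 2 * l = w ∨ 4 * l = w := by rcases hjv with e | e <;> omega
  have hq13 : 12 ≤ w := by obtain ⟨k, hk⟩ := hqodd; omega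
  have hfpos : ∀ o, 0 < f o := fun o => by
    haveI : Nonempty (orbit R o.out) := ⟨⟨_, mem_orbit_self _⟩⟩
    exact Nat.card_pos
  rcases hl with hl | hl
  · have h2N : 2 * N = w * w + 2 * w := by rw [hNdef, ← hl, hw]; subst w; ring
    have hO4 : O = 4 := by
      refine Nat.eq_of_mul_eq_mul_right (show 0 < 6 * N by omega) ?_
      have e1 : (q + 1) * (6 * l) = 6 * N := by rw [hNdef]; ring
      rw [e1] at hsum
      omega
    refine sizes_false (Finset.univ.erase o0) f (N := N) (D := w) hNpos (fun o _ => hdvd _)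
      (fun o _ => hfpos o) 1 (by omega) ?_ (by omega) ?_ ?_ ?_
    · omega
    · have := Nat.mul_le_mul_right w hq13
      omega
    · have := Nat.mul_le_mul_right w hq13
      omega
    · left
      have := Nat.mul_le_mul_right w hq13
      omega
  · have h4N : 4 * N = w * w + 2 * w := by rw [hNdef, ← hl, hw]; subst w; ring
    have hO6 : O = 6 := by
      refine Nat.eq_of_mul_eq_mul_right (show 0 < 6 * N by omega) ?_
      have e1 : (q + 1) * (6 * l) = 6 * N := by rw [hNdef]; ring
      rw [e1] at hsum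
      omega
    have hww := Nat.mul_le_mul_right w hq13
    refine sizes_false (Finset.univ.erase o0) f (N := N) (D := w) hNpos (fun o _ => hdvd _)
      (fun o _ => hfpos o) 3 (by omega) (by omega)
      (by omega) (by omega) (by omega) ?_
    by_cases hbig : 24 ≤ w
    · left
      have := Nat.mul_le_mul_right w hbig
      omega
    · right
      intro b hb hbd
      obtain h | h | h : w = 12 ∨ w = 16 ∨ w = 20 := by omega
      all_goals
        rw [h] at h4N hb
        have hN' : N = (w * w + 2 * w) / 4 := by rw [h]; omega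
        rw [h] at hN'
        rw [hN'] at hb hbd
        norm_num at hb
        first
          | (have : b = 9 := by omega); subst this; norm_num at hbd
          | (have : b = 20 := by omega); subst this; norm_num at hbd
          | (have : b = 35 := by omega); subst this; norm_num at hbd

end Frame

end CfsgLib.MinIndexUnit
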