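import Cfsg.Agent.Lib.MinIndex.Unit.ThreeArith

/-!
The root group of a point cannot be regular, for fields of more than three elements.
-/

set_option autoImplicit false
set_option linter.unusedSectionVars false
set_option maxHeartbeats 1000000

namespace CfsgLib.MinIndexUnit

open CfsgLib.Geometric CfsgLib.Geometric.Unitary CfsgLib.ClassicalForms MulAction

variable {F : Type*} [Field F] [Finite F] {q : ℕ} {K : UC F q}

lemma ap_pow_eigen {n : ℕ} {g : K.G n} {v : Fin n → F} {a : F}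
    (h : ap (g : GL (Fin n) F) v = a • v) (i : ℕ) :
    ap ((g ^ i : K.G n) : GL (Fin n) F) v = a ^ i • v := by
  induction i with
  | zero => rw [pow_zero, Subgroup.coe_one, ap_one, pow_zero, one_smul]
  | succ i ih => rw [pow_succ', Subgroup.coe_mul, ap_mul, ih, ap_smul, h, smul_smul, pow_succ]

namespace Frame

variable (fr : Frame K 1)
include fr

/-- Elements are determined by the images of the frame. -/
lemma ext3 {g h : K.G 3} (hu : ap (g : GL (Fin 3) F) fr.u = ap (h : GL (Fin 3) F) fr.u)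
    (hu' : ap (g : GL (Fin 3) F) fr.u' = ap (h : GL (Fin 3) F) fr.u')
    (he : ap (g : GL (Fin 3) F) (inc (fun _ => 1)) = ap (h : GL (Fin 3) F) (inc (fun _ => 1))) :
    g = h := K.g_ext fun z => by
  obtain ⟨a, c, hz⟩ := fr.decomp3 z
  generalize K.fm 3 z fr.u = b at hz
  rw [hz]
  simp only [ap_add, ap_smul, hu, hu', he]

variable {Ω : Type*} [MulAction (K.G 3) Ω] [Finite Ω]

/-- No regular orbit for a large field. -/
theorem regular_false (hq : 4 ≤ q) (h5 : q ≠ 5) (hΩ : Nat.card Ω < q ^ 3 + 1) {z0 : Ω}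
    (hA : fr.ab z0 = ⊥) (hC : fr.cz z0 = ⊥) : False := by
  classical
  have hf := K.skewForm 3
  obtain ⟨-, huniq⟩ := fr.regular hΩ hA hC
  have hfree : ∀ (y : Ω) (r : K.G 3), r ∈ fr.U → r • y = y → r = 1 := fun y r hr hy => by
    obtain ⟨r0, ⟨hr0, hr0z⟩, h⟩ := huniq y
    exact mul_eq_right.1 (h (r * r0) ⟨mul_mem hr hr0, by rw [mul_smul, hr0z, hy]⟩)
  set e := inc (fun _ : Fin 1 => (1 : F)) with hedef
  have hTu : ∀ (x : F) (hx : K.σ x = x), K.tEl fr.hu x hx ∈ fr.U := fun x hx =>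
    K.tr_le_root fr.hu (K.isTr_tEl fr.hu x hx)
  have hTinj : ∀ (y : Ω) (x x' : F) (hx : K.σ x = x) (hx' : K.σ x' = x'),
      K.tEl fr.hu x hx • y = K.tEl fr.hu x' hx' • y → x = x' := by
    intro y x x' hx hx' h
    have h1 : K.tEl fr.hu (-x' + x) (by rw [map_add, map_neg, hx, hx']) = 1 := by
      refine hfree y _ (hTu _ _) ?_
      rw [← K.tEl_mul fr.hu (-x') x (by rw [map_neg, hx']) hx, mul_smul, h, ← mul_smul, K.tEl_mul,
        K.tEl_congr fr.hu _ (map_zero _) (neg_add_cancel x'), K.tEl_zero, one_smul]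
    have h2 := congrArg (fun g : K.G 3 => ap (g : GL (Fin 3) F) fr.u') h1
    simp only [K.ap_tEl, fr.hpair, mul_one, Subgroup.coe_one, ap_one, add_eq_left] at h2
    linear_combination (smul_eq_zero.1 h2).resolve_right fr.u_ne
  -- a scalar of the line stabiliser
  obtain ⟨a, han, ha3⟩ : ∃ a : F, a * K.σ a = 1 ∧ a ^ 3 ≠ 1 := by
    obtain ⟨a, ha, haS⟩ := K.exists_norm_one (Polynomial.nthRoots 3 (1 : F)).toFinset
      ((Multiset.toFinset_card_le _).trans ((Polynomial.card_nthRoots 3 1).trans (by omega)))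
    exact ⟨a, ha, fun h => haS (Multiset.mem_toFinset.2 ((Polynomial.mem_nthRoots (by norm_num)).2 h))⟩
  have ha0 : a ≠ 0 := left_ne_zero_of_mul_eq_one han
  have hσa : K.σ a = a⁻¹ := eq_inv_of_mul_eq_one_right han
  obtain ⟨s, hsu, hsu'0, hsi⟩ := fr.exists_tor1 ha0
  have hsu' : ap (s : GL (Fin 3) F) fr.u' = a • fr.u' := by rw [hsu'0, hσa, inv_inv]
  have hsproj : ∀ r ∈ fr.U, s * r * s⁻¹ ∈ fr.U ∧ fr.proj (s * r * s⁻¹) = (a⁻¹) ^ 3 • fr.proj r := by
    intro r hr
    have h := fr.proj_conj' hsu (G := fun w => (K.σ a / a) • w) hsi hr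
    refine ⟨h.1, h.2.trans ?_⟩
    rw [smul_smul, hσa]; congr 1; field_simp
  have ha3' : (a⁻¹) ^ 3 ≠ 1 := fun h => ha3 (by rwa [inv_pow, inv_eq_one] at h)
  have hTs : ∀ (x : F) (hx : K.σ x = x), s * K.tEl fr.hu x hx = K.tEl fr.hu x hx * s := fun x hx =>
    K.comm_tEl fr.hu hsu han x hx
  have hTU : ∀ (x : F) (hx : K.σ x = x) (r : K.G 3), r ∈ fr.U →
      r * K.tEl fr.hu x hx = K.tEl fr.hu x hx * r := fun x hx r hr =>
    K.comm_tEl fr.hu (b := 1) (by rw [one_smul]; exact fr.ap_U_u hr) (by simp) x hx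
  -- a point fixed by it
  obtain ⟨r0, ⟨hr0, hr0z⟩, -⟩ := huniq (s • z0)
  obtain ⟨r, hr, hrp⟩ := fr.exists_proj ((1 - (a⁻¹) ^ 3)⁻¹ • fr.proj r0)
  have hmem : r⁻¹ * (s * r * s⁻¹) * r0 ∈ fr.U :=
    mul_mem (mul_mem (inv_mem hr) (hsproj r hr).1) hr0
  obtain ⟨c, hc, hce⟩ := IsTr.eq_tEl (fr.mem_Z_of_proj hmem (by
    rw [fr.proj_mul (mul_mem (inv_mem hr) (hsproj r hr).1) hr0,
      fr.proj_mul (inv_mem hr) (hsproj r hr).1, fr.proj_inv' hr, (hsproj r hr).2, hrp]
    funext i
    have hne : (1 : F) - (a⁻¹) ^ 3 ≠ 0 := sub_ne_zero.2 (Ne.symm ha3')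
    simp only [Pi.add_apply, Pi.neg_apply, Pi.smul_apply, smul_eq_mul, Pi.zero_apply]
    field_simp
    ring)) fr.hu
  set zs := r • z0 with hzs
  have hszs : s • zs = K.tEl fr.hu c hc • zs := by
    rw [hzs, ← mul_smul, show s * r = s * r * s⁻¹ * s by group, mul_smul, ← hr0z, ← mul_smul,
      show s * r * s⁻¹ * r0 = r * K.tEl fr.hu c hc by rw [← hce]; group, hTU c hc r hr, mul_smul]
  have hc0 : c = 0 := by
    have hpow : ∀ i : ℕ, (s ^ i) • zs = K.tEl fr.hu ((i : F) * c)
        (by rw [map_mul, map_natCast, hc]) • zs := by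
      intro i
      induction i with
      | zero =>
        rw [pow_zero, one_smul, K.tEl_congr fr.hu _ (map_zero _) (by simp), K.tEl_zero, one_smul]
      | succ i ih =>
        rw [pow_succ, mul_smul, hszs, ← mul_smul,
          ((Commute.pow_left (show Commute s (K.tEl fr.hu c hc) from hTs c hc) i).eq), mul_smul, ih,
          ← mul_smul, K.tEl_mul]
        congr 1
        exact K.tEl_congr fr.hu _ _ (by push_cast; ring)
    have hse : ap (s : GL (Fin 3) F) e = (K.σ a / a) • e := by rw [hedef, hsi, inc_smul]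
    have hn1 : a ^ (q + 1) = 1 := by rw [← K.norm_eq_pow, han]
    have h1 : s ^ (q + 1) = 1 := by
      refine fr.ext3 ?_ ?_ ?_ <;> rw [Subgroup.coe_one, ap_one]
      · rw [ap_pow_eigen hsu, hn1, one_smul]
      · rw [ap_pow_eigen hsu', hn1, one_smul]
      · rw [← hedef, ap_pow_eigen hse, hσa, div_pow, inv_pow, hn1, inv_one, div_one, one_smul]
    have h := hpow (q + 1)
    rw [h1, one_smul] at h
    have h' := hTinj zs _ 0 _ (map_zero _)
      (h.symm.trans (by rw [K.tEl_zero, one_smul]))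
    have hqF : (q : F) = 0 := by
      have := Fintype.ofFinite F
      have h' := FiniteField.cast_card_eq_zero (K := F)
      rw [← Nat.card_eq_fintype_card, K.card_eq] at h'
      push_cast at h'
      exact (pow_eq_zero_iff (n := 2) (by norm_num)).1 h'
    rw [Nat.cast_add, Nat.cast_one, hqF, zero_add, one_mul] at h'
    exact h'
  rw [K.tEl_congr fr.hu hc (map_zero _) hc0, K.tEl_zero, one_smul] at hszs
  -- the centraliser of the scalar moves the point by transvections
  have hkey : ∀ (g : K.G 3), g * s = s * g → ∀ z : Ω, s • z = z →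
      ∃ (x : F) (hx : K.σ x = x), (K.tEl fr.hu x hx * g) • z = z := by
    intro g hg z hz
    obtain ⟨r1, ⟨hr1, hr1z⟩, h1⟩ := huniq (g • z)
    obtain ⟨r2, ⟨hr2, hr2z⟩, -⟩ := huniq z
    set rr := r1 * r2⁻¹ with hrr
    have hrrU : rr ∈ fr.U := mul_mem hr1 (inv_mem hr2)
    have hrrz : rr • z = g • z := by
      rw [hrr, mul_smul, inv_smul_eq_iff.2 hr2z.symm, hr1z]
    have h2 : rr⁻¹ * (s * rr * s⁻¹) = 1 := by
      refine hfree z _ (mul_mem (inv_mem hrrU) (hsproj rr hrrU).1) ?_
      rw [mul_smul, inv_smul_eq_iff, mul_smul, mul_smul,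
        show s⁻¹ • z = z from inv_smul_eq_iff.2 hz.symm, hrrz, ← mul_smul, ← hg, mul_smul, hz]
    have h3 := congrArg fr.proj (inv_mul_eq_one.1 h2)
    rw [(hsproj rr hrrU).2] at h3
    have h4 : fr.proj rr = 0 := by
      have h5 : ((1 : F) - (a⁻¹) ^ 3) • fr.proj rr = 0 := by rw [sub_smul, one_smul, ← h3, sub_self]
      exact (smul_eq_zero.1 h5).resolve_left (sub_ne_zero.2 (Ne.symm ha3'))
    obtain ⟨x, hx, hxe⟩ := IsTr.eq_tEl (fr.mem_Z_of_proj hrrU h4) fr.hu
    refine ⟨-x, by rw [map_neg, hx], ?_⟩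
    rw [mul_smul, ← hrrz, hxe, ← mul_smul, K.tEl_mul,
      K.tEl_congr fr.hu _ (map_zero _) (neg_add_cancel x), K.tEl_zero, one_smul]
  -- a point fixed by the whole torus
  let IsDg : K.G 3 → F → Prop := fun t c => ap (t : GL (Fin 3) F) fr.u = c • fr.u ∧
    ap (t : GL (Fin 3) F) fr.u' = (K.σ c)⁻¹ • fr.u' ∧ ap (t : GL (Fin 3) F) e = (K.σ c / c) • e
  have hdcomm : ∀ t c, IsDg t c → t * s = s * t := by
    rintro t c ⟨h1, h2, h3⟩
    have hse : ap (s : GL (Fin 3) F) e = (K.σ a / a) • e := by rw [hedef, hsi, inc_smul]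
    refine fr.ext3 ?_ ?_ ?_ <;> simp only [← hedef, Subgroup.coe_mul, ap_mul]
    · rw [hsu, ap_smul, h1, ap_smul, hsu, smul_comm]
    · rw [hsu', ap_smul, h2, ap_smul, hsu', smul_comm]
    · rw [hse, ap_smul, h3, ap_smul, hse, smul_comm]
  have := Fintype.ofFinite F
  obtain ⟨c0, hc0⟩ := IsCyclic.exists_monoid_generator (α := Fˣ)
  obtain ⟨h0, h0u, h0u', h0i⟩ := fr.exists_tor1 c0.ne_zero
  have hd0 : IsDg h0 c0 := ⟨h0u, h0u', by rw [hedef, h0i, inc_smul]⟩
  have hN0 : (c0 : F) * K.σ c0 ≠ 1 := by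
    intro h
    have h1 : c0 ^ (q + 1) = 1 := Units.ext (by
      rw [Units.val_pow_eq_pow_val, ← K.norm_eq_pow, h, Units.val_one])
    have h2 : orderOf c0 = q ^ 2 - 1 := by
      rw [orderOf_eq_card_of_forall_mem_powers hc0, Nat.card_units, K.card_eq]
    have h3 := Nat.le_of_dvd (by omega) (h2 ▸ orderOf_dvd_of_pow_eq_one h1)
    have h4 : 4 * q ≤ q ^ 2 := by rw [pow_two]; exact Nat.mul_le_mul_right _ hq
    omega
  obtain ⟨x0, hx0, hx0z⟩ := hkey h0 (hdcomm _ _ hd0) zs hszs
  set N0 := (c0 : F) * K.σ c0 with hN0def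
  have hN0r : K.σ N0 = N0 := by rw [hN0def, map_mul, K.invol, mul_comm]
  set y0 := x0 / (N0 - 1) with hy0
  have hy0r : K.σ y0 = y0 := by rw [hy0, map_div₀, map_sub, map_one, hN0r, hx0]
  set z1 := K.tEl fr.hu y0 hy0r • zs with hz1
  have hs1 : s • z1 = z1 := by rw [hz1, ← mul_smul, hTs, mul_smul, hszs]
  have h0z1 : h0 • z1 = z1 := by
    have hcj := K.conj_tEl fr.hu fr.hu y0 (N0 * y0) hy0r (by rw [map_mul, hN0r, hy0r]) h0 h0u rfl
    have hy1 : N0 * y0 = y0 + x0 := by
      rw [hy0]; field_simp [sub_ne_zero.2 hN0]; ring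
    rw [hz1, ← mul_smul, show h0 * K.tEl fr.hu y0 hy0r = h0 * K.tEl fr.hu y0 hy0r * h0⁻¹ * h0 by group,
      hcj, K.tEl_congr fr.hu _ (by rw [map_add, hy0r, hx0]) hy1, ← K.tEl_mul fr.hu y0 x0 hy0r hx0,
      mul_assoc, mul_smul, hx0z]
  have htorus : ∀ t c, c ≠ 0 → IsDg t c → t • z1 = z1 := by
    intro t c hc ⟨h1, h2, h3⟩
    obtain ⟨i, hi⟩ := hc0 (Units.mk0 c hc)
    have hci : (c0 : F) ^ i = c := by
      rw [← Units.val_pow_eq_pow_val]; exact congrArg Units.val hi
    have e1 : t = h0 ^ i := by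
      refine fr.ext3 ?_ ?_ ?_
      · rw [h1, ap_pow_eigen hd0.1, hci]
      · rw [h2, ap_pow_eigen hd0.2.1, inv_pow, ← map_pow, hci]
      · rw [← hedef, h3, ap_pow_eigen hd0.2.2, div_pow, ← map_pow, hci]
    rw [e1]
    clear e1 hi hci
    induction i with
    | zero => rw [pow_zero, one_smul]
    | succ i ih => rw [pow_succ, mul_smul, h0z1, ih]
  -- the function pairing the two root groups
  have hT's : ∀ (b : F) (hb : K.σ b = b), K.tEl fr.hu' b hb * s = s * K.tEl fr.hu' b hb := fun b hb =>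
    (K.comm_tEl fr.hu' hsu' han b hb).symm
  obtain ⟨k, hk, hkz⟩ := hkey _ (hT's 1 (map_one _)) z1 hs1
  have hk0 : k ≠ 0 := by
    intro h
    rw [K.tEl_congr fr.hu hk (map_zero _) h, K.tEl_zero, one_mul] at hkz
    obtain ⟨g, hg⟩ := K.exists_move_iso le_rfl fr.hu fr.hu' fr.u_ne (fun h => by
      have := fr.hpair; rw [h, zero_left hf] at this; exact zero_ne_one this)
    have h1 : K.tEl fr.hu 1 (map_one _) = 1 := by
      refine hfree (g⁻¹ • z1) _ (hTu _ _) ?_
      rw [← K.conj_tEl fr.hu fr.hu' 1 1 (map_one _) (map_one _) g (a := 1) (by rw [hg, one_smul])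
        (by simp), mul_smul, mul_smul] at hkz
      exact eq_inv_smul_iff.2 hkz
    have h2 := congrArg (fun g : K.G 3 => ap (g : GL (Fin 3) F) fr.u') h1
    simp only [K.ap_tEl, fr.hpair, mul_one, Subgroup.coe_one, ap_one, add_eq_left, one_smul] at h2
    exact fr.u_ne h2
  have hφ : ∀ (b : F) (hb : K.σ b = b), b ≠ 0 →
      (K.tEl fr.hu (k / b) (by rw [map_div₀, hk, hb]) * K.tEl fr.hu' b hb) • z1 = z1 := by
    intro b hb hb0
    obtain ⟨c, hcn⟩ := Unitary.exists_norm hf (c := b⁻¹) (by rw [map_inv₀, hb])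
    have hc : c ≠ 0 := left_ne_zero_of_mul (hcn.trans_ne (inv_ne_zero hb0))
    obtain ⟨t, htu, htu', hti⟩ := fr.exists_tor1 hc
    have htz : t • z1 = z1 := htorus t c hc ⟨htu, htu', by rw [hedef, hti, inc_smul]⟩
    have hkb : K.σ (k / b) = k / b := by rw [map_div₀, hk, hb]
    have e1 := K.conj_tEl fr.hu fr.hu k (k / b) hk hkb t htu (by rw [hcn]; ring)
    have e2 := K.conj_tEl fr.hu' fr.hu' 1 b (map_one _) hb t htu' (by
      rw [map_inv₀, K.invol, mul_one, ← mul_inv, mul_comm, hcn, inv_inv])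
    rw [← e1, ← e2, show t * K.tEl fr.hu k hk * t⁻¹ * (t * K.tEl fr.hu' 1 (map_one _) * t⁻¹)
      = t * (K.tEl fr.hu k hk * K.tEl fr.hu' 1 (map_one _)) * t⁻¹ by group, mul_smul, mul_smul,
      show t⁻¹ • z1 = z1 from inv_smul_eq_iff.2 htz.symm, hkz, htz]
  -- the relation
  have hue : K.fm 3 e fr.u = 0 := fr.inc_u _
  have hue' : K.fm 3 e fr.u' = 0 := fr.inc_u' _
  have hrel : ∀ t : F, K.σ t = t → t ≠ 0 → t ≠ k → t ≠ k - 1 → (1 - k + t) ^ 2 = t := by
    intro t ht ht0 htk hat
    have hat' : 1 - k + t ≠ 0 := fun h => hat (by linear_combination h)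
    set A := 1 - k with hA'
    have hσA : K.σ A = A := by rw [hA', map_sub, map_one, hk]
    set δ := (t - k) / t with hδ
    have hδ0 : δ ≠ 0 := div_ne_zero (sub_ne_zero.2 htk) ht0
    have hδr : K.σ δ = δ := by rw [hδ, map_div₀, map_sub, ht, hk]
    set b' := (A + t) * δ with hb'
    have hb'0 : b' ≠ 0 := mul_ne_zero hat' hδ0
    have hb'r : K.σ b' = b' := by rw [hb', map_mul, map_add, hσA, ht, hδr]
    set x0 := k * (A + t) / (t - k) with hx0'
    have hx0r : K.σ x0 = x0 := by rw [hx0', map_div₀, map_sub, map_mul, map_add, hσA, ht, hk]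
    obtain ⟨τ, hτu, hτu', hτi⟩ := fr.exists_tor1 (inv_ne_zero hδ0)
    have hσd : K.σ δ⁻¹ = δ⁻¹ := by rw [map_inv₀, hδr]
    have hτe : ap (τ : GL (Fin 3) F) e = e := by
      rw [hedef, hτi, hσd, div_self (inv_ne_zero hδ0), one_smul]
    have hτz : τ • z1 = z1 := htorus τ δ⁻¹ (inv_ne_zero hδ0) ⟨hτu, hτu', by
      rw [hτe, hσd, div_self (inv_ne_zero hδ0), one_smul]⟩
    rw [hσd, inv_inv] at hτu'
    have hkt : K.σ (k / t) = k / t := by rw [map_div₀, hk, ht]
    have hX : K.tEl fr.hu k hk * K.tEl fr.hu' 1 (map_one _) *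
        (K.tEl fr.hu (k / t) hkt * K.tEl fr.hu' t ht)
        = K.tEl fr.hu x0 hx0r * K.tEl fr.hu' b' hb'r * τ := by
      refine fr.ext3 ?_ ?_ ?_ <;>
        simp only [← hedef, Subgroup.coe_mul, ap_mul, ap_add, ap_smul, K.ap_tEl, fr.hu, fr.hu',
          fr.hpair, fr.pair', hue, hue', hτu, hτu', hτe, hf.add_left, hf.smul_left, mul_zero, zero_smul,
          add_zero, zero_add]
      · match_scalars
        · simp only [hx0', hb', hδ, hA']
          field_simp [sub_ne_zero.2 htk]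
          ring
        · simp only [hx0', hb', hδ, hA']
          field_simp [sub_ne_zero.2 htk]
          ring
      · match_scalars
        · simp only [hx0', hb', hδ, hA']
          field_simp [sub_ne_zero.2 htk]
          ring
        · simp only [hx0', hb', hδ, hA']
          field_simp [sub_ne_zero.2 htk]
          ring
    have h1 := congrArg (· • z1) hX
    simp only [mul_smul, hτz] at h1
    have h2 := hφ t ht ht0
    rw [mul_smul] at h2
    rw [h2] at h1
    rw [mul_smul] at hkz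
    rw [hkz] at h1
    have h3 := hφ b' hb'r hb'0
    rw [mul_smul] at h3
    have h4 : x0 = k / b' := hTinj (K.tEl fr.hu' b' hb'r • z1) _ _ hx0r
      (by rw [map_div₀, hk, hb'r]) (h1.symm.trans h3.symm)
    simp only [hx0', hb', hδ] at h4
    rw [div_eq_div_iff (sub_ne_zero.2 htk) (mul_ne_zero hat' hδ0)] at h4
    field_simp at h4
    rw [hδ, mul_div_assoc', div_eq_iff ht0] at h4
    have h5 : ((A + t) ^ 2 - t) * (t - k) = 0 := by linear_combination h4
    exact sub_eq_zero.1 ((mul_eq_zero.1 h5).resolve_right (sub_ne_zero.2 htk))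
  -- at most five values
  by_cases h2 : (2 : F) = 0
  · by_cases hk1 : k = 1
    · obtain ⟨⟨t, ht⟩, hts⟩ : ∃ t : K.fx, t ≠ 0 ∧ (t : F) ≠ 1 := by
        by_contra h
        push Not at h
        have hle : Nat.card K.fx ≤ Nat.card Bool :=
          Nat.card_le_card_of_injective (fun t => decide (t = 0)) fun x y e => by
            simp only [decide_eq_decide] at e
            by_cases hx : x = 0
            · rw [hx, e.1 hx]
            · exact Subtype.ext ((h x hx).trans (h y (fun hy => hx (e.2 hy))).symm)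
        rw [K.card_fx] at hle
        simp at hle
        omega
      obtain ⟨ht0, ht1⟩ := hts
      have ht0' : t ≠ 0 := fun h => ht0 (Subtype.ext h)
      have h := hrel t ht ht0' (by rw [hk1]; exact ht1) (by rw [hk1, sub_self]; exact ht0')
      rw [hk1] at h
      exact ht1 (mul_left_cancel₀ ht0' (by linear_combination h))
    · have h := hrel 1 (map_one _) one_ne_zero (Ne.symm hk1)
        (fun h => hk0 (by linear_combination -h + h2))
      exact hk1 (mul_self_eq_one_iff.1 (show k * k = 1 by linear_combination h + (2 * k - 2) * h2)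
        |>.elim id fun h' => h'.trans (by linear_combination -h2))
  · have hq7 : 6 ≤ q := by
      rcases eq_or_lt_of_le hq with h | h
      · exfalso
        apply h2
        have h' := FiniteField.cast_card_eq_zero (K := F)
        rw [← Nat.card_eq_fintype_card, K.card_eq, ← h] at h'
        push_cast at h'
        exact (pow_eq_zero_iff (n := 4) (by norm_num)).1 (by linear_combination h')
      · omega
    let P : Polynomial F := Polynomial.C 1 * Polynomial.X ^ 2
      + Polynomial.C (2 * (1 - k) - 1) * Polynomial.X + Polynomial.C ((1 - k) ^ 2)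
    have hP : P ≠ 0 := fun h => by
      have := Polynomial.natDegree_quadratic (a := (1 : F)) (b := 2 * (1 - k) - 1) (c := (1 - k) ^ 2)
        one_ne_zero
      have h' : P.natDegree = 0 := by rw [h, Polynomial.natDegree_zero]
      simp only [P] at h'
      omega
    let S : Finset F := {0, k, k - 1} ∪ P.roots.toFinset
    have hS : S.card ≤ 5 := (Finset.card_union_le _ _).trans (Nat.add_le_add Finset.card_le_three
      ((Multiset.toFinset_card_le _).trans ((Polynomial.card_roots' P).trans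
        Polynomial.natDegree_quadratic_le)))
    have hall : ∀ t : K.fx, (t : F) ∈ S := fun t => by
      by_contra h
      simp only [S, Finset.mem_union, Finset.mem_insert, Finset.mem_singleton, Multiset.mem_toFinset,
        Polynomial.mem_roots hP, not_or] at h
      obtain ⟨⟨h0, hk', hk1⟩, hr⟩ := h
      refine hr ?_
      have := hrel t t.2 h0 hk' hk1
      simp [P]
      linear_combination this
    have hle : Nat.card K.fx ≤ Nat.card S :=
      Nat.card_le_card_of_injective (fun t => (⟨(t : F), hall t⟩ : S))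
        fun x y e => Subtype.ext (congrArg (fun w : S => (w : F)) e)
    rw [K.card_fx, Nat.card_eq_fintype_card, Fintype.card_coe] at hle
    omega

end Frame

end CfsgLib.MinIndexUnit
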