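import Cfsg.Agent.Lib.MinIndex.Unit.ThreeSmall
import Cfsg.Agent.Lib.MinIndex.Unit.ThreeRegular

/-!
The minimal index of a proper subgroup of the three-dimensional unitary groups.
-/

set_option autoImplicit false
set_option linter.unusedSectionVars false
set_option maxHeartbeats 1000000

namespace CfsgLib.MinIndexUnit

open CfsgLib.Geometric CfsgLib.Geometric.Unitary CfsgLib.ClassicalForms MulAction

variable {F : Type*} [Field F] [Finite F] {q : ℕ} {K : UC F q}

namespace Frame

variable (fr : Frame K 1) {Ω : Type*} [MulAction (K.G 3) Ω] [Finite Ω]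
  [IsPretransitive (K.G 3) Ω]
include fr

/-- The line case over the field with eleven elements squared. -/
theorem eleven_false (hq : q = 11) (h2 : (2 : F) ≠ 0)
    (hN : ∀ y : Ω, ¬(fr.ab y = ⊥ ∧ fr.cz y = ⊥)) {z : Ω} (hC : fr.cz z = ⊥)
    (hA : Nat.card (fr.ab z) = q)
    (hj : Nat.card (fr.Jgrp z) = 3 * (q - 1) ∨ 2 * Nat.card (fr.Jgrp z) = 3 * (q - 1)) : False := by
  classical
  subst hq
  have hm1 := fr.neg_one_mem hN z (by decide) h2
  have hj30 : Nat.card (fr.Jgrp z) = 30 := by
    have h : orderOf (-1 : Fˣ) = 2 := orderOf_eq_prime (hp := ⟨Nat.prime_two⟩) (by simp) fun h =>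
      h2 (by
        have := congrArg Units.val h
        rw [Units.val_neg, Units.val_one] at this
        linear_combination -this)
    have h' := orderOf_dvd_natCard (⟨-1, hm1⟩ : fr.Jgrp z)
    rw [← Subgroup.orderOf_coe, h] at h'
    omega
  set H := stabilizer (K.G 3) z with hH
  have hHcard : Nat.card H = 439560 := by
    rw [hH, fr.card_stab hN z, hA, hC, AddSubgroup.card_bot, hj30]
    norm_num
  -- a scalar in the stabiliser
  obtain ⟨c, hcJ, hcχ, hc1⟩ : ∃ c ∈ fr.Jgrp z, K.chiHom c = 1 ∧ c ≠ 1 := by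
    by_contra h
    push Not at h
    have hM : Nat.card ((fr.Jgrp z).map K.chiHom) ∣ 11 - 1 := by
      have := card_dvd_of_smul ((fr.Jgrp z).map K.chiHom) (fr.ab z) (fun c hc x hx => by
        obtain ⟨c, hc', rfl⟩ := hc; exact (fr.Jgrp_inv hc').1 x hx)
      rwa [hA] at this
    have hbij : Nat.card (fr.Jgrp z) = Nat.card ((fr.Jgrp z).map K.chiHom) := by
      refine Nat.card_congr (Equiv.ofBijective (fun x : fr.Jgrp z =>
        (⟨K.chiHom x, Subgroup.mem_map_of_mem _ x.2⟩ : (fr.Jgrp z).map K.chiHom))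
        ⟨fun x y e => Subtype.ext ?_, ?_⟩)
      · have e' : K.chiHom x = K.chiHom y := congrArg Subtype.val e
        exact inv_mul_eq_one.1 (h _ (mul_mem (inv_mem x.2) y.2) (by rw [map_mul, map_inv, e', inv_mul_cancel]))
      · rintro ⟨_, x, hx, rfl⟩; exact ⟨⟨x, hx⟩, rfl⟩
    rw [← hbij, hj30] at hM
    exact absurd hM (by decide)
  have hc3 := (K.chiHom_ker hcχ).1
  have hc0 : (c : F) ≠ 0 := c.ne_zero
  have hnc : (c : F) * K.σ c = 1 := by
    have h1 : K.σ c * (K.σ c / c) = 1 := by rw [← K.chiHom_val, hcχ, Units.val_one]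
    have h2' : ((c : F) * K.σ c) * ((c : F) * K.σ c) = 1 := by
      field_simp at h1
      linear_combination (c : F) ^ 2 * h1 + hc3
    have h3' : ((c : F) * K.σ c) ^ 3 = 1 := by rw [mul_pow, ← map_pow, hc3, map_one, mul_one]
    linear_combination -((c : F) * K.σ c) * h2' + h3'
  obtain ⟨S, hSu, hSu', hSi⟩ := fr.exists_tor1 hc0
  have hσc : K.σ (c : F) = (c : F)⁻¹ := eq_inv_of_mul_eq_one_right hnc
  have hS : ∀ y, ap (S : GL (Fin 3) F) y = (c : F) • y := fun y => by
    obtain ⟨a, w, hy⟩ := fr.decomp3 y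
    generalize K.fm 3 y fr.u = b at hy
    have hi : ap (S : GL (Fin 3) F) (inc fun _ : Fin 1 => (1 : F)) = (c : F) • inc fun _ => (1 : F) := by
      rw [hSi, inc_smul]
      congr 1
      rw [hσc]; field_simp; linear_combination -hc3
    rw [hy, ap_add, ap_add, ap_smul, ap_smul, ap_smul, hSu, hSu', hσc, inv_inv, hi]
    module
  have hScomm : ∀ g : K.G 3, S * g = g * S := fun g => K.g_ext fun y => by
    rw [Subgroup.coe_mul, Subgroup.coe_mul, ap_mul, ap_mul, hS, hS, ap_smul]
  have hSo : orderOf S = 3 := by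
    refine orderOf_eq_prime (hp := ⟨Nat.prime_three⟩) (K.g_ext fun y => ?_) fun h => hc1 ?_
    · rw [Subgroup.coe_one, ap_one, pow_succ, pow_succ, pow_one, Subgroup.coe_mul, Subgroup.coe_mul,
        ap_mul, ap_mul, hS, hS, hS, smul_smul, smul_smul, show (c : F) * c * c = 1 by
          linear_combination hc3, one_smul]
    · refine Units.ext (smul_left_injective F fr.u_ne ?_)
      show (c : F) • fr.u = ((1 : Fˣ) : F) • fr.u
      rw [← hSu, h, Subgroup.coe_one, ap_one, Units.val_one, one_smul]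
  have hSz : S • z = z := by
    obtain ⟨⟨b, hb⟩, hbz, hbv⟩ := hcJ
    have hbz' : b • z = z := hbz
    set r := b * S⁻¹ with hr'
    have hr : r ∈ fr.U := fr.mem_U_of_fix (by
      rw [Subgroup.coe_mul, ap_mul]
      have : ap ((S⁻¹ : K.G 3) : GL (Fin 3) F) fr.u = (c : F)⁻¹ • fr.u := by
        rw [Subgroup.coe_inv, eq_inv_smul_iff₀ hc0, ← ap_smul, ← hSu, ap_inv_ap]
      rw [this, ap_smul, fr.lineVal_spec ⟨b, hb⟩, hbv, inv_smul_smul₀ hc0])
    have hr3 : r ^ 3 • z = z := by
      have e : r ^ 3 = b ^ 3 := by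
        rw [hr', (show Commute b S⁻¹ from (show Commute S b from hScomm b).symm.inv_right).mul_pow,
          inv_pow, ← hSo, pow_orderOf_eq_one, inv_one, mul_one]
      rw [e, pow_succ, pow_succ, pow_one, mul_smul, mul_smul, hbz', hbz', hbz']
    have hrr : r ^ 1331 = 1 := by
      have h := congrArg Subtype.val (pow_card_eq_one' (x := (⟨r, hr⟩ : fr.U)))
      rw [fr.card_U] at h
      simpa using h
    have hrz : r • z = z := by
      have e : r = (r ^ 3) ^ 444 := by
        rw [← pow_mul, show 3 * 444 = 1331 + 1 from rfl, pow_succ, hrr, one_mul]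
      rw [e]
      exact mem_stabilizer_iff.1 (pow_mem (mem_stabilizer_iff.2 hr3) 444)
    calc S • z = (r⁻¹ * b) • z := by
          rw [hr', mul_inv_rev, inv_inv, mul_assoc, inv_mul_cancel, mul_one]
      _ = z := by rw [mul_smul, hbz', inv_smul_eq_iff, hrz]
  -- the normaliser of a Sylow subgroup for 37
  have := Fact.mk (show Nat.Prime 37 by norm_num)
  obtain ⟨n, hn, hnmod, hnodd, hncard⟩ := fr.sylow_count_even (r := 37) (by norm_num)
    (by decide) H hHcard (by norm_num) (by norm_num)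
  have hn3960 : n = 3960 := by
    have h1 : n ∣ 11880 := by
      refine Nat.Coprime.dvd_of_dvd_mul_right (?_ : Nat.Coprime n 37) (show n ∣ 11880 * 37 from hn)
      rw [Nat.coprime_comm, Nat.Prime.coprime_iff_not_dvd (by norm_num)]
      omega
    obtain ⟨k, rfl⟩ : ∃ k, n = 37 * k + 1 := ⟨n / 37, by omega⟩
    have h2' := Nat.le_of_dvd (by norm_num) h1
    have key : ∀ k < 322, 37 * k + 1 ∣ 11880 → ¬ 2 ∣ 439560 / (37 * k + 1) → k = 107 := by
      decide +kernel
    rw [key k (by omega) h1 hnodd]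
  obtain ⟨P⟩ : Nonempty (Sylow 37 H) := inferInstance
  have hP := sylow_card_prime (H := H) (r := 37) (by rw [hHcard]; norm_num)
    (by rw [hHcard]; norm_num) P
  set N := Subgroup.normalizer ((P : Subgroup H) : Set H) with hNdef
  have hNcard : Nat.card N = 111 := by
    have h := N.card_mul_index
    have h' := P.card_eq_index_normalizer
    rw [hncard, hn3960] at h'
    rw [show N.index = 3960 from h'.symm, hHcard] at h
    omega
  obtain ⟨g, hg⟩ := exists_prime_orderOf_dvd_card' 37 (dvd_of_eq hP.symm)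
  have hgP : Subgroup.zpowers (g : H) = (P : Subgroup H) := by
    refine Subgroup.eq_of_le_of_card_ge (by rw [Subgroup.zpowers_le]; exact g.2) ?_
    rw [Nat.card_zpowers, Subgroup.orderOf_coe, hg, hP]
  set S' : H := ⟨S, hSz⟩
  have hS'c : ∀ x : H, Commute S' x := fun x => Subtype.ext (hScomm x)
  have hS'o : orderOf S' = 3 := by rw [← Subgroup.orderOf_coe]; exact hSo
  have hS'N : S' ∈ N := Subgroup.mem_normalizer_iff.2 fun x => by
    rw [(hS'c x).eq, mul_inv_cancel_right]
  set w := (g : H) * S'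
  have hwo : orderOf w = 111 := by
    rw [Commute.orderOf_mul_eq_mul_orderOf_of_coprime (hS'c _).symm, Subgroup.orderOf_coe, hg, hS'o]
    rw [Subgroup.orderOf_coe, hg, hS'o]; norm_num
  have hNw : Subgroup.zpowers w = N := by
    refine Subgroup.eq_of_le_of_card_ge (Subgroup.zpowers_le.2 (mul_mem
      (Subgroup.le_normalizer g.2) hS'N)) ?_
    rw [Nat.card_zpowers, hwo, hNcard]
  have hcent : N ≤ Subgroup.centralizer ((P : Subgroup H) : Set H) := fun x hx y hy => by
    have hy' : y ∈ N := Subgroup.le_normalizer hy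
    rw [← hNw, Subgroup.mem_zpowers_iff] at hx hy'
    obtain ⟨i, rfl⟩ := hx
    obtain ⟨k, rfl⟩ := hy'
    exact (Commute.zpow_zpow_self w k i).eq
  set Kn := (MonoidHom.transferSylow P hcent).ker
  have hKn : Nat.card Kn = 11880 := by
    have h : Nat.card Kn * Nat.card (P : Subgroup H) = Nat.card H :=
      (MonoidHom.ker_transferSylow_isComplement' P hcent).card_mul_card
    rw [hP, hHcard] at h
    omega
  -- the elements of order eleven
  have := Fact.mk (show Nat.Prime 11 by norm_num)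
  have h11 : ∀ x : H, x ^ 11 = 1 → x ∈ Kn := fun x hx => by
    rw [MonoidHom.mem_ker]
    set y := MonoidHom.transferSylow P hcent x
    have h1 : y ^ 11 = 1 := by rw [← map_pow, hx, map_one]
    have h2' : y ^ 37 = 1 := by
      have h := pow_card_eq_one' (x := y)
      rwa [hP] at h
    have h3' := orderOf_dvd_of_pow_eq_one h1
    have h4 := orderOf_dvd_of_pow_eq_one h2'
    exact orderOf_eq_one_iff.1 (Nat.dvd_one.1 (show orderOf y ∣ Nat.gcd 11 37 from Nat.dvd_gcd h3' h4))
  -- the normaliser of a root element lies in the line stabiliser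
  obtain ⟨⟨r0, hr0U, hr0z⟩, hr01⟩ : ∃ x : fr.us z, x ≠ 1 := by
    have h : 1 < Nat.card (fr.us z) := by
      rw [fr.card_us, hA, hC, AddSubgroup.card_bot]; norm_num
    have := (Finite.one_lt_card_iff_nontrivial).1 h
    exact exists_ne 1
  have hr01' : r0 ≠ 1 := fun h => hr01 (Subtype.ext h)
  set x0 : H := ⟨r0, hr0z⟩
  have hQcard := sylow_card_prime (H := H) (r := 11) (by rw [hHcard]; norm_num)
    (by rw [hHcard]; norm_num)
  have hx0o : orderOf x0 = 11 := by
    rw [← Subgroup.orderOf_coe]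
    have h := orderOf_dvd_natCard (⟨r0, hr0U, hr0z⟩ : fr.us z)
    rw [← Subgroup.orderOf_coe, fr.card_us, hA, hC, AddSubgroup.card_bot, mul_one] at h
    exact ((Nat.dvd_prime (by norm_num)).1 h).resolve_left fun e => hr01' (orderOf_eq_one_iff.1 e)
  obtain ⟨Q, hQ⟩ := (IsPGroup.of_card (G := Subgroup.zpowers x0) (n := 1)
    (by rw [Nat.card_zpowers, hx0o, pow_one])).exists_le_sylow
  have hQ' : Subgroup.zpowers x0 = (Q : Subgroup H) :=
    Subgroup.eq_of_le_of_card_ge hQ (by rw [hQcard, Nat.card_zpowers, hx0o])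
  set L := Subgroup.subgroupOf fr.line H
  have hLN : Subgroup.normalizer ((Q : Subgroup H) : Set H) ≤ L := fun x hx => by
    have h1 : x * x0 * x⁻¹ ∈ (Q : Subgroup H) :=
      (Subgroup.mem_normalizer_iff.1 hx _).1 (hQ'.le (Subgroup.mem_zpowers _))
    obtain ⟨i, hi⟩ := Subgroup.mem_zpowers_iff.1 (hQ'.ge h1)
    have hi' : r0 ^ i = (x : K.G 3) * r0 * (x : K.G 3)⁻¹ := by
      simpa [x0] using congrArg Subtype.val hi
    have hne : r0 ^ i ≠ 1 := by
      rw [hi']; intro h; exact hr01' (by simpa using conj_eq_one_iff.1 h)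
    obtain ⟨a, ha⟩ := fr.fixed_by_root (Subgroup.zpow_mem fr.U hr0U i) hne
      (y := ap ((x : K.G 3) : GL (Fin 3) F) fr.u) (by rw [K.fm_ap]; exact fr.hu)
      (by rw [hi', Subgroup.coe_mul, Subgroup.coe_mul, ap_mul, ap_mul, Subgroup.coe_inv, ap_inv_ap,
        fr.ap_U_u hr0U])
    exact Subgroup.mem_subgroupOf.2 ⟨a, ha⟩
  have hLcard : Nat.card L = 330 := by
    have : IsPretransitive fr.line Ω := ⟨fun x y => by
      obtain ⟨b, hb, e⟩ := fr.line_transitive hN x y
      exact ⟨⟨b, hb⟩, e⟩⟩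
    have h1 := (stabilizer fr.line z).card_mul_index
    rw [MulAction.index_stabilizer_of_transitive, fr.card_line] at h1
    have h3 := fr.count3 hN z
    rw [hA, hC, AddSubgroup.card_bot, hj30] at h3
    have e : Nat.card L = Nat.card (stabilizer fr.line z) := Nat.card_congr
      { toFun := fun x => ⟨⟨x.1.1, x.2⟩, x.1.2⟩
        invFun := fun x => ⟨⟨x.1.1, x.2⟩, x.1.2⟩
        left_inv := fun _ => rfl
        right_inv := fun _ => rfl }
    rw [← e] at h1
    have hd : 0 < Nat.card Ω := @Finite.card_pos _ _ ⟨z⟩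
    refine Nat.eq_of_mul_eq_mul_right hd (h1.trans ?_)
    rw [← h3]; ring
  have hn11 : 1332 ≤ Nat.card (Sylow 11 H) := by
    set N' := Subgroup.normalizer ((Q : Subgroup H) : Set H) with hN'
    rw [show Nat.card (Sylow 11 H) = N'.index from Q.card_eq_index_normalizer]
    have h1 := N'.card_mul_index
    have h3 := Subgroup.card_le_of_le hLN
    rw [hLcard] at h3
    rw [hHcard] at h1
    by_contra hlt
    push Not at hlt
    have := Nat.mul_le_mul h3 (Nat.le_sub_one_of_lt hlt)
    omega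
  have hbig : Nat.card (Sylow 11 H) * 10 ≤ Nat.card Kn := by
    have := Fintype.ofFinite (Sylow 11 H)
    have e : Nat.card (Σ R : Sylow 11 H, {x : (R : Subgroup H) // x ≠ 1}) = Nat.card (Sylow 11 H) * 10 := by
      rw [Nat.card_sigma, Finset.sum_const_nat (m := 10) fun R _ => ?_, Finset.card_univ,
        ← Nat.card_eq_fintype_card]
      have := Fintype.ofFinite (R : Subgroup H)
      rw [Nat.card_eq_fintype_card, Fintype.card_subtype_compl, Fintype.card_subtype_eq,
        ← Nat.card_eq_fintype_card, hQcard]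
    rw [← e]
    refine Nat.card_le_card_of_injective (fun p => (⟨(p.2.1 : H), h11 _ (by
      have h := congrArg Subtype.val (pow_card_eq_one' (x := p.2.1))
      rw [hQcard] at h
      exact h)⟩ : Kn)) ?_
    rintro ⟨R, x, hx⟩ ⟨R', y, hy⟩ e'
    have e'' : (x : H) = (y : H) := congrArg Subtype.val e'
    have hgen : ∀ (T : Sylow 11 H) (a : (T : Subgroup H)), a ≠ 1 →
        Subgroup.zpowers (a : H) = (T : Subgroup H) := fun T a ha => by
      refine Subgroup.eq_of_le_of_card_ge (Subgroup.zpowers_le.2 a.2) ?_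
      have h := orderOf_dvd_natCard a
      rw [hQcard T] at h
      rw [Nat.card_zpowers, Subgroup.orderOf_coe,
        ((Nat.dvd_prime (by norm_num)).1 h).resolve_left fun h => ha (orderOf_eq_one_iff.1 h), hQcard]
    obtain rfl : R = R' := Sylow.ext ((hgen R x hx).symm.trans (e'' ▸ hgen R' y hy))
    obtain rfl : x = y := Subtype.ext e''
    rfl
  omega

/-- No small action. -/
theorem no_small_three (hq : 3 ≤ q) (h5 : q ≠ 5) (h1 : 1 < Nat.card Ω)
    (hΩ : Nat.card Ω < q ^ 3 + 1) : False := by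
  classical
  obtain ⟨z⟩ : Nonempty Ω := (Nat.card_pos_iff.1 (by omega)).1
  by_cases hreg : ∃ y : Ω, fr.ab y = ⊥ ∧ fr.cz y = ⊥
  · obtain ⟨y, hA, hC⟩ := hreg
    rcases eq_or_lt_of_le hq with h3 | h4
    · -- three
      have hd := (fr.regular hΩ hA hC).1
      subst h3
      have hcard : Nat.card (stabilizer (K.G 3) z) = 224 := by
        have h := (stabilizer (K.G 3) z).card_mul_index
        rw [MulAction.index_stabilizer_of_transitive, K.card_G_three, hd] at h
        omega
      have := Fact.mk (show Nat.Prime 7 by norm_num)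
      obtain ⟨n, hn, hnmod, hnodd, -⟩ := fr.sylow_count_even (r := 7) (by norm_num)
        (by decide) _ hcard (by norm_num) (by norm_num)
      have h2 := Nat.le_of_dvd (by norm_num) hn
      obtain ⟨k, rfl⟩ : ∃ k, n = 7 * k + 1 := ⟨n / 7, by omega⟩
      have key : ∀ k < 32, 7 * k + 1 ∣ 224 → ¬ 2 ∣ 224 / (7 * k + 1) → False := by decide +kernel
      exact key k (by omega) hn hnodd
    · exact fr.regular_false h4 h5 hΩ hA hC
  · push Not at hreg
    have hN : ∀ y : Ω, ¬(fr.ab y = ⊥ ∧ fr.cz y = ⊥) := fun y h => hreg y h.1 h.2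
    rcases fr.param_cases hq h5 h1 hΩ hN z with ⟨hC, hA, -, h2, -, -, hj⟩ | ⟨h8, hcard⟩
    · by_cases h11 : q = 11
      · exact fr.eleven_false h11 h2 hN hC hA hj
      · exact fr.line_false3 hq h5 h11 h1 hΩ hN hC h2 hA
    · have := Fact.mk (show Nat.Prime 19 by norm_num)
      obtain ⟨n, hn, hnmod, hnodd, -⟩ := fr.sylow_count_even (r := 19) (by norm_num)
        (by rw [h8]; decide) _ hcard (by norm_num) (by norm_num)
      have h1' : n ∣ 1944 := by
        refine Nat.Coprime.dvd_of_dvd_mul_right (?_ : Nat.Coprime n 19) (show n ∣ 1944 * 19 from hn)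
        rw [Nat.coprime_comm, Nat.Prime.coprime_iff_not_dvd (by norm_num)]
        omega
      have h2' := Nat.le_of_dvd (by norm_num) h1'
      obtain ⟨k, rfl⟩ : ∃ k, n = 19 * k + 1 := ⟨n / 19, by omega⟩
      have key : ∀ k < 103, 19 * k + 1 ∣ 1944 → ¬ 2 ∣ 36936 / (19 * k + 1) → False := by
        decide +kernel
      exact key k (by omega) h1' hnodd

end Frame

namespace UC

variable (K)

include K in
/-- The minimal index in dimension three, and a subgroup attaining it. -/
theorem min_index_psu_three (hq : 3 ≤ q) (h5 : q ≠ 5) :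
    (∀ H : Subgroup (Cfsg.PSU 3 F q), H ≠ ⊤ → q ^ 3 + 1 ≤ H.index) ∧
      ∃ H : Subgroup (Cfsg.PSU 3 F q), H.index = q ^ 3 + 1 := by
  obtain ⟨fr⟩ := exists_frame K 1
  let e : Cfsg.SU 3 F q ≃* K.G 3 := suEquivIsomSL (n := 3) K.ζ_ne
  let π : K.G 3 →* Cfsg.PSU 3 F q :=
    (QuotientGroup.mk' (Subgroup.center (Cfsg.SU 3 F q))).comp e.symm.toMonoidHom
  have hπ : Function.Surjective π := (QuotientGroup.mk'_surjective _).comp e.symm.surjective
  refine ⟨fun H hH => ?_, ⟨fr.line.map π, ?_⟩⟩
  · rw [← Subgroup.index_comap_of_surjective H hπ]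
    by_contra h
    push Not at h
    have h1 : 1 < (H.comap π).index := Subgroup.one_lt_index_of_ne_top fun h => hH (by
      rw [eq_top_iff]
      intro x _
      obtain ⟨g, rfl⟩ := hπ x
      exact (h.ge trivial : g ∈ H.comap π))
    exact fr.no_small_three (Ω := K.G 3 ⧸ H.comap π) hq h5 h1 h
  · rw [← Subgroup.index_comap_of_surjective _ hπ, Subgroup.comap_map_eq, sup_eq_left.2,
      fr.index_line le_rfl, K.pts_three]
    intro g hg
    refine fr.center_le_line (Subgroup.mem_center_iff.2 fun h => ?_)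
    have h1 : e.symm g ∈ Subgroup.center (Cfsg.SU 3 F q) := (QuotientGroup.eq_one_iff _).1 hg
    apply e.symm.injective
    rw [map_mul, map_mul]
    exact Subgroup.mem_center_iff.1 h1 _

end UC

end CfsgLib.MinIndexUnit
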