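import Cfsg.Agent.Lib.MinIndex.Unit.ThreeLine

/-!
Sylow arguments for the small fields.
-/

set_option autoImplicit false
set_option linter.unusedSectionVars false
set_option maxHeartbeats 1000000

namespace CfsgLib.MinIndexUnit

open CfsgLib.Geometric CfsgLib.Geometric.Unitary CfsgLib.ClassicalForms MulAction

variable {F : Type*} [Field F] [Finite F] {q : ℕ} {K : UC F q}

/-- Sylow subgroups of prime order. -/
lemma sylow_card_prime {H : Type*} [Group H] [Finite H] {r : ℕ} [Fact r.Prime]
    (hr : r ∣ Nat.card H) (hr2 : ¬ r ^ 2 ∣ Nat.card H) (P : Sylow r H) :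
    Nat.card (P : Subgroup H) = r := by
  obtain ⟨k, hk⟩ := IsPGroup.iff_card.1 P.2
  have h : r ^ k ∣ Nat.card H := hk ▸ Subgroup.card_subgroup_dvd_card _
  have h0 : k ≠ 0 := fun e => P.ne_bot_of_dvd_card hr (Subgroup.card_eq_one.1 (by rw [hk, e, pow_zero]))
  have h2 : k < 2 := by
    by_contra h2
    exact hr2 ((pow_dvd_pow r (not_lt.1 h2)).trans h)
  rw [hk, show k = 1 by omega, pow_one]

/-- The negated vectors of an involution and the image complementary to them. -/
lemma invol_struct {t : K.G 3} (ht : t * t = 1) (ht1 : t ≠ 1) :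
    2 ≤ Module.finrank F (LinearMap.ker
      ((apEquiv (t : GL (Fin 3) F) : (Fin 3 → F) →ₗ[F] (Fin 3 → F)) + LinearMap.id)) ∧
    ∃ e : Fin 3 → F, e ≠ 0 ∧ ∀ g : K.G 3, g * t = t * g →
      ∃ c : F, ap (g : GL (Fin 3) F) e = c • e := by
  classical
  set L := (apEquiv (t : GL (Fin 3) F) : (Fin 3 → F) →ₗ[F] (Fin 3 → F)) with hL
  have hLy : ∀ y, L y = ap (t : GL (Fin 3) F) y := fun _ => rfl
  have htt : ∀ y, ap (t : GL (Fin 3) F) (ap (t : GL (Fin 3) F) y) = y := fun y => by
    rw [← ap_mul, ← Subgroup.coe_mul, ht, Subgroup.coe_one, ap_one]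
  set A := L + LinearMap.id with hA
  set B := L - LinearMap.id with hB
  have hBA : LinearMap.range B ≤ LinearMap.ker A := by
    rintro _ ⟨y, rfl⟩
    show ap _ (ap _ y - y) + (ap _ y - y) = 0
    rw [← hLy (ap _ y - y), map_sub, hLy, hLy, htt]
    abel
  have h3 : Module.finrank F (Fin 3 → F) = 3 := Module.finrank_fin_fun F
  have hdim : 2 ≤ Module.finrank F (LinearMap.ker A) := by
    by_contra hlt
    push Not at hlt
    have hB1 : Module.finrank F (LinearMap.range B) ≤ 1 := (Submodule.finrank_mono hBA).trans (by omega)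
    by_cases h2 : (2 : F) = 0
    · have hAB : A = B := LinearMap.ext fun y => by
        funext i
        show L y i + y i = L y i - y i
        linear_combination y i * h2
      have := LinearMap.finrank_range_add_finrank_ker B
      rw [hAB] at hlt
      omega
    · obtain ⟨y0, hy0⟩ : ∃ y, B y ≠ 0 := by
        by_contra h
        push Not at h
        exact ht1 (K.g_ext fun y => by
          rw [Subgroup.coe_one, ap_one]; exact sub_eq_zero.1 (show L y - y = 0 from h y))
      set e := B y0 with he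
      have he0 : e ∈ LinearMap.ker A := hBA ⟨y0, rfl⟩
      have hspan : ∀ y, ∃ c : F, B y = c • e := fun y => by
        have h1 : Module.finrank F (LinearMap.ker A) = 1 := le_antisymm (by omega)
          (Submodule.one_le_finrank_iff.2 fun h => hy0 ((Submodule.eq_bot_iff _).1 h _ he0))
        obtain ⟨c, hc⟩ := exists_smul_eq_of_finrank_eq_one h1 (x := (⟨e, he0⟩ : LinearMap.ker A))
          (fun h => hy0 (congrArg Subtype.val h)) ⟨B y, hBA ⟨y, rfl⟩⟩
        exact ⟨c, (congrArg Subtype.val hc).symm⟩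
      choose a ha using hspan
      have hadd : ∀ x y, a (x + y) = a x + a y := fun x y => smul_left_injective F hy0
        (show a (x + y) • e = (a x + a y) • e by rw [← ha, map_add, ha, ha, add_smul])
      have hsm : ∀ (c : F) x, a (c • x) = c * a x := fun c x => smul_left_injective F hy0
        (show a (c • x) • e = (c * a x) • e by rw [← ha, map_smul, ha, smul_smul])
      let φ : (Fin 3 → F) →ₗ[F] F := { toFun := a, map_add' := hadd, map_smul' := hsm }
      have hdet := det_of_ap (t : GL (Fin 3) F) e φ fun y => by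
        show ap _ y = y + a y • e
        rw [← ha]; show ap _ y = y + (L y - y)
        rw [hLy]; abel
      rw [(mem_specialLinear_iff _).1 t.2.2] at hdet
      have hae : a e = -2 := by
        refine smul_left_injective F hy0 ?_
        show a e • e = (-2 : F) • e
        rw [← ha]
        have h : L e + e = 0 := he0
        show L e - e = _
        rw [eq_neg_of_add_eq_zero_left h]; module
      rw [show φ e = a e from rfl, hae] at hdet
      exact h2 (by linear_combination hdet)
  refine ⟨hdim, ?_⟩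
  obtain ⟨y0, hy0⟩ : ∃ y, A y ≠ 0 := by
    by_contra h
    push Not at h
    have hm : ((t : GL (Fin 3) F) : Matrix (Fin 3) (Fin 3) F) = -1 := Matrix.ext_of_mulVec_single
      fun i => by rw [Matrix.neg_mulVec, Matrix.one_mulVec]; exact eq_neg_of_add_eq_zero_left (h _)
    have hdet := (mem_specialLinear_iff _).1 t.2.2
    rw [hm, Matrix.det_neg, Matrix.det_one, Fintype.card_fin] at hdet
    have h2 : (2 : F) = 0 := by linear_combination -hdet
    refine ht1 (K.g_ext fun y => ?_)
    rw [Subgroup.coe_one, ap_one, ← hLy, eq_neg_of_add_eq_zero_left (show L y + y = 0 from h y)]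
    funext i
    show -y i = y i
    linear_combination -y i * h2
  refine ⟨A y0, hy0, fun g hg => ?_⟩
  have hA1 : Module.finrank F (LinearMap.range A) ≤ 1 := by
    have := LinearMap.finrank_range_add_finrank_ker A
    omega
  have hmem : ap (g : GL (Fin 3) F) (A y0) ∈ LinearMap.range A := ⟨ap (g : GL (Fin 3) F) y0, by
    show ap _ (ap _ y0) + ap _ y0 = ap _ (ap _ y0 + y0)
    rw [ap_add, ← ap_mul, ← ap_mul, ← Subgroup.coe_mul, ← hg, Subgroup.coe_mul]⟩
  have hA1' : Module.finrank F (LinearMap.range A) = 1 := le_antisymm hA1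
    (Submodule.one_le_finrank_iff.2 fun h => hy0 ((Submodule.eq_bot_iff _).1 h _ ⟨y0, rfl⟩))
  obtain ⟨c, hc⟩ := exists_smul_eq_of_finrank_eq_one hA1'
    (x := (⟨A y0, y0, rfl⟩ : LinearMap.range A)) (fun h => hy0 (congrArg Subtype.val h)) ⟨_, hmem⟩
  exact ⟨c, (congrArg Subtype.val hc).symm⟩

namespace Frame

variable (fr : Frame K 1)
include fr

/-- An element of prime order foreign to the small stabilisers fixes no vector. -/
lemma no_fix_of_prime {r : ℕ} (hr : r.Prime) (hrq : ¬ r ∣ q * (q ^ 2 - 1)) {g : K.G 3}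
    (hg : orderOf g = r) {v : Fin 3 → F} (hv : v ≠ 0) (hgv : ap (g : GL (Fin 3) F) v = v) : False := by
  classical
  by_cases hvv : K.fm 3 v v = 0
  · obtain ⟨h, hh⟩ := K.exists_move_iso le_rfl fr.hu hvv fr.u_ne hv
    have hU : h⁻¹ * g * h ∈ fr.U := fr.mem_U_of_fix (by
      rw [Subgroup.coe_mul, Subgroup.coe_mul, ap_mul, ap_mul, hh, hgv, ← hh, Subgroup.coe_inv,
        ap_inv_ap])
    have ho : orderOf (h⁻¹ * g * h) = r := by
      rw [← hg, show h⁻¹ * g * h = MulAut.conj h⁻¹ g by simp]
      exact orderOf_injective (MulAut.conj h⁻¹).toMonoidHom (MulAut.conj h⁻¹).injective g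
    have h2 := orderOf_dvd_natCard (⟨_, hU⟩ : fr.U)
    rw [← orderOf_injective fr.U.subtype Subtype.val_injective, show fr.U.subtype ⟨_, hU⟩
      = h⁻¹ * g * h from rfl, ho, fr.card_U] at h2
    exact hrq ((hr.dvd_of_dvd_pow h2).mul_right _)
  · let S : Subgroup (K.G 3) :=
      { carrier := {g | ap (g : GL (Fin 3) F) v = v}
        one_mem' := by simp [ap_one]
        mul_mem' := fun {a b} ha hb => by
          show ap ((a * b : K.G 3) : GL (Fin 3) F) v = v
          rw [Subgroup.coe_mul, ap_mul, show ap (b : GL (Fin 3) F) v = v from hb,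
            show ap (a : GL (Fin 3) F) v = v from ha]
        inv_mem' := fun {a} ha => by
          show ap ((a⁻¹ : K.G 3) : GL (Fin 3) F) v = v
          conv_lhs => rw [← show ap (a : GL (Fin 3) F) v = v from ha]
          rw [Subgroup.coe_inv, ap_inv_ap] }
    have h2 := orderOf_dvd_natCard (⟨g, hgv⟩ : S)
    rw [← orderOf_injective S.subtype Subtype.val_injective, show S.subtype ⟨g, hgv⟩ = g from rfl,
      hg, show Nat.card S = q * (q ^ 2 - 1) from K.card_stab_aniso hvv] at h2
    exact hrq h2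

/-- No involution normalises a subgroup of such prime order. -/
lemma no_invol_normal {r : ℕ} (hr : r.Prime) (hr2 : r ≠ 2) (hrq : ¬ r ∣ q * (q ^ 2 - 1))
    {t g : K.G 3} (ht : t * t = 1) (ht1 : t ≠ 1) (hg : orderOf g = r)
    (hn : t * g * t⁻¹ ∈ Subgroup.zpowers g) : False := by
  classical
  have htinv : t⁻¹ = t := inv_eq_of_mul_eq_one_right ht
  rw [htinv] at hn
  have hcomm : Commute g (t * g * t) := by
    obtain ⟨n, hn⟩ := Subgroup.mem_zpowers_iff.1 hn
    rw [← hn]; exact (Commute.refl g).zpow_right n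
  set a := g * (t * g * t) with ha
  set b := g * (t * g * t)⁻¹ with hb
  have hord : ∀ x ∈ Subgroup.zpowers g, x ≠ 1 → orderOf x = r := fun x hx hx1 => by
    refine orderOf_eq_prime (hp := ⟨hr⟩) ?_ hx1
    obtain ⟨n, rfl⟩ := Subgroup.mem_zpowers_iff.1 hx
    rw [← zpow_natCast, ← zpow_mul, mul_comm, zpow_mul, zpow_natCast,
      show g ^ r = 1 by rw [← hg]; exact pow_orderOf_eq_one g, one_zpow]
  have htat : t * a * t = a := by
    calc t * (g * (t * g * t)) * t = t * g * t * g * (t * t) := by group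
      _ = g * (t * g * t) := by rw [ht, mul_one, hcomm.eq]
  by_cases ha1 : a = 1
  · -- inverted
    have hinv : t * g * t = g⁻¹ := eq_inv_of_mul_eq_one_right ha1
    have hx1 : t * g ≠ 1 := fun h => by
      have h' : g = t := by rw [← htinv]; exact eq_inv_of_mul_eq_one_right h
      have := orderOf_eq_prime (hp := ⟨Nat.prime_two⟩) (show t ^ 2 = 1 by rw [pow_two, ht]) ht1
      rw [← h', hg] at this
      exact hr2 this
    have hxx : t * g * (t * g) = 1 := by rw [← mul_assoc, hinv, inv_mul_cancel]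
    obtain ⟨d1, -⟩ := invol_struct ht ht1
    obtain ⟨d2, -⟩ := invol_struct hxx hx1
    set N1 := LinearMap.ker ((apEquiv (t : GL (Fin 3) F) : (Fin 3 → F) →ₗ[F] (Fin 3 → F)) + LinearMap.id)
    set N2 := LinearMap.ker ((apEquiv ((t * g : K.G 3) : GL (Fin 3) F) : (Fin 3 → F) →ₗ[F] (Fin 3 → F))
      + LinearMap.id)
    obtain ⟨v, hv, hv0⟩ : ∃ v ∈ N1 ⊓ N2, v ≠ 0 := Submodule.exists_mem_ne_zero_of_ne_bot fun h => by
      have e := Submodule.finrank_sup_add_finrank_inf_eq N1 N2
      rw [h, finrank_bot] at e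
      have := Submodule.finrank_le (N1 ⊔ N2)
      rw [Module.finrank_fin_fun] at this
      omega
    refine fr.no_fix_of_prime hr hrq hg hv0 ?_
    have h1 : ap (t : GL (Fin 3) F) v + v = 0 := hv.1
    have h2 : ap ((t * g : K.G 3) : GL (Fin 3) F) v + v = 0 := hv.2
    rw [Subgroup.coe_mul, ap_mul] at h2
    exact ap_injective _ (add_right_cancel (h2.trans h1.symm))
  · -- centralised
    have hcom : a * t = t * a := by
      conv_lhs => rw [← htat]
      rw [mul_assoc, ht, mul_one]
    obtain ⟨-, e, he, hec⟩ := invol_struct ht ht1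
    obtain ⟨c, hc⟩ := hec a hcom
    have hoa : orderOf a = r := hord a (mul_mem (Subgroup.mem_zpowers g) hn) ha1
    have hc0 : c ≠ 0 := fun h => ap_ne_zero (a : GL (Fin 3) F) he (by rw [hc, h, zero_smul])
    have := Fintype.ofFinite F
    have hpow : ∀ i : ℕ, ap ((a ^ i : K.G 3) : GL (Fin 3) F) e = c ^ i • e := fun i => by
      induction i with
      | zero => rw [pow_zero, Subgroup.coe_one, ap_one, pow_zero, one_smul]
      | succ i ih => rw [pow_succ', Subgroup.coe_mul, ap_mul, ih, ap_smul, hc, smul_smul, pow_succ]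
    have hcr : c ^ r = 1 := smul_left_injective F he (by
      show c ^ r • e = (1 : F) • e
      rw [← hpow, one_smul, show a ^ r = 1 by rw [← hoa]; exact pow_orderOf_eq_one a,
        Subgroup.coe_one, ap_one])
    have hc1 : c = 1 := by
      by_contra hne
      have ho := orderOf_eq_prime (hp := ⟨hr⟩) hcr hne
      have h := orderOf_dvd_of_pow_eq_one (FiniteField.pow_card_sub_one_eq_one c hc0)
      rw [ho, ← Nat.card_eq_fintype_card, K.card_eq] at h
      exact hrq (h.mul_left _)
    rw [hc1, one_smul] at hc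
    exact fr.no_fix_of_prime hr hrq hoa he hc

/-- Normalisers of such Sylow subgroups have odd order. -/
theorem sylow_norm_odd {r : ℕ} [hrp : Fact r.Prime] (hr2 : r ≠ 2) (hrq : ¬ r ∣ q * (q ^ 2 - 1))
    (H : Subgroup (K.G 3)) (hr : r ∣ Nat.card H) (hrr : ¬ r ^ 2 ∣ Nat.card H) (P : Sylow r H) :
    ¬ 2 ∣ Nat.card (Subgroup.normalizer ((P : Subgroup H) : Set H)) := by
  intro h2
  have := Fact.mk Nat.prime_two
  obtain ⟨t, ht⟩ := exists_prime_orderOf_dvd_card' 2 h2
  have hP := sylow_card_prime hr hrr P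
  obtain ⟨g, hg⟩ := exists_prime_orderOf_dvd_card' r (dvd_of_eq hP.symm)
  have hog : orderOf ((g : H) : K.G 3) = r := by
    rw [Subgroup.orderOf_coe, Subgroup.orderOf_coe, hg]
  have hot : orderOf ((t : H) : K.G 3) = 2 := by
    rw [Subgroup.orderOf_coe, Subgroup.orderOf_coe, ht]
  have hgP : Subgroup.zpowers (g : H) = (P : Subgroup H) := by
    refine Subgroup.eq_of_le_of_card_ge (by rw [Subgroup.zpowers_le]; exact g.2) ?_
    rw [Nat.card_zpowers, Subgroup.orderOf_coe, hg, hP]
  have h1 : ((t : H) : K.G 3) * ((t : H) : K.G 3) = 1 := by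
    rw [← pow_two, ← hot]; exact pow_orderOf_eq_one _
  refine fr.no_invol_normal hrp.out hr2 hrq h1 (fun h => by rw [h, orderOf_one] at hot; omega) hog ?_
  have h3 : (t : H) * (g : H) * (t : H)⁻¹ ∈ (P : Subgroup H) :=
    (Subgroup.mem_normalizer_iff.1 t.2 _).1 g.2
  obtain ⟨n, hn⟩ := Subgroup.mem_zpowers_iff.1 (hgP.ge h3)
  exact Subgroup.mem_zpowers_iff.2 ⟨n, by simpa using congrArg Subtype.val hn⟩

/-- A stabiliser with only even possible normalisers cannot exist. -/
theorem sylow_count_even {r : ℕ} [hrp : Fact r.Prime] (hr2 : r ≠ 2) (hrq : ¬ r ∣ q * (q ^ 2 - 1))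
    (H : Subgroup (K.G 3)) {N : ℕ} (hH : Nat.card H = N) (hr : r ∣ N) (hrr : ¬ r ^ 2 ∣ N) :
    ∃ n, n ∣ N ∧ n % r = 1 ∧ ¬ 2 ∣ N / n ∧ Nat.card (Sylow r H) = n := by
  refine ⟨_, ?_, ?_, ?_, rfl⟩
  · obtain ⟨P⟩ : Nonempty (Sylow r H) := inferInstance
    rw [← hH, P.card_eq_index_normalizer]
    exact Subgroup.index_dvd_card _
  · have h := card_sylow_modEq_one r H
    rwa [Nat.ModEq, Nat.one_mod_eq_one.2 hrp.out.ne_one] at h
  · obtain ⟨P⟩ : Nonempty (Sylow r H) := inferInstance
    have h := fr.sylow_norm_odd hr2 hrq H (hH ▸ hr) (hH ▸ hrr) P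
    have e : Nat.card H / Nat.card (Sylow r H)
        = Nat.card (Subgroup.normalizer ((P : Subgroup H) : Set H)) := by
      rw [P.card_eq_index_normalizer]
      exact Nat.div_eq_of_eq_mul_left (Nat.pos_of_ne_zero Subgroup.index_ne_zero_of_finite)
        (Subgroup.normalizer ((P : Subgroup H) : Set H)).card_mul_index.symm
    rw [← hH, e]
    exact h

end Frame

end CfsgLib.MinIndexUnit
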