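import Cfsg.Agent.Lib.MinIndex.Unit.Root

/-!
Torus elements of a frame.
-/

set_option autoImplicit false
set_option linter.unusedSectionVars false

namespace CfsgLib.MinIndexUnit

open CfsgLib.Geometric CfsgLib.Geometric.Unitary CfsgLib.ClassicalForms

variable {F : Type*} [Field F] {q : ℕ} {K : UC F q}

namespace UC

variable (K)

lemma fm_emb {m : ℕ} {g : GL (Fin m) F}
    (hg : ∀ x y, K.fm m (ap g x) (ap g y) = K.fm m x y) (x y : Fin (m + 2) → F) :
    K.fm (m + 2) (ap (emb g) x) (ap (emb g) y) = K.fm (m + 2) x y := by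
  rw [← cons_tail2 x, ← cons_tail2 y, ap_emb, ap_emb, K.fm_cons, K.fm_cons, K.fm_cons, K.fm_cons,
    hg]

/-- A pseudo-reflection on the first coordinate with given eigenvalue. -/
theorem exists_scal {m : ℕ} (hm : 0 < m) {μ : F} (hμ : μ * K.σ μ = 1) :
    ∃ g : GL (Fin m) F, (∀ x y, K.fm m (ap g x) (ap g y) = K.fm m x y) ∧
      (g : Matrix (Fin m) (Fin m) F).det = μ ∧
      ∀ x, ap g x = x + ((μ - 1) * x ⟨0, hm⟩) • Pi.single ⟨0, hm⟩ 1 := by
  set e : Fin m → F := Pi.single ⟨0, hm⟩ 1 with he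
  set φ : (Fin m → F) →ₗ[F] F := (μ - 1) • LinearMap.proj (⟨0, hm⟩ : Fin m) with hφ
  have hφe : φ e = μ - 1 := by simp [hφ, he]
  have h0 : 1 + φ e ≠ 0 := by
    rw [hφe, add_sub_cancel]; exact left_ne_zero_of_mul_eq_one hμ
  have hap : ∀ x, ap (dil e φ h0) x = x + ((μ - 1) * x ⟨0, hm⟩) • e := fun x => by
    rw [ap_dil]; rfl
  refine ⟨dil e φ h0, fun x y => ?_, ?_, hap⟩
  · have hf := K.skewForm m
    have hx : ∀ z : Fin m → F, K.fm m z e = K.ζ * z ⟨0, hm⟩ := fun z => by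
      rw [UC.fm, he, K.conj.single_right]
    have hy : ∀ z : Fin m → F, K.fm m e z = K.ζ * K.σ (z ⟨0, hm⟩) := fun z => by
      rw [UC.fm, he, K.conj.single_left, K.σ_eq]
    simp only [hap, hf.add_left, add_right hf, hf.smul_left, smul_right hf, hx, hy, map_mul,
      map_sub, map_one, show (e ⟨0, hm⟩ : F) = 1 from by simp [he]]
    linear_combination (K.ζ * x ⟨0, hm⟩ * K.σ (y ⟨0, hm⟩)) * hμ
  · rw [det_of_ap _ e φ (fun x => ap_dil _ _ _ x), hφe, add_sub_cancel]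

end UC

namespace Frame

variable {m : ℕ} (fr : Frame K m)
include fr

lemma decomp (z : Fin (m + 2) → F) :
    ∃ a : F, z = a • fr.u + K.fm _ z fr.u • fr.u' + inc (tail2 z) := by
  have hf := K.skewForm (m + 2)
  obtain ⟨a, ha⟩ := fr.perp_eq (z - K.fm _ z fr.u • fr.u')
    (by rw [sub_left hf, hf.smul_left, fr.hpair, mul_one, sub_self])
  refine ⟨a, ?_⟩
  have ht : tail2 (z - K.fm _ z fr.u • fr.u') = tail2 z := by
    funext i
    have := congrFun fr.tail_u' i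
    simp [tail2] at this ⊢
    simp [this]
  rw [ht, sub_eq_iff_eq_add] at ha
  conv_lhs => rw [ha]
  abel

lemma pair' : K.fm _ fr.u fr.u' = -1 := by
  rw [(K.skewForm _).skew, fr.hpair, map_one]

/-- The torus element. -/
theorem exists_tor (hm : 0 < m) {c : F} (hc : c ≠ 0) :
    ∃ h : K.G (m + 2), ap (h : GL (Fin (m + 2)) F) fr.u = c • fr.u ∧
      ap (h : GL (Fin (m + 2)) F) fr.u' = (K.σ c)⁻¹ • fr.u' ∧
      ∀ w, ap (h : GL (Fin (m + 2)) F) (inc w)
        = inc (w + ((K.σ c / c - 1) * w ⟨0, hm⟩) • Pi.single ⟨0, hm⟩ 1) := by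
  have hf := K.skewForm (m + 2)
  have hσc : K.σ c ≠ 0 := (map_ne_zero_iff _ K.σ.injective).2 hc
  obtain ⟨g, hg, hgd, hga⟩ := K.exists_scal hm (μ := K.σ c / c) (by
    rw [map_div₀, K.invol]; field_simp)
  set d := (K.σ c)⁻¹ with hd
  set φ : (Fin (m + 2) → F) →ₗ[F] F := (-(c - 1)) • fl hf fr.u' with hφ
  set ψ : (Fin (m + 2) → F) →ₗ[F] F := (d - 1) • fl hf fr.u with hψ
  have hφu : φ fr.u = c - 1 := by simp [hφ, fr.pair']
  have hψu : ψ fr.u' = d - 1 := by simp [hψ, fr.hpair]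
  have h1 : 1 + φ fr.u ≠ 0 := by rw [hφu, add_sub_cancel]; exact hc
  have h2 : 1 + ψ fr.u' ≠ 0 := by rw [hψu, add_sub_cancel]; exact inv_ne_zero hσc
  set P := dil fr.u φ h1 * dil fr.u' ψ h2 with hP
  have hPu : ap P fr.u = c • fr.u := by
    rw [hP, ap_mul, ap_dil, ap_dil]
    simp only [hψ, hφ, LinearMap.smul_apply, fl_apply, smul_eq_mul, fr.hu, fr.pair']
    simp only [mul_zero, zero_smul, add_zero, fr.pair']
    module
  have hPu' : ap P fr.u' = d • fr.u' := by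
    rw [hP, ap_mul, ap_dil, ap_dil]
    simp only [hψ, hφ, LinearMap.smul_apply, fl_apply, smul_eq_mul, fr.hpair, hf.add_left,
      hf.smul_left, fr.hu']
    module
  have hPi : ∀ w, ap P (inc w) = inc w := fun w => by
    rw [hP, ap_mul, ap_dil, ap_dil]
    simp [hψ, hφ, fr.inc_u, fr.inc_u']
  have hPd : (P : Matrix (Fin (m + 2)) (Fin (m + 2)) F).det = c * d := by
    rw [hP, Units.val_mul, Matrix.det_mul, det_of_ap _ _ φ (fun x => ap_dil _ _ h1 x),
      det_of_ap _ _ ψ (fun x => ap_dil _ _ h2 x), hφu, hψu, add_sub_cancel, add_sub_cancel]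
  have huu : ∀ w, K.fm _ fr.u (inc w) = 0 := fun w => (eq_zero_comm hf).1 (fr.inc_u w)
  have hu'u : ∀ w, K.fm _ fr.u' (inc w) = 0 := fun w => (eq_zero_comm hf).1 (fr.inc_u' w)
  have hPiso : ∀ x y, K.fm _ (ap P x) (ap P y) = K.fm _ x y := fun x y => by
    obtain ⟨a, ha⟩ := fr.decomp x
    obtain ⟨b, hb⟩ := fr.decomp y
    generalize K.fm _ x fr.u = α at ha
    generalize K.fm _ y fr.u = β at hb
    rw [ha, hb]
    simp only [ap_add, ap_smul, hPu, hPu', hPi, hf.add_left, add_right hf, hf.smul_left,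
      smul_right hf, fr.hu, fr.hu', fr.hpair, fr.pair', fr.inc_u, fr.inc_u', huu, hu'u, map_mul,
      hd, map_inv₀, K.invol]
    field_simp
    ring
  refine ⟨⟨P * emb g, mem_isom_iff.2 fun x y => ?_, (mem_specialLinear_iff _).2 ?_⟩, ?_, ?_, ?_⟩
  · rw [ap_mul P, ap_mul P, hPiso, K.fm_emb hg]
  · rw [Units.val_mul, Matrix.det_mul, hPd, emb, det_ext1, det_ext1, hgd, hd]
    field_simp
  · show ap (P * emb g) fr.u = _
    rw [ap_mul P, fr.emb_u, hPu]
  · show ap (P * emb g) fr.u' = _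
    rw [ap_mul P, fr.emb_u', hPu']
  · intro w
    show ap (P * emb g) (inc w) = _
    rw [ap_mul P, ap_emb_inc, hPi, hga]

end Frame

end CfsgLib.MinIndexUnit
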