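import Cfsg.Agent.Lib.MinIndex.Unit.Pairing
import Cfsg.Agent.Lib.MinIndex.Unit.Incidence
import Cfsg.Agent.Lib.MinIndex.Unit.Arith
import Cfsg.Agent.Lib.MinIndex.Unit.Torus

/-!
Shared tools for orbits of subgroups of vectors.
-/

set_option autoImplicit false
set_option linter.unusedSectionVars false

namespace CfsgLib.MinIndexUnit

open CfsgLib.Geometric CfsgLib.Geometric.Unitary CfsgLib.ClassicalForms MulAction
open CfsgLib.MinIndexOrth (chi perpG card_mul_perpG)

variable {F : Type*} [Field F] [Finite F] {q : ℕ} (K : UC F q)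

namespace UC

lemma orb_mapSub_eq {m : ℕ} (g : K.G m) (A : AddSubgroup (Fin m → F)) :
    K.orb (K.mapSub g A) = K.orb A := by
  ext B
  constructor
  · rintro ⟨h, rfl⟩; exact ⟨h * g, K.mapSub_mul h g A⟩
  · rintro ⟨h, rfl⟩
    exact ⟨h * g⁻¹, by
      show K.mapSub (h * g⁻¹) (K.mapSub g A) = K.mapSub h A
      rw [← K.mapSub_mul, inv_mul_cancel_right]⟩

/-- A subgroup with trivial stabiliser gives a long orbit. -/
lemma card_le_orb {m : ℕ} (A : AddSubgroup (Fin m → F)) (S : Subgroup (K.G m))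
    (h : ∀ g ∈ S, K.mapSub g A = A → g = 1) : Nat.card S ≤ Nat.card (K.orb A) := by
  have : Finite (AddSubgroup (Fin m → F)) := Finite.of_injective _ SetLike.coe_injective
  refine Nat.card_le_card_of_injective
    (fun g : S => (⟨K.mapSub g.1 A, g.1, rfl⟩ : K.orb A)) fun g g' e => ?_
  have e' : K.mapSub g.1 A = K.mapSub g'.1 A := congrArg Subtype.val e
  have h1 : K.mapSub (g'.1⁻¹ * g.1) A = A := by
    rw [K.mapSub_mul, e', ← K.mapSub_mul, inv_mul_cancel, K.mapSub_one]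
  exact Subtype.ext (inv_mul_eq_one.1 (h _ (mul_mem (inv_mem g'.2) g.2) h1)).symm

/-- Differences under a stabilising element stay inside. -/
lemma sub_mem_of_fix {m : ℕ} {A : AddSubgroup (Fin m → F)} {g : K.G m} (hg : K.mapSub g A = A)
    {y : Fin m → F} (hy : y ∈ A) : ap (g : GL (Fin m) F) y - y ∈ A :=
  sub_mem (by
    have := (K.mem_mapSub (g := g)).2 hy
    rwa [hg] at this) hy

/-- An isotropic vector not orthogonal to a given non-zero vector. -/
lemma exists_iso_notperp (k : ℕ) {y : Fin (k + 2) → F} (hy : y ≠ 0) :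
    ∃ v, K.fm _ v v = 0 ∧ v ≠ 0 ∧ K.fm _ y v ≠ 0 := by
  obtain ⟨fr⟩ := exists_frame K k
  have hf := K.skewForm (k + 2)
  by_contra h
  push Not at h
  have h' : ∀ v, K.fm _ v v = 0 → K.fm _ y v = 0 := fun v hv => by
    by_cases h0 : v = 0
    · rw [h0, zero_right hf]
    · exact h v hv h0
  have hyu := h' _ fr.hu
  have key : ∀ p, K.fm _ p fr.u ≠ 0 → K.fm _ y p = 0 := fun p hp => by
    obtain ⟨l, hl⟩ := exists_isotropic_shift hf fr.hu hp
    simpa [add_right hf, smul_right hf, hyu] using h' _ hl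
  obtain ⟨p, hp⟩ := (hf.nondegenerate y hy).2
  apply hp
  by_cases hpu : K.fm _ p fr.u = 0
  · have h1 := key (p + fr.u') (by rw [hf.add_left, hpu, zero_add, fr.hpair]; exact one_ne_zero)
    rwa [add_right hf, h' _ fr.hu', add_zero] at h1
  · exact key p hpu

/-- A group of isotropic vectors has at most as many elements as a maximal totally isotropic
subspace. -/
lemma sq_card_iso {m : ℕ} {A : AddSubgroup (Fin m → F)} (h : ∀ x ∈ A, K.fm m x x = 0) :
    Nat.card A * Nat.card A ≤ q ^ (2 * m) := by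
  obtain ⟨lam, hl⟩ := K.exists_lam_top
  have h3 := card_mul_perpG (K.pr_nondeg hl) A
  rw [card_fun_fin K.card_eq] at h3
  rw [← h3]
  have hf := K.skewForm m
  refine Nat.mul_le_mul_left _ (Nat.card_le_card_of_injective
    (fun x : A => (⟨K.ζ • (x : Fin m → F), fun a ha => ?_⟩ : perpG (K.pr lam) A)) fun x y e => ?_)
  · have hs := h _ (add_mem x.2 ha)
    rw [hf.add_left, add_right hf, add_right hf, h _ x.2, h _ ha] at hs
    have : K.om (K.ζ • (x : Fin m → F)) a = 0 := by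
      rw [om, smul_right hf, hf.smul_left, K.ζ_skew]
      linear_combination -K.ζ * hs
    show chi F (lam * K.om (K.ζ • (x : Fin m → F)) a) = 1
    rw [this, mul_zero, AddChar.map_zero_eq_one]
  · exact Subtype.ext (smul_right_injective _ K.ζ_ne (congrArg Subtype.val e))

/-- The basic equation for an orbit. -/
lemma orbit_equation {m : ℕ} (hm : 3 ≤ m) (A : AddSubgroup (Fin m → F)) {x : Fin m → F}
    (hx : x ∈ K.cls 0) :
    Nat.card (K.orb A) * (Nat.card A - 1)
      = K.thru A x * K.isoCount m + K.sAni (by omega) A * K.normCount m := by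
  rw [K.card_split A, Nat.add_sub_cancel, mul_add, K.iso_eq hm A hx, K.ani_eq hm A]

lemma exists_cls_zero (k : ℕ) : ∃ x : Fin (k + 2) → F, x ∈ K.cls 0 := by
  obtain ⟨fr⟩ := exists_frame K k
  exact ⟨fr.u, fr.u_ne, fr.hu⟩

lemma exists_ne_zero_mem (_K : UC F q) {m : ℕ} {A : AddSubgroup (Fin m → F)} (h : 1 < Nat.card A) :
    ∃ y ∈ A, y ≠ 0 := by
  by_contra hh
  push Not at hh
  rw [(AddSubgroup.eq_bot_iff_forall A).2 hh, AddSubgroup.card_bot] at h
  omega

/-- The orbit of a non-trivial subgroup has at least `q ^ (m - 1)` members. -/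
theorem pow_le_orb (k : ℕ) (hk : 1 ≤ k) (A : AddSubgroup (Fin (k + 2) → F)) (h1 : 1 < Nat.card A)
    (hs : Nat.card A ≤ q ^ (k + 2)) : q ^ (k + 1) ≤ Nat.card (K.orb A) := by
  obtain ⟨x, hx⟩ := K.exists_cls_zero k
  have he := K.orbit_equation (by omega) A hx
  have hpos : 0 < K.thru A x + K.sAni (m := k + 2) (by omega) A := by
    obtain ⟨y, hy, hy0⟩ := K.exists_ne_zero_mem h1
    by_cases hyy : K.fm _ y y = 0
    · have := K.exists_thru (by omega) hx ⟨hy0, hyy⟩ hy
      omega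
    · have := K.one_le_sAni (by omega) hy hyy
      omega
  obtain ⟨hc0, hc1⟩ := K.lt_classes (k + 1) (by omega)
  rw [show k + 1 + 1 = k + 2 from rfl] at hc0 hc1
  by_contra hlt
  push Not at hlt
  have hq := K.two_le
  have hg : (Nat.card (K.orb A) : ℤ) ≤ (q : ℤ) ^ (k + 1) - 1 := by
    have : Nat.card (K.orb A) + 1 ≤ q ^ (k + 1) := hlt
    have : ((Nat.card (K.orb A) + 1 : ℕ) : ℤ) ≤ ((q ^ (k + 1) : ℕ) : ℤ) := by exact_mod_cast this
    push_cast at this
    linarith
  have hs' : ((Nat.card A - 1 : ℕ) : ℤ) ≤ (q : ℤ) ^ (k + 2) - 1 := by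
    rw [Nat.cast_sub (by omega)]
    have : (Nat.card A : ℤ) ≤ ((q ^ (k + 2) : ℕ) : ℤ) := by exact_mod_cast hs
    push_cast at this ⊢
    linarith
  have he' : (Nat.card (K.orb A) : ℤ) * ((Nat.card A - 1 : ℕ) : ℤ)
      = (K.thru A x : ℤ) * K.isoCount (k + 2)
        + (K.sAni (m := k + 2) (by omega) A : ℤ) * K.normCount (k + 2) := by
    exact_mod_cast he
  have h5 : (Nat.card (K.orb A) : ℤ) * ((Nat.card A - 1 : ℕ) : ℤ)
      ≤ ((q : ℤ) ^ (k + 1) - 1) * ((q : ℤ) ^ (k + 2) - 1) :=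
    mul_le_mul hg hs' (Int.natCast_nonneg _) (le_trans (Int.natCast_nonneg _) hg)
  have h6 : (0 : ℤ) < (K.thru A x : ℤ) + K.sAni (m := k + 2) (by omega) A := by exact_mod_cast hpos
  have h7 : (0 : ℤ) ≤ ((q : ℤ) ^ (k + 1) - 1) * ((q : ℤ) ^ (k + 2) - 1) :=
    le_trans (mul_nonneg (Int.natCast_nonneg _) (Int.natCast_nonneg _)) h5
  nlinarith

end UC

namespace Frame

variable {K} {k : ℕ} (fr : Frame K k)
include fr

lemma tail_fm {x : Fin (k + 2) → F} (hx : K.fm _ x fr.u = 0) :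
    K.fm _ x x = K.fm k (tail2 x) (tail2 x) := by
  have hf := K.skewForm (k + 2)
  obtain ⟨a, ha⟩ := fr.perp_eq x hx
  have huu : ∀ w, K.fm _ fr.u (inc w) = 0 := fun w => (eq_zero_comm hf).1 (fr.inc_u w)
  conv_lhs => rw [ha]
  simp [hf.add_left, add_right hf, hf.smul_left, smul_right hf, fr.hu, fr.inc_u, huu, K.fm_inc]

lemma tail_fm2 {x y : Fin (k + 2) → F} (hx : K.fm _ x fr.u = 0) (hy : K.fm _ y fr.u = 0) :
    K.fm _ x y = K.fm k (tail2 x) (tail2 y) := by
  have hf := K.skewForm (k + 2)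
  obtain ⟨a, ha⟩ := fr.perp_eq x hx
  obtain ⟨b, hb⟩ := fr.perp_eq y hy
  have huu : ∀ w, K.fm _ fr.u (inc w) = 0 := fun w => (eq_zero_comm hf).1 (fr.inc_u w)
  conv_lhs => rw [ha, hb]
  simp [hf.add_left, add_right hf, hf.smul_left, smul_right hf, fr.hu, fr.inc_u, huu, K.fm_inc]

/-- The displacement by a root element. -/
lemma disp {g : K.G (k + 2)} {x : Fin (k + 2) → F} {c : F}
    (e : ∀ z, ap (g : GL (Fin (k + 2)) F) z
      = z + K.fm _ z fr.u • x + K.fm _ z x • fr.u + (c * K.fm _ z fr.u) • fr.u)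
    (y : Fin (k + 2) → F) :
    ap (g : GL (Fin (k + 2)) F) y - y
      = K.fm _ y fr.u • x + (K.fm _ y x + c * K.fm _ y fr.u) • fr.u := by
  rw [e]; module

end Frame

end CfsgLib.MinIndexUnit
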