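import Cfsg.Agent.Lib.MinIndex.Unit.Main

/-!
The minimal index of a proper subgroup of the projective special unitary groups of even dimension
at least six over the field with four elements.
-/

set_option autoImplicit false
set_option linter.unusedSectionVars false

namespace CfsgLib.MinIndexUnit

open CfsgLib.Geometric CfsgLib.Geometric.Unitary CfsgLib.ClassicalForms MulAction

variable {F : Type*} [Field F] [Finite F] {q : ℕ}

namespace UC

variable (K : UC F q)

/-- Orbits of subgroups in dimension four. -/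
theorem six_two (hq : q = 2) (A : AddSubgroup (Fin 4 → F)) (h1 : 1 < Nat.card A)
    (hle : Nat.card A ≤ q ^ 4) (hdvd : Nat.card A ∣ q ^ 8) :
    672 * Nat.card A ≤ Nat.card (K.orb A) * q ^ 9 := by
  classical
  obtain ⟨fr⟩ := exists_frame K 2
  have hx : fr.u ∈ K.cls (m := 4) 0 := ⟨fr.u_ne, fr.hu⟩
  have he := K.orbit_equation (by omega) A hx
  have hiso := K.iso_eq (by omega) A hx
  set γ := Nat.card (K.orb A) with hγ
  set μ := K.thru A fr.u with hμ
  set S := K.sAni (m := 4) (by omega) A with hS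
  have hI : K.isoCount 4 = 135 := by
    have := K.iso_four
    rw [show (q : ℤ) = 2 by exact_mod_cast hq] at this
    norm_num at this
    exact_mod_cast this
  have hN : K.normCount 4 = 120 := by
    have := K.norm_four
    rw [show (q : ℤ) = 2 by exact_mod_cast hq] at this
    norm_num at this
    exact_mod_cast this
  rw [hI, hN] at he
  rw [hI] at hiso
  have e9 : q ^ 9 = 512 := by rw [hq]; norm_num
  have e4 : q ^ 4 = 16 := by rw [hq]; norm_num
  rw [e9]
  have hpos : 1 ≤ μ + S := by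
    obtain ⟨y, hy, hy0⟩ := K.exists_ne_zero_mem h1
    by_cases hyy : K.fm _ y y = 0
    · have := K.exists_thru (by omega) hx ⟨hy0, hyy⟩ hy
      omega
    · have := K.one_le_sAni (by omega) hy hyy
      omega
  rcases hle.lt_or_eq with hlt | heq
  · have h2 := K.two_mul_le hdvd hlt
    rw [e4] at h2
    have h3 : γ * (Nat.card A - 1) ≤ γ * 7 := Nat.mul_le_mul_left _ (by omega)
    omega
  rw [heq, e4] at he
  rw [heq, e4]
  by_contra hlow
  have h21 : γ < 21 := by omega
  rcases Nat.eq_zero_or_pos μ with hμ0 | hμ0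
  · have hno : ∀ z ∈ A, K.fm 4 z z = 0 → z = 0 := by
      intro z hz hzz
      by_contra hz0
      have := K.exists_thru (by omega) hx ⟨hz0, hzz⟩ hz
      omega
    obtain ⟨y, hy, hy0⟩ := K.exists_ne_zero_mem h1
    obtain ⟨v, hvv, hv0, hyv⟩ := K.exists_iso_notperp 2 hy0
    obtain ⟨g, hg⟩ := K.exists_move_iso (by omega) hvv fr.hu hv0 fr.u_ne
    have h5 := fr.six_aniso (A := K.mapSub g A) (y := ap (g : GL (Fin 4) F) y) ?_
      (K.mem_mapSub.2 hy) ?_
    · rw [K.orb_mapSub_eq, ← hγ, show q ^ 5 = 32 by rw [hq]; norm_num] at h5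
      omega
    · rintro _ ⟨z, hz, rfl⟩ hzz
      change K.fm 4 (ap (g : GL (Fin 4) F) z) (ap (g : GL (Fin 4) F) z) = 0 at hzz
      rw [K.fm_ap] at hzz
      show ap (g : GL (Fin 4) F) z = 0
      rw [hno z hz hzz, ap_zero]
    · rwa [← hg, K.fm_ap]
  rcases Nat.eq_zero_or_pos S with hS0 | hS0
  · have hall : ∀ z ∈ A, K.fm 4 z z = 0 := by
      intro z hz
      by_contra hzz
      have := K.one_le_sAni (by omega) hz hzz
      omega
    have hone : ∀ g : K.G 4, K.thru (K.mapSub g A) fr.u = μ := fun g => by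
      rw [hμ, UC.thru, UC.thru, K.orb_mapSub_eq]
    have horth : ∀ x ∈ A, ∀ y ∈ A, K.fm 4 y x = 0 := by
      intro x hxA y hyA
      by_cases hx0 : x = 0
      · rw [hx0, zero_right (K.skewForm 4)]
      obtain ⟨g, hg⟩ := K.exists_move_iso (by omega) (hall x hxA) fr.hu hx0 fr.u_ne
      rw [← K.fm_ap g y x, hg]
      refine fr.six_orth (A := K.mapSub g A) ?_ (by rw [← hg]; exact K.mem_mapSub.2 hxA)
        (by rw [hone]; omega) (K.mem_mapSub.2 hyA)
      rintro _ ⟨z, hz, rfl⟩
      show K.fm 4 (ap (g : GL (Fin 4) F) z) (ap (g : GL (Fin 4) F) z) = 0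
      rw [K.fm_ap]; exact hall z hz
    obtain ⟨x, hxA, hx0⟩ := K.exists_ne_zero_mem h1
    obtain ⟨g, hg⟩ := K.exists_move_iso (by omega) (hall x hxA) fr.hu hx0 fr.u_ne
    have h6 := fr.six_plane (A := K.mapSub g A) (by rw [← hg]; exact K.mem_mapSub.2 hxA)
      (by rw [K.card_mapSub]; exact heq) ?_
    · rw [hone] at h6
      omega
    · rintro _ ⟨z, hz, rfl⟩ _ ⟨z', hz', rfl⟩
      show K.fm 4 (ap (g : GL (Fin 4) F) z) (ap (g : GL (Fin 4) F) z') = 0
      rw [K.fm_ap]; exact horth z' hz' z hz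
  · have hμ1 : μ = 1 := by omega
    have hS1 : S = 1 := by omega
    have h17 : γ = 17 := by omega
    rw [h17, hμ1] at hiso
    omega

/-- The number of vectors of value one is at most that of isotropic ones in even dimension. -/
lemma norm_le_iso {m : ℕ} (hm : Even m) (h0 : 0 < m) : K.normCount m ≤ K.isoCount m := by
  obtain ⟨k, rfl⟩ : ∃ k, m = k + 1 := ⟨m - 1, by omega⟩
  zify
  rw [K.iso_succ k, K.norm_succ k, hm.neg_one_pow]
  have hq : (2 : ℤ) ≤ q := by exact_mod_cast K.two_le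
  have : (1 : ℤ) ≤ (q : ℤ) ^ (k + 1) := one_le_pow₀ (by linarith)
  linarith

/-- The bound for a subgroup and its orbit over the field with four elements. -/
theorem orb_mul_card_two (hq : q = 2) {m : ℕ} (hm : 3 ≤ m) (hev : Even m)
    (B : AddSubgroup (Fin m → F)) (h1 : 1 < Nat.card B) :
    4 * K.normCount m ≤ 3 * (Nat.card (K.orb B) * Nat.card B) := by
  classical
  have hle := K.norm_le_iso hev (by omega)
  obtain ⟨k, rfl⟩ : ∃ k, m = k + 2 := ⟨m - 2, by omega⟩
  obtain ⟨x, hx⟩ := K.exists_cls_zero k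
  have he := K.orbit_equation hm B hx
  set γ := Nat.card (K.orb B) with hγ
  set μ := K.thru B x with hμ
  set S := K.sAni (m := k + 2) (by omega) B with hS
  set b := Nat.card B with hb
  obtain ⟨b', hb'⟩ : ∃ b', b = b' + 1 := ⟨b - 1, by omega⟩
  rw [hb', Nat.add_sub_cancel] at he
  rw [hb', mul_add, mul_one]
  have hsmall : b' ≤ 3 → 3 * (γ * b') ≤ 9 * γ := fun h => by
    calc 3 * (γ * b') ≤ 3 * (γ * 3) := Nat.mul_le_mul_left _ (Nat.mul_le_mul_left _ h)
      _ = 9 * γ := by ring
  obtain hge | h01 | h10 : 2 ≤ μ + S ∨ (μ = 0 ∧ S ≤ 1) ∨ (μ = 1 ∧ S = 0) := by omega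
  · have h4 : μ * K.normCount (k + 2) ≤ μ * K.isoCount (k + 2) := Nat.mul_le_mul_left _ hle
    have h5 : 2 * K.normCount (k + 2) ≤ (μ + S) * K.normCount (k + 2) :=
      Nat.mul_le_mul_right _ hge
    rw [add_mul] at h5
    omega
  · obtain ⟨hμ0, hS1⟩ := h01
    obtain ⟨y, hy, hy0⟩ := K.exists_ne_zero_mem h1
    have hiso : ∀ z ∈ B, z ≠ 0 → K.fm _ z z ≠ 0 := fun z hz hz0 hzz => by
      have := K.exists_thru hm (A := B) hx ⟨hz0, hzz⟩ hz
      omega
    have hSone : S = 1 := le_antisymm hS1 (K.one_le_sAni hm hy (hiso y hy hy0))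
    have hb4 := K.card_le_four (hiso y hy hy0) (B := B) fun z hz hz0 => by
      by_contra hne
      have := K.two_le_sAni hm hz hy (hiso z hz hz0) (hiso y hy hy0) hne
      omega
    rw [hμ0, hSone] at he
    have := hsmall (by omega)
    omega
  · obtain ⟨hμ1, hS0⟩ := h10
    have hall : ∀ z ∈ B, K.fm _ z z = 0 := by
      intro z hz
      by_contra hzz
      have := K.one_le_sAni hm hz hzz
      omega
    have hb4 : b ≤ 4 := le_trans (K.card_iso_le hm B h1 hall hx (hμ ▸ hμ1))
      (by rw [hq]; norm_num)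
    rw [hμ1, hS0] at he
    have := hsmall (by omega)
    omega

lemma normCount_step {j : ℕ} (hj : Even (j + 1)) (hq : q = 2) :
    K.normCount (j + 1 + 2) = 3 * q ^ (2 * (j + 1) + 1) + 4 * K.normCount (j + 1) := by
  zify
  have hj2 : Even (j + 1 + 2) := hj.add (by decide)
  rw [K.norm_succ j, show j + 1 + 2 = j + 2 + 1 from rfl, K.norm_succ (j + 2),
    show j + 2 + 1 = j + 1 + 2 from rfl, hj.neg_one_pow, hj2.neg_one_pow]
  subst hq
  push_cast
  ring

/-- Twice the same transvection sum. -/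
lemma isRoot_tEl_mul (hq : q = 2) {n : ℕ} {a b : Fin n → F} (ha : K.fm n a a = 0)
    (hb : K.fm n b b = 0) (hab : K.fm n b a = 0) :
    IsRoot K n (a + b) (K.tEl ha 1 (map_one _) * K.tEl hb 1 (map_one _)) := by
  have hf := K.skewForm n
  have hba : K.fm n a b = 0 := (eq_zero_comm hf).1 hab
  have h2 := UC.two_eq_zero hq K
  refine ⟨b, 1, by rw [add_right hf, hab, hb, add_zero], by rw [map_one, sub_self, hb],
    fun z => ?_⟩
  rw [Subgroup.coe_mul, ap_mul, K.ap_tEl, K.ap_tEl, hf.add_left, hf.smul_left, hab,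
    add_right hf]
  funext i
  simp only [Pi.add_apply, Pi.smul_apply, smul_eq_mul]
  linear_combination (-(K.fm n z a * b i + K.fm n z b * a i + K.fm n z b * b i)) * h2

end UC

variable {K : UC F q}

/-- The element for the final argument over the field with four elements. -/
theorem exists_semi_two (hq : q = 2) (k : ℕ) (hk : 1 ≤ k) :
    ∃ (fr : Frame K k) (s : K.G (k + 2)), s ^ (q + 1) = 1 ∧
      (∀ x, ap (s : GL (Fin (k + 2)) F) x = x → x = 0) ∧
      (∀ y, ∃ x, x - ap (s : GL (Fin (k + 2)) F) x = y) ∧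
      (∀ c hc, s * K.tEl fr.hu c hc = K.tEl fr.hu c hc * s) := by
  classical
  obtain ⟨fr⟩ := exists_frame K k
  obtain ⟨b, hb, hb1⟩ := K.exists_norm_one {1} (by simp; omega)
  rw [Finset.mem_singleton] at hb1
  have hb3 : b * b * b = 1 := by
    have h := hb
    rw [K.norm_eq_pow, hq] at h
    rw [← h]; ring
  have hb0 : b ≠ 0 := left_ne_zero_of_mul_eq_one hb
  obtain ⟨d, hd, hprod⟩ := K.exists_prod k b hb (fun h => absurd h (by omega)) (fun _ => hb1)
  set D : Fin (k + 2) → F := Fin.cons b (Fin.cons b d) with hD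
  have hDN : ∀ i, D i * K.σ (D i) = 1 ∧ D i ≠ 1 := fun i => by
    refine Fin.cases ?_ (fun j => ?_) i
    · simpa [hD] using ⟨hb, hb1⟩
    · refine Fin.cases ?_ (fun l => ?_) j
      · simpa [hD] using ⟨hb, hb1⟩
      · simpa [hD] using hd l
  obtain ⟨s, hs, hspow⟩ := K.exists_diag D (fun i => (hDN i).1)
    (by rw [hD, Fin.prod_cons, Fin.prod_cons, hprod, ← mul_assoc, hb3])
  have hsu : ap (s : GL (Fin (k + 2)) F) fr.u = b • fr.u := by
    rw [hs]; exact cons_mul_tail b d fr.tail_u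
  refine ⟨fr, s, hspow, fun x hx => ?_, fun y => ⟨fun i => y i / (1 - D i), ?_⟩,
    fun c hc => K.comm_tEl fr.hu hsu hb c hc⟩
  · funext i
    have h := congrFun hx i
    rw [hs] at h
    have h2 : (D i - 1) * x i = 0 := by linear_combination h
    exact (mul_eq_zero.1 h2).resolve_left (sub_ne_zero.2 (hDN i).2)
  · funext i
    have h0 : 1 - D i ≠ 0 := sub_ne_zero.2 (Ne.symm (hDN i).2)
    rw [hs, Pi.sub_apply]
    field_simp

namespace Frame

variable {m : ℕ} (fr : Frame K m) {Ω : Type*} [MulAction (K.G (m + 2)) Ω] [Finite Ω]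
  [IsPretransitive (K.G (m + 2)) Ω]
include fr

/-- There is no small non-trivial transitive action over the field with four elements. -/
theorem no_small_action_two (hq : q = 2) (hm : 4 ≤ m) (hev : Even m) (h1 : 1 < Nat.card Ω)
    (hΩ : 3 * Nat.card Ω < K.normCount (m + 2)) : False := by
  classical
  have hpts : Nat.card Ω < K.pts (m + 2) := by
    have h2 := K.pts_mul (m + 2)
    have h3 := K.norm_le_iso (hev.add (by decide : Even 2)) (by omega)
    rw [show q ^ 2 - 1 = 3 by rw [hq]; norm_num] at h2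
    omega
  have hbot : ∀ z : Ω, fr.cz z ≠ K.fx → fr.ab z = ⊥ := fun z hz => by
    refine fr.ab_eq_bot' (by omega) hpts (fun h4 A ha hle hdvd => ?_) hz
    subst h4
    have hN : K.normCount (4 + 2) = 2016 := by
      zify
      rw [K.norm_succ 5, show (q : ℤ) = 2 by exact_mod_cast hq]
      norm_num
    rw [hN] at hΩ
    exact lt_of_lt_of_le (Nat.mul_lt_mul_of_pos_right (show Nat.card Ω < 672 by omega) (by omega))
      (K.six_two hq A ha hle hdvd)
  have htop : ∀ z : Ω, fr.cz z = K.fx → fr.ab z = ⊤ := fun z hz => by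
    by_contra hz'
    obtain ⟨j, rfl⟩ : ∃ j, m = j + 1 := ⟨m - 1, by omega⟩
    obtain ⟨z0, hz0⟩ := fr.exists_moved_pt (by omega) h1
    have hM := fr.moved_bound (by omega) hz0 (B := 1) fun z' _ _ => by
      have : Finite (AddSubgroup (Fin (j + 1) → F)) := Finite.of_injective _ SetLike.coe_injective
      exact @Finite.card_pos _ _ ⟨⟨_, K.mem_orb_self (fr.ab z')⟩⟩
    rw [one_mul, hbot z0 hz0, AddSubgroup.card_bot, mul_one] at hM
    obtain ⟨B, hB1, hB⟩ := fr.exists_fixed_dual hz hz'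
    have hB2 := K.orb_mul_card_two hq (by omega) hev B hB1
    have hsub : Nat.card {y : Ω // fr.cz y = K.fx ∧ fr.ab y ≠ ⊤}
        ≤ Nat.card {y : Ω // fr.cz y = K.fx} :=
      Nat.card_le_card_of_injective (fun y => ⟨y.1, y.2.1⟩)
        fun y y' e => Subtype.ext (congrArg (fun t => t.1) e)
    have hsplit : Nat.card {y : Ω // fr.cz y = K.fx} + Nat.card {y : Ω // fr.cz y ≠ K.fx}
        = Nat.card Ω := by
      rw [← Nat.card_sum]; exact Nat.card_congr (Equiv.sumCompl _)
    have hstep := K.normCount_step (j := j) hev hq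
    omega
  have hnf : ∀ x ∈ K.cls (m := m + 2) 0, ∀ z : Ω, ¬ K.Fixes x z := fun x hx z =>
    fr.no_fixed (by omega) h1 hbot htop hx z
  have hcz : ∀ z : Ω, fr.cz z ≠ K.fx := fun z h =>
    hnf _ ⟨fr.u_ne, fr.hu⟩ z ((fr.cz_fixes z).1 h)
  obtain ⟨k, rfl⟩ : ∃ k, m = k + 2 := ⟨m - 2, by omega⟩
  obtain ⟨fr', s, hspow, hsfix, hssurj, hscomm⟩ := exists_semi_two (K := K) hq k (by omega)
  obtain ⟨z1, hC⟩ := exists_centr_fix fr (by omega) h1 hpts hcz hbot hspow hsfix hssurj
  have hinc : inc fr'.u ∈ K.cls (m := k + 2 + 2) 0 := ⟨fun e => fr'.u_ne (by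
    have := congrArg tail2 e
    rwa [tail2_inc] at this), by rw [K.fm_inc, fr'.hu]⟩
  obtain ⟨c, hc, hcT⟩ := hC _ (hscomm 1 (map_one _))
  rw [K.emb_tEl fr'.hu 1 (map_one _)] at hcT
  obtain ⟨c0, hc0, rfl⟩ := IsTr.eq_tEl hc fr.hu
  rcases K.fixed_two hq hc0 (map_one _) one_ne_zero with h0 | h0
  · -- the transvection fixes the point
    rw [K.tEl_congr fr.hu hc0 (map_zero _) h0, K.tEl_zero, one_mul] at hcT
    refine hnf _ hinc z1 fun w hw => ?_
    obtain ⟨d, hd, rfl⟩ := IsTr.eq_tEl hw hinc.2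
    rcases K.fixed_two hq hd (map_one _) one_ne_zero with h | h
    · rw [K.tEl_congr hinc.2 hd (map_zero _) h, K.tEl_zero, one_smul]
    · rw [K.tEl_congr hinc.2 hd (map_one _) h]
      exact hcT
  · -- the product is a root element at the sum
    rw [K.tEl_congr fr.hu hc0 (map_one _) h0] at hcT
    have hf := K.skewForm (k + 2 + 2)
    have hua : K.fm _ fr.u (inc fr'.u) = 0 := (eq_zero_comm hf).1 (fr.inc_u _)
    have hp : fr.u + inc fr'.u ∈ K.cls (m := k + 2 + 2) 0 := by
      refine ⟨fun e => fr'.u_ne ?_, ?_⟩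
      · have := congrArg tail2 e
        rwa [tail2_add, fr.tail_u, tail2_inc, zero_add] at this
      · simp only [hf.add_left, add_right hf, fr.hu, fr.inc_u, hua, hinc.2, add_zero]
    have hR := K.isRoot_tEl_mul hq fr.hu hinc.2 (fr.inc_u fr'.u)
    refine hnf _ hp z1 (fr.root_dich (by omega) hbot hp hR hcT ?_)
    rintro ⟨e, -, he⟩
    have h := congrArg tail2 (he fr.u')
    have hu'v : K.fm _ fr.u' (inc fr'.u) = 0 := (eq_zero_comm hf).1 (fr.inc_u' _)
    rw [Subgroup.coe_mul, ap_mul, K.ap_tEl, K.ap_tEl, hu'v, mul_zero, zero_smul, add_zero,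
      fr.hpair, mul_one, one_smul, add_right hf, fr.hpair, hu'v, add_zero, mul_one, tail2_add,
      tail2_add, tail2_smul, tail2_add, fr.tail_u, fr.tail_u', tail2_inc, zero_add, zero_add] at h
    have he0 : e = 0 := (smul_eq_zero.1 h.symm).resolve_right (by rw [zero_add]; exact fr'.u_ne)
    have h2 := he fr.u'
    rw [Subgroup.coe_mul, ap_mul, K.ap_tEl, K.ap_tEl, hu'v, mul_zero, zero_smul, add_zero,
      fr.hpair, mul_one, one_smul, he0, zero_mul, zero_smul, add_zero, add_eq_left] at h2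
    exact fr.u_ne h2

end Frame

namespace UC

variable (K)

/-- The stabiliser of a coordinate line. -/
def cline (m : ℕ) : Subgroup (K.G (m + 2)) where
  carrier := {g | ∃ a : F,
    ap (g : GL (Fin (m + 2)) F) (Pi.single 0 1) = a • (Pi.single 0 1 : Fin (m + 2) → F)}
  one_mem' := ⟨1, by rw [one_smul, Subgroup.coe_one, ap_one]⟩
  mul_mem' := by
    rintro g h ⟨a, ha⟩ ⟨b, hb⟩
    exact ⟨b * a, by rw [Subgroup.coe_mul, ap_mul, hb, ap_smul, ha, smul_smul]⟩
  inv_mem' := by
    rintro g ⟨a, ha⟩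
    have ha0 : a ≠ 0 := fun h =>
      ap_ne_zero (g : GL (Fin (m + 2)) F) (x := Pi.single 0 1) (by simp) (by
        rw [ha, h, zero_smul])
    exact ⟨a⁻¹, by rw [Subgroup.coe_inv, eq_inv_smul_iff₀ ha0, ← ap_smul, ← ha, ap_inv_ap]⟩

/-- An element scaling the first coordinate by a given unit of norm one. -/
lemma exists_coord {m : ℕ} {a : F} (ha : a * K.σ a = 1) :
    ∃ g : K.G (m + 2), ∀ x : Fin (m + 2) → F, ap (g : GL (Fin (m + 2)) F) x
      = fun i => (Fin.cons a (Fin.cons a⁻¹ fun _ => 1) : Fin (m + 2) → F) i * x i := by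
  obtain ⟨g, hg, -⟩ := K.exists_diag (Fin.cons a (Fin.cons a⁻¹ fun _ : Fin m => 1))
    (fun i => by
      refine Fin.cases ?_ (fun j => ?_) i
      · simpa using ha
      · refine Fin.cases ?_ (fun l => ?_) j
        · simp only [Fin.cons_succ, Fin.cons_zero, map_inv₀, ← mul_inv, ha, inv_one]
        · simp)
    (by
      rw [Fin.prod_cons, Fin.prod_cons]
      simp [mul_inv_cancel₀ (left_ne_zero_of_mul_eq_one ha)])
  exact ⟨g, hg⟩

lemma all_norm_one (hq : q = 2) {a : F} (ha : a ≠ 0) : a * K.σ a = 1 := by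
  have := Fintype.ofFinite F
  rw [K.norm_eq_pow]
  have h := FiniteField.pow_card_sub_one_eq_one a ha
  rw [← Nat.card_eq_fintype_card, K.card_eq] at h
  rw [hq] at h ⊢
  exact h

lemma center_le_cline (hq : q = 2) (m : ℕ) : Subgroup.center (K.G (m + 2)) ≤ K.cline m := by
  intro z hz
  obtain ⟨w, hw, hw1⟩ := K.exists_norm_one {1} (by simp; omega)
  rw [Finset.mem_singleton] at hw1
  obtain ⟨g, hg⟩ := K.exists_coord (m := m) hw
  have hw3 : w * w * w = 1 := by
    have h := K.norm_eq_pow w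
    rw [hw, hq] at h
    rw [h]; ring
  set e : Fin (m + 2) → F := Pi.single 0 1 with he
  have hge : ap (g : GL (Fin (m + 2)) F) e = w • e := by
    rw [hg]
    funext i
    refine Fin.cases ?_ (fun j => ?_) i <;> simp [he]
  have h := congrArg (fun t : K.G (m + 2) => ap (t : GL (Fin (m + 2)) F) e)
    (Subgroup.mem_center_iff.1 hz g)
  simp only [Subgroup.coe_mul, ap_mul, hge, ap_smul, hg] at h
  refine ⟨ap (z : GL (Fin (m + 2)) F) e 0, funext fun i => ?_⟩
  refine Fin.cases ?_ (fun j => ?_) i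
  · simp [he]
  have h2 := congrFun h j.succ
  simp only [Pi.smul_apply, smul_eq_mul] at h2
  suffices ap (z : GL (Fin (m + 2)) F) e j.succ = 0 by simp [he] at this ⊢; exact this
  set y := ap (z : GL (Fin (m + 2)) F) e j.succ
  refine Fin.cases (motive := fun j => (Fin.cons w (Fin.cons w⁻¹ fun _ => 1) : Fin (m + 2) → F)
    j.succ * y = w * y → y = 0) ?_ (fun l => ?_) j h2
  · intro h3
    simp only [Fin.cons_succ, Fin.cons_zero] at h3
    by_contra hy
    have h4 := mul_right_cancel₀ hy h3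
    apply hw1
    have h5 : w * w = 1 := by
      nth_rw 1 [← h4]
      exact inv_mul_cancel₀ (left_ne_zero_of_mul_eq_one hw)
    rw [h5, one_mul] at hw3
    exact hw3
  · intro h3
    simp only [Fin.cons_succ, one_mul] at h3
    have : (1 - w) * y = 0 := by linear_combination h3
    exact (mul_eq_zero.1 this).resolve_left (sub_ne_zero.2 (Ne.symm hw1))

theorem index_cline (hq : q = 2) (m : ℕ) (hm : 1 ≤ m) :
    3 * (K.cline m).index = K.normCount (m + 2) := by
  set e : Fin (m + 2) → F := Pi.single 0 1 with he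
  have hee : K.fm _ e e = K.ζ := by
    rw [he, UC.fm, K.conj.single_right, Pi.single_eq_same, mul_one]
  have he0 : e ≠ 0 := by simp [he]
  letI : MulAction (K.G (m + 2)) (K.cls (m := m + 2) K.ζ) :=
    { smul := fun g x => ⟨ap (g : GL (Fin (m + 2)) F) x.1, ap_ne_zero _ x.2.1, by
        rw [K.fm_ap]; exact x.2.2⟩
      one_smul := fun x => Subtype.ext (ap_one x.1)
      mul_smul := fun g h x => Subtype.ext (ap_mul _ _ x.1) }
  have : IsPretransitive (K.G (m + 2)) (K.cls (m := m + 2) K.ζ) := ⟨fun x y => by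
    obtain ⟨g, hg⟩ := K.exists_move (by omega) (x.2.2.trans y.2.2.symm) x.2.1 y.2.1
    exact ⟨g, Subtype.ext hg⟩⟩
  set e0 : K.cls (m := m + 2) K.ζ := ⟨e, he0, hee⟩
  set S := stabilizer (K.G (m + 2)) e0 with hS
  have h1 : S.index = K.normCount (m + 2) := by
    rw [hS, MulAction.index_stabilizer_of_transitive]
    exact K.card_cls K.ζ_skew K.ζ_ne
  let α : K.G (m + 2) → F := fun g => ap (g : GL (Fin (m + 2)) F) e 0
  have hα : ∀ g ∈ K.cline m, ap (g : GL (Fin (m + 2)) F) e = α g • e ∧ α g ≠ 0 := by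
    rintro g ⟨a, ha⟩
    have e1 : α g = a := by
      show ap (g : GL (Fin (m + 2)) F) e 0 = a
      rw [ha]; simp
    exact ⟨e1.symm ▸ ha, fun h => ap_ne_zero (g : GL (Fin (m + 2)) F) he0 (by
      rw [he, ha, ← e1, h, zero_smul])⟩
  let φ : K.cline m →* Fˣ :=
    { toFun := fun g => Units.mk0 (α g.1) (hα g.1 g.2).2
      map_one' := Units.ext (by simp [α, ap_one, he])
      map_mul' := fun g h => Units.ext (smul_left_injective F he0 (by
        show α (g.1 * h.1) • e = (α g.1 * α h.1) • e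
        rw [← (hα (g.1 * h.1) (mul_mem g.2 h.2)).1, Subgroup.coe_mul, ap_mul, (hα _ h.2).1,
          ap_smul, (hα _ g.2).1, smul_smul, mul_comm])) }
  have hsurj : Function.Surjective φ := fun c => by
    obtain ⟨g, hg⟩ := K.exists_coord (m := m) (K.all_norm_one hq c.ne_zero)
    have hge : ap (g : GL (Fin (m + 2)) F) e = (c : F) • e := by
      rw [hg]
      funext i
      refine Fin.cases ?_ (fun j => ?_) i <;> simp [he]
    refine ⟨⟨g, c, hge⟩, Units.ext ?_⟩
    show ap (g : GL (Fin (m + 2)) F) e 0 = c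
    rw [hge]; simp [he]
  have hSle : S ≤ K.cline m := fun g hg => ⟨1, by
    rw [one_smul]; exact congrArg Subtype.val hg⟩
  have hker : φ.ker = S.subgroupOf (K.cline m) := by
    ext g
    rw [MonoidHom.mem_ker, Subgroup.mem_subgroupOf, hS, mem_stabilizer_iff]
    constructor
    · intro h
      refine Subtype.ext ?_
      show ap (g.1 : GL (Fin (m + 2)) F) e = e
      rw [(hα _ g.2).1, show α g.1 = 1 from congrArg Units.val h, one_smul]
    · intro h
      refine Units.ext (smul_left_injective F he0 ?_)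
      show α g.1 • e = (1 : F) • e
      rw [← (hα _ g.2).1, one_smul]
      exact congrArg Subtype.val h
  have h2 : S.relIndex (K.cline m) = 3 := by
    rw [Subgroup.relIndex, ← hker, Subgroup.index_ker, MonoidHom.range_eq_top.2 hsurj,
      Nat.card_congr Subgroup.topEquiv.toEquiv, Nat.card_units, K.card_eq, hq]
    norm_num
  have h3 := Subgroup.relIndex_mul_index hSle
  rw [h1, h2] at h3
  exact h3

/-- The minimal index over the field with four elements. -/
theorem min_index_psu_two (hq : q = 2) {n : ℕ} (hn : 6 ≤ n) (hev : Even n) :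
    (∀ H : Subgroup (Cfsg.PSU n F q), H ≠ ⊤ → K.normCount n / 3 ≤ H.index) ∧
      ∃ H : Subgroup (Cfsg.PSU n F q), H.index = K.normCount n / 3 := by
  obtain ⟨m, rfl⟩ : ∃ m, n = m + 2 := ⟨n - 2, by omega⟩
  have hem : Even m := by rcases hev with ⟨r, hr⟩; exact ⟨r - 1, by omega⟩
  have hcl := K.index_cline hq m (by omega)
  let e : Cfsg.SU (m + 2) F q ≃* K.G (m + 2) := suEquivIsomSL (n := m + 2) K.ζ_ne
  let π : K.G (m + 2) →* Cfsg.PSU (m + 2) F q :=
    (QuotientGroup.mk' (Subgroup.center (Cfsg.SU (m + 2) F q))).comp e.symm.toMonoidHom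
  have hπ : Function.Surjective π := (QuotientGroup.mk'_surjective _).comp e.symm.surjective
  refine ⟨fun H hH => ?_, ⟨(K.cline m).map π, ?_⟩⟩
  · rw [← Subgroup.index_comap_of_surjective H hπ]
    by_contra h
    push Not at h
    obtain ⟨fr⟩ := exists_frame K m
    refine fr.no_small_action_two (Ω := K.G (m + 2) ⧸ H.comap π) hq (by omega) hem ?_ ?_
    · rw [← Subgroup.index]
      refine Subgroup.one_lt_index_of_ne_top fun h => hH ?_
      rw [eq_top_iff]
      intro x _
      obtain ⟨g, rfl⟩ := hπ x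
      exact (h.ge trivial : g ∈ H.comap π)
    · rw [← Subgroup.index]
      omega
  · rw [← Subgroup.index_comap_of_surjective _ hπ, Subgroup.comap_map_eq, sup_eq_left.2,
      ← hcl, Nat.mul_div_cancel_left _ (by norm_num)]
    intro g hg
    refine K.center_le_cline hq m (Subgroup.mem_center_iff.2 fun h => ?_)
    have h1 : e.symm g ∈ Subgroup.center (Cfsg.SU (m + 2) F q) :=
      (QuotientGroup.eq_one_iff _).1 hg
    apply e.symm.injective
    rw [map_mul, map_mul]
    exact Subgroup.mem_center_iff.1 h1 _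

lemma normCount_even (hq : q = 2) {n : ℕ} (hn : Even n) (h0 : 0 < n) :
    2 ^ (n - 1) * (2 ^ n - 1) = K.normCount n := by
  obtain ⟨k, rfl⟩ : ∃ k, n = k + 1 := ⟨n - 1, by omega⟩
  zify [show 1 ≤ 2 ^ (k + 1) from Nat.one_le_two_pow]
  rw [K.norm_succ k, hn.neg_one_pow, Nat.add_sub_cancel, hq]
  push_cast
  ring

end UC

end CfsgLib.MinIndexUnit
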